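import Mathlib
import Cfsg.Prelude.Def_KGroupFacts

/-!
# Tools for proving that a Schur multiplier is trivial

Stem extensions are handled as homomorphisms `τ : Γ →* Ω` into an ambient group with range a given
subgroup `G`.
-/

set_option autoImplicit false

namespace Cfsg.Agent.Lib.Helper3.SchurTriv

open Subgroup
open scoped Pointwise

universe u

/-- `τ` is a stem extension of the subgroup `G` of `Ω`. -/
structure Stem {Γ Ω : Type*} [Group Γ] [Group Ω] (τ : Γ →* Ω) (G : Subgroup Ω) : Prop where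
  range : τ.range = G
  cen : τ.ker ≤ center Γ
  comm : τ.ker ≤ commutator Γ

/-- a stem extension with kernel of order `p`. -/
structure PStem (p : ℕ) {Γ Ω : Type*} [Group Γ] [Group Ω] (τ : Γ →* Ω) (G : Subgroup Ω) : Prop
    extends Stem τ G where
  card : Nat.card τ.ker = p

section basic

variable {Γ Ω : Type*} [Group Γ] [Group Ω] {τ : Γ →* Ω} {G : Subgroup Ω}

theorem Stem.lift (h : Stem τ G) {g : Ω} (hg : g ∈ G) : ∃ x, τ x = g := by
  rw [← h.range] at hg
  exact hg

theorem Stem.mem (h : Stem τ G) (x : Γ) : τ x ∈ G := by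
  rw [← h.range]
  exact ⟨x, rfl⟩

theorem Stem.comm_of_ker (h : Stem τ G) {c : Γ} (hc : τ c = 1) (x : Γ) : c * x = x * c :=
  ((mem_center_iff.1 (h.cen (MonoidHom.mem_ker.2 hc))) x).symm

/-- two lifts of the same element differ by a central element. -/
theorem Stem.exists_eq_mul (_h : Stem τ G) {x y : Γ} (e : τ x = τ y) : ∃ c, τ c = 1 ∧ x = y * c :=
  ⟨y⁻¹ * x, by rw [map_mul, map_inv, e, inv_mul_cancel], by group⟩

/-- transfer lemma -/
theorem map_pow_index {A : Type*} [CommGroup A] (H : Subgroup Γ) [H.FiniteIndex] (φ : H →* A)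
    {z : Γ} (hz : z ∈ center Γ) (hc : z ∈ commutator Γ) (hzH : z ∈ H) :
    φ ⟨z, hzH⟩ ^ H.index = 1 := by
  have h1 : MonoidHom.transfer φ z = 1 := by
    have : commutator Γ ≤ (MonoidHom.transfer φ).ker := Abelianization.commutator_subset_ker _
    exact this hc
  have key : ∀ (k : ℕ) (g₀ : Γ), g₀⁻¹ * z ^ k * g₀ ∈ H → g₀⁻¹ * z ^ k * g₀ = z ^ k := by
    intro k g₀ _
    have := mem_center_iff.1 ((center Γ).pow_mem hz k) g₀
    rw [mul_assoc, ← this, inv_mul_cancel_left]
  rw [MonoidHom.transfer_eq_pow φ z key] at h1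
  rw [← map_pow, ← h1]
  rfl

theorem index_comap (h : Stem τ G) (H0 : Subgroup Ω) : (H0.comap τ).index = H0.relIndex G := by
  rw [Subgroup.index_comap, h.range]

theorem card_mul_relIndex {H0 G : Subgroup Ω} (hle : H0 ≤ G) :
    Nat.card H0 * H0.relIndex G = Nat.card G := by
  have h1 := Subgroup.relIndex_mul_relIndex ⊥ H0 G bot_le hle
  rwa [Subgroup.relIndex_bot_left, Subgroup.relIndex_bot_left] at h1

theorem not_dvd_relIndex {H0 G : Subgroup Ω} [Finite G] (hle : H0 ≤ G) {p m : ℕ}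
    (hm : Nat.card G = Nat.card H0 * m) (hpm : ¬ p ∣ m) : ¬ p ∣ H0.relIndex G := by
  have h1 := card_mul_relIndex hle
  have h2 : 0 < Nat.card H0 := by
    have : Finite H0 := Finite.of_injective (Subgroup.inclusion hle) (Subgroup.inclusion_injective hle)
    exact Nat.card_pos
  rw [hm] at h1
  rwa [Nat.eq_of_mul_eq_mul_left h2 h1]

theorem not_dvd_relIndex' {H0 G : Subgroup Ω} (hle : H0 ≤ G) {p k : ℕ}
    (hk : p ^ k ∣ Nat.card H0) (hG : ¬ p ^ (k + 1) ∣ Nat.card G) : ¬ p ∣ H0.relIndex G := by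
  intro hd
  apply hG
  rw [← card_mul_relIndex hle, pow_succ]
  exact Nat.mul_dvd_mul hk hd

theorem PStem.pow_eq_one {p : ℕ} (h : PStem p τ G) {c : Γ} (hc : τ c = 1) : c ^ p = 1 := by
  have := pow_card_eq_one' (G := τ.ker) (x := ⟨c, hc⟩)
  rw [h.card] at this
  exact congrArg Subtype.val this

theorem PStem.exists_ne {p : ℕ} (hp : p.Prime) (h : PStem p τ G) : ∃ z, τ z = 1 ∧ z ≠ 1 := by
  have h1 : 1 < Nat.card τ.ker := by rw [h.card]; exact hp.one_lt
  have : Finite τ.ker := Nat.finite_of_card_ne_zero (by omega)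
  have : Nontrivial τ.ker := (Finite.one_lt_card_iff_nontrivial).1 h1
  obtain ⟨z, hz⟩ := _root_.exists_ne (1 : τ.ker)
  exact ⟨z.1, z.2, fun e => hz (Subtype.ext e)⟩

/-- criterion via a homomorphism to an abelian group. -/
theorem PStem.false_of_hom [Finite Γ] [Finite G] {p : ℕ} (hp : p.Prime) (h : PStem p τ G)
    (H0 : Subgroup Ω) (hpm : ¬ p ∣ H0.relIndex G)
    {A : Type*} [CommGroup A] (φ : H0.comap τ →* A)
    (hφ : ∀ z (hz : τ z = 1), φ ⟨z, by rw [mem_comap, hz]; exact H0.one_mem⟩ = 1 → z = 1) : False := by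
  obtain ⟨z, hz, hz1⟩ := h.exists_ne hp
  have hzH : z ∈ H0.comap τ := by rw [mem_comap, hz]; exact H0.one_mem
  have h1 := map_pow_index (H0.comap τ) φ (h.cen hz) (h.comm hz) hzH
  rw [index_comap h.toStem] at h1
  have h2 : φ ⟨z, hzH⟩ ^ p = 1 := by
    rw [← map_pow]
    have : (⟨z, hzH⟩ : H0.comap τ) ^ p = 1 := Subtype.ext (h.pow_eq_one hz)
    rw [this, map_one]
  have h3 : φ ⟨z, hzH⟩ = 1 := by
    have hco : Nat.Coprime p (H0.relIndex G) := (Nat.Prime.coprime_iff_not_dvd hp).2 hpm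
    have := pow_gcd_eq_one.2 ⟨h2, h1⟩
    rwa [hco.gcd_eq_one, pow_one] at this
  exact hz1 (hφ z hz h3)

/-- criterion: a subgroup of index prime to `p` whose preimage is commutative. -/
theorem PStem.false_of_comm [Finite Γ] [Finite G] {p : ℕ} (hp : p.Prime) (h : PStem p τ G)
    (S : Set Ω) (hS : S ⊆ G) (hpm : ¬ p ∣ (closure S).relIndex G)
    (hc : ∀ x y, τ x ∈ S → τ y ∈ S → x * y = y * x) : False := by
  have hmap : closure S ≤ (closure (τ ⁻¹' S)).map τ := by
    rw [closure_le]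
    intro s hs
    obtain ⟨x, rfl⟩ := h.lift (hS hs)
    exact ⟨x, subset_closure hs, rfl⟩
  have hcc : ∀ x ∈ closure (τ ⁻¹' S), ∀ y ∈ closure (τ ⁻¹' S), x * y = y * x := by
    intro x hx y hy
    have := Subgroup.isMulCommutative_closure (k := τ ⁻¹' S) (fun x hx y hy => hc x y hx hy)
    exact congrArg Subtype.val (this.is_comm.comm (⟨x, hx⟩ : closure (τ ⁻¹' S)) ⟨y, hy⟩)
  have hcom : ∀ x y : (closure S).comap τ, x * y = y * x := by
    rintro ⟨x, hx⟩ ⟨y, hy⟩
    obtain ⟨x', hx', ex⟩ := hmap hx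
    obtain ⟨y', hy', ey⟩ := hmap hy
    obtain ⟨c, hc1, rfl⟩ := h.exists_eq_mul ex.symm
    obtain ⟨d, hd1, rfl⟩ := h.exists_eq_mul ey.symm
    apply Subtype.ext
    show x' * c * (y' * d) = y' * d * (x' * c)
    have e1 := h.comm_of_ker hc1
    have e2 := h.comm_of_ker hd1
    calc x' * c * (y' * d) = x' * (c * y') * d := by group
      _ = x' * (y' * c) * d := by rw [e1]
      _ = (x' * y') * (c * d) := by group
      _ = (y' * x') * (d * c) := by rw [hcc x' hx' y' hy', e1]
      _ = y' * (x' * d) * c := by group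
      _ = y' * (d * x') * c := by rw [e2]
      _ = y' * d * (x' * c) := by group
  let _ : CommGroup ((closure S).comap τ) := { (inferInstance : Group _) with mul_comm := hcom }
  exact h.false_of_hom hp (closure S) hpm (MonoidHom.id _)
    (fun z _ e => congrArg Subtype.val e)

/-- criterion: a complement over a subgroup of index prime to `p`. -/
theorem PStem.false_of_compl [Finite Γ] [Finite G] {p : ℕ} (hp : p.Prime) (h : PStem p τ G)
    (K : Subgroup Γ) (hK : ∀ x ∈ K, τ x = 1 → x = 1)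
    (hpm : ¬ p ∣ (K.map τ).relIndex G) : False := by
  classical
  have hinj : ∀ x ∈ K, ∀ y ∈ K, τ x = τ y → x = y := by
    intro x hx y hy e
    have := hK (x * y⁻¹) (K.mul_mem hx (K.inv_mem hy)) (by rw [map_mul, map_inv, e, mul_inv_cancel])
    exact mul_inv_eq_one.1 this
  let r : (K.map τ).comap τ → Γ := fun x => Classical.choose (Subgroup.mem_map.1 x.2)
  have hr : ∀ x, r x ∈ K ∧ τ (r x) = τ x.1 := fun x => Classical.choose_spec (Subgroup.mem_map.1 x.2)
  have hrm : ∀ x y, r (x * y) = r x * r y := by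
    intro x y
    apply hinj _ (hr _).1 _ (K.mul_mem (hr x).1 (hr y).1)
    rw [(hr _).2, map_mul, (hr x).2, (hr y).2]
    simp
  have hker : ∀ x, τ (x.1 * (r x)⁻¹) = 1 := by
    intro x
    rw [map_mul, map_inv, (hr x).2, mul_inv_cancel]
  let _ : CommGroup (center Γ) :=
    { (inferInstance : Group (center Γ)) with
      mul_comm := fun a b => Subtype.ext (mem_center_iff.1 b.2 a.1) }
  let φ : (K.map τ).comap τ →* center Γ :=
    MonoidHom.mk' (fun x => ⟨x.1 * (r x)⁻¹, h.cen (hker x)⟩) (by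
      intro x y
      apply Subtype.ext
      show (x * y).1 * (r (x * y))⁻¹ = (x.1 * (r x)⁻¹) * (y.1 * (r y)⁻¹)
      rw [hrm, h.comm_of_ker (hker x)]
      simp only [Subgroup.coe_mul, mul_inv_rev]
      have := h.comm_of_ker (hker y) x.1
      calc x.1 * y.1 * ((r y)⁻¹ * (r x)⁻¹) = x.1 * (y.1 * (r y)⁻¹) * (r x)⁻¹ := by group
        _ = (y.1 * (r y)⁻¹) * x.1 * (r x)⁻¹ := by rw [this]
        _ = _ := by group)
  refine h.false_of_hom (A := center Γ) hp (K.map τ) hpm φ ?_
  intro z hz e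
  have h1 : z * (r ⟨z, by rw [mem_comap, hz]; exact one_mem _⟩)⁻¹ = 1 := congrArg Subtype.val e
  have h2 := hr ⟨z, by rw [mem_comap, hz]; exact one_mem _⟩
  have h3 := hK _ h2.1 (by rw [h2.2]; exact hz)
  rw [h3] at h1
  simpa using h1

end basic

section reduction

theorem stem_quot {Γ Ω : Type*} [Group Γ] [Group Ω] {τ : Γ →* Ω} {G : Subgroup Ω} (h : Stem τ G)
    (N : Subgroup Γ) [N.Normal] (hN : N ≤ τ.ker) : Stem (QuotientGroup.lift N τ hN) G := by
  refine ⟨?_, ?_, ?_⟩
  · rw [← h.range]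
    ext x
    constructor
    · rintro ⟨q, rfl⟩
      obtain ⟨y, rfl⟩ := QuotientGroup.mk_surjective q
      exact ⟨y, rfl⟩
    · rintro ⟨y, rfl⟩
      exact ⟨QuotientGroup.mk y, rfl⟩
  · intro q hq
    obtain ⟨y, rfl⟩ := QuotientGroup.mk_surjective q
    have hy : τ y = 1 := hq
    rw [mem_center_iff]
    intro r
    obtain ⟨w, rfl⟩ := QuotientGroup.mk_surjective r
    rw [← QuotientGroup.mk_mul, ← QuotientGroup.mk_mul, h.comm_of_ker hy]
  · intro q hq
    obtain ⟨y, rfl⟩ := QuotientGroup.mk_surjective q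
    have hy : τ y = 1 := hq
    have h1 : y ∈ commutator Γ := h.comm hy
    have h2 : (commutator Γ).map (QuotientGroup.mk' N) ≤ commutator (Γ ⧸ N) := by
      rw [commutator_def, commutator_def, Subgroup.map_commutator]
      exact Subgroup.commutator_mono le_top le_top
    exact h2 ⟨y, h1, rfl⟩

theorem ker_eq_bot_of_prime {Ω : Type u} [Group Ω] (G : Subgroup Ω)
    (h : ∀ p : ℕ, p.Prime → ∀ (Γ : Type u) [Group Γ] [Finite Γ] (τ : Γ →* Ω), PStem p τ G → False) :
    ∀ (Γ : Type u) [Group Γ] [Finite Γ] (τ : Γ →* Ω), Stem τ G → τ.ker = ⊥ := by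
  have key : ∀ n : ℕ, ∀ (Γ : Type u) [Group Γ] [Finite Γ] (τ : Γ →* Ω), Nat.card Γ = n →
      Stem τ G → τ.ker = ⊥ := by
    intro n
    induction n using Nat.strong_induction_on with
    | _ n ih =>
      intro Γ _ _ τ hn hs
      by_contra hne
      by_cases hp : (Nat.card τ.ker).Prime
      · exact h _ hp Γ τ ⟨hs, rfl⟩
      · have hc1 : Nat.card τ.ker ≠ 1 := by
          intro e
          exact hne ((Subgroup.card_eq_one).1 e)
        obtain ⟨p, hp', hdvd⟩ := Nat.exists_prime_and_dvd hc1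
        have : Fact p.Prime := ⟨hp'⟩
        obtain ⟨z, hz⟩ := exists_prime_orderOf_dvd_card' p hdvd
        have hzc : (z : Γ) ∈ center Γ := hs.cen z.2
        have hNle : zpowers (z : Γ) ≤ τ.ker := (zpowers_le).2 z.2
        have hNn : (zpowers (z : Γ)).Normal := by
          have hle : zpowers (z : Γ) ≤ center Γ := (zpowers_le).2 hzc
          refine ⟨fun n hn g => ?_⟩
          rw [(mem_center_iff.1 (hle hn)) g, mul_inv_cancel_right]
          exact hn
        have hst := stem_quot hs (zpowers (z : Γ)) hNle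
        have hcN : Nat.card (zpowers (z : Γ)) = p := by
          rw [Nat.card_zpowers, Subgroup.orderOf_coe, hz]
        have hcard : Nat.card (Γ ⧸ zpowers (z : Γ)) < n := by
          have := Subgroup.card_eq_card_quotient_mul_card_subgroup (zpowers (z : Γ))
          rw [hn, hcN] at this
          have h2 := hp'.two_le
          have h3 : 0 < Nat.card (Γ ⧸ zpowers (z : Γ)) := Nat.card_pos
          nlinarith
        have hb := ih _ hcard (Γ ⧸ zpowers (z : Γ)) _ rfl hst
        have hle : τ.ker ≤ zpowers (z : Γ) := by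
          intro y hy
          have : (QuotientGroup.mk y : Γ ⧸ zpowers (z : Γ)) ∈
              (QuotientGroup.lift (zpowers (z : Γ)) τ hNle).ker := hy
          rw [hb, Subgroup.mem_bot, QuotientGroup.eq_one_iff] at this
          exact this
        have : τ.ker = zpowers (z : Γ) := le_antisymm hle hNle
        rw [this, hcN] at hp
        exact hp hp'
  intro Γ _ _ τ hs
  exact key _ Γ τ rfl hs

theorem hasCyclic_one {Ω : Type u} [Group Ω] (G : Subgroup Ω) [Finite G]
    (h : ∀ (Γ : Type u) [Group Γ] [Finite Γ] (τ : Γ →* Ω), Stem τ G → τ.ker = ⊥) :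
    HasCyclicSchurMultiplier ↥G 1 := by
  constructor
  · refine ⟨↥G, inferInstance, inferInstance, MonoidHom.id _, ⟨fun x => ⟨x, rfl⟩, ?_, ?_⟩, ?_⟩
    · intro x hx
      have : x = 1 := hx
      rw [this]; exact one_mem _
    · intro x hx
      have : x = 1 := hx
      rw [this]; exact one_mem _
    · have hs : ∀ x : (MonoidHom.id ↥G).ker, x = 1 := fun x => Subtype.ext x.2
      have hs' : ∀ x : Multiplicative (ZMod 1), x = 1 := fun x => Subsingleton.elim (α := ZMod 1) _ _
      exact ⟨{ toFun := fun _ => 1, invFun := fun _ => 1, left_inv := fun x => (hs x).symm,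
               right_inv := fun x => (hs' x).symm, map_mul' := fun _ _ => (one_mul 1).symm }⟩
  · intro Γ _ _ σ hσ
    have hk : (G.subtype.comp σ).ker = σ.ker := by
      ext x
      simp [MonoidHom.mem_ker]
    have hst : Stem (G.subtype.comp σ) G := by
      refine ⟨?_, ?_, ?_⟩
      · ext x
        constructor
        · rintro ⟨y, rfl⟩
          exact (σ y).2
        · intro hx
          obtain ⟨y, hy⟩ := hσ.1 ⟨x, hx⟩
          exact ⟨y, by simp [hy]⟩
      · rw [hk]; exact hσ.2.1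
      · rw [hk]; exact hσ.2.2
    have := h Γ _ hst
    rw [hk] at this
    refine ⟨1, fun x => ⟨1, ?_⟩⟩
    have hx : (x : Γ) ∈ (⊥ : Subgroup Γ) := this ▸ x.2
    rw [Subgroup.mem_bot] at hx
    exact Subtype.ext hx.symm

end reduction

section tools

variable {Γ : Type*} [Group Γ]

theorem card_sup_le (N H : Subgroup Γ) (hLE : H ≤ normalizer N) :
    Nat.card ↥(N ⊔ H) ≤ Nat.card N * Nat.card H := by
  have := coe_mul_of_right_le_normalizer_left N H hLE
  calc Nat.card ↥(N ⊔ H) = Nat.card (↑(N ⊔ H) : Set Γ) := rfl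
    _ = Nat.card ((N : Set Γ) * (H : Set Γ) : Set Γ) := by rw [this]
    _ ≤ _ := Set.natCard_mul_le

theorem mem_normalizer_of_forall (N : Subgroup Γ) [Finite N] {g : Γ}
    (h : ∀ n ∈ N, g * n * g⁻¹ ∈ N) : g ∈ normalizer N := by
  rw [mem_normalizer_iff]
  intro x
  refine ⟨h x, fun hx => ?_⟩
  let f : N → N := fun n => ⟨g * n.1 * g⁻¹, h n.1 n.2⟩
  have hf : Function.Injective f := by
    intro a b e
    have : g * a.1 * g⁻¹ = g * b.1 * g⁻¹ := congrArg Subtype.val e
    exact Subtype.ext (by simpa using this)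
  obtain ⟨n, hn⟩ := Finite.surjective_of_injective hf ⟨_, hx⟩
  have : g * n.1 * g⁻¹ = g * x * g⁻¹ := congrArg Subtype.val hn
  have e : n.1 = x := by simpa using this
  rw [← e]; exact n.2

/-- a group generated by two involutions whose product has order dividing 4 has at most 8 elements -/
theorem card_dihedral_le [Finite Γ] {s t : Γ} (hs : s * s = 1) (ht : t * t = 1)
    (hst : s * t * (s * t) * (s * t * (s * t)) = 1) : Nat.card (closure {s, t}) ≤ 8 := by
  have hsi : s⁻¹ = s := inv_eq_of_mul_eq_one_left hs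
  have hti : t⁻¹ = t := inv_eq_of_mul_eq_one_left ht
  have hn : zpowers s ≤ normalizer (zpowers (s * t)) := by
    rw [zpowers_le]
    apply mem_normalizer_of_forall
    intro n hn
    obtain ⟨k, rfl⟩ := hn
    have : s * (s * t) ^ k * s⁻¹ = (s * (s * t) * s⁻¹) ^ k := (conj_zpow).symm
    rw [this]
    have e : s * (s * t) * s⁻¹ = (s * t)⁻¹ := by
      rw [mul_inv_rev, hsi, hti, ← mul_assoc, hs, one_mul]
    rw [e]
    exact (zpowers (s * t)).zpow_mem ((zpowers (s * t)).inv_mem (mem_zpowers _)) k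
  have hle : closure {s, t} ≤ zpowers (s * t) ⊔ zpowers s := by
    rw [closure_le]
    intro x hx
    have hsm : s ∈ zpowers (s * t) ⊔ zpowers s := (le_sup_right : zpowers s ≤ _) (mem_zpowers s)
    rcases hx with rfl | rfl
    · exact hsm
    · have h1 : s * x ∈ zpowers (s * x) ⊔ zpowers s :=
        (le_sup_left : zpowers (s * x) ≤ _) (mem_zpowers _)
      have := mul_mem hsm h1
      rwa [← mul_assoc, hs, one_mul] at this
  have h1 : Nat.card (zpowers (s * t)) ≤ 4 := by
    rw [Nat.card_zpowers]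
    apply orderOf_le_of_pow_eq_one (by norm_num)
    rw [show (4 : ℕ) = 2 + 2 from rfl, pow_add, pow_two]
    exact hst
  have h2 : Nat.card (zpowers s) ≤ 2 := by
    rw [Nat.card_zpowers]
    apply orderOf_le_of_pow_eq_one (by norm_num)
    rw [pow_two]; exact hs
  calc Nat.card (closure {s, t}) ≤ Nat.card ↥(zpowers (s * t) ⊔ zpowers s) :=
        Nat.card_le_card_of_injective _ (Subgroup.inclusion_injective hle)
    _ ≤ Nat.card (zpowers (s * t)) * Nat.card (zpowers s) := card_sup_le _ _ hn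
    _ ≤ 4 * 2 := Nat.mul_le_mul h1 h2

end tools

section local_args

variable {Γ Ω : Type*} [Group Γ] [Group Ω] {τ : Γ →* Ω} {G : Subgroup Ω}

theorem Stem.comm_lifts (h : Stem τ G) {x y : Γ} (e : τ x = τ y) : x * y = y * x := by
  obtain ⟨c, hc, rfl⟩ := h.exists_eq_mul e
  rw [mul_assoc, h.comm_of_ker hc y]

/-- cyclic Sylow subgroups -/
theorem PStem.false_of_cyclic [Finite Γ] [Finite G] {p : ℕ} (hp : p.Prime) (h : PStem p τ G)
    (x : Ω) (hx : x ∈ G) {m : ℕ} (hm : Nat.card G = orderOf x * m) (hpm : ¬ p ∣ m) : False := by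
  refine h.false_of_comm hp {x} (by simpa using hx) ?_ ?_
  · refine not_dvd_relIndex ((closure_le G).2 (by simpa using hx)) ?_ hpm
    rw [← zpowers_eq_closure, Nat.card_zpowers]
    exact hm
  · intro a b ha hb
    exact h.comm_lifts (ha.trans hb.symm)

/-- the order of `⟨a, b⟩` for commuting elements of order `3` -/
theorem nine_dvd_card [Finite Ω] {a b : Ω} (ha : a ^ 3 = 1) (hb : b ^ 3 = 1) (hab : a * b = b * a)
    (ha1 : a ≠ 1) (hne : b ∉ zpowers a) : 3 ^ 2 ∣ Nat.card (closure {a, b}) := by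
  have hcm : ∀ x ∈ ({a, b} : Set Ω), ∀ y ∈ ({a, b} : Set Ω), x * y = y * x := by
    rintro x (rfl | rfl) y (rfl | rfl)
    · rfl
    · exact hab
    · exact hab.symm
    · rfl
  have hC := Subgroup.isMulCommutative_closure hcm
  have h3 : ∀ x ∈ closure {a, b}, x ^ 3 = 1 := by
    intro x hx
    induction hx using closure_induction with
    | mem x hx => rcases hx with rfl | rfl <;> assumption
    | one => simp
    | mul x y hx hy ihx ihy =>
      have : x * y = y * x := congrArg Subtype.val (hC.is_comm.comm (⟨x, hx⟩ : closure {a, b}) ⟨y, hy⟩)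
      rw [(show Commute x y from this).mul_pow, ihx, ihy, one_mul]
    | inv x _ ih => rw [inv_pow, ih, inv_one]
  have hP : IsPGroup 3 (closure {a, b}) := by
    intro x
    exact ⟨1, Subtype.ext (by simpa using h3 x.1 x.2)⟩
  have : Fact (Nat.Prime 3) := ⟨by norm_num⟩
  obtain ⟨k, hk⟩ := (IsPGroup.iff_card).1 hP
  rw [hk]
  apply pow_dvd_pow
  by_contra hlt
  have hk1 : k ≤ 1 := by omega
  have hle : zpowers a ≤ closure {a, b} := (zpowers_le).2 (subset_closure (by simp))
  have hca : Nat.card (zpowers a) = 3 := by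
    rw [Nat.card_zpowers]
    exact orderOf_eq_prime ha ha1
  have hcl : Nat.card (closure {a, b}) ≤ 3 := by
    rw [hk]
    calc 3 ^ k ≤ 3 ^ 1 := Nat.pow_le_pow_right (by norm_num) hk1
      _ = 3 := by norm_num
  have heq : zpowers a = closure {a, b} := by
    apply Subgroup.eq_of_le_of_card_ge hle
    rw [hca]; exact hcl
  apply hne
  rw [heq]
  exact subset_closure (by simp)

/-- elementary abelian Sylow subgroup of order `p ^ 2` with an automorphism of determinant `-1` -/
theorem PStem.false_of_E [Finite Γ] [Finite G] {p : ℕ} (hp : p.Prime) (hp2 : p ≠ 2)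
    (h : PStem p τ G) (a b g : Ω) (ha : a ∈ G) (hb : b ∈ G) (hg : g ∈ G) (hab : a * b = b * a)
    (hga : a * g = g * a) (hgb : b * g * b = g)
    (hpm : ¬ p ∣ (closure {a, b}).relIndex G) : False := by
  have key : ∀ x y, τ x = a → τ y = b → x * y = y * x := by
    intro x y hx hy
    obtain ⟨w, hw⟩ := h.lift hg
    obtain ⟨c, hc, ec⟩ := h.exists_eq_mul (x := x * y * x⁻¹) (y := y)
      (by rw [map_mul, map_mul, map_inv, hx, hy, hab, mul_inv_cancel_right])
    obtain ⟨d, hd, ed⟩ := h.exists_eq_mul (x := x * w * x⁻¹) (y := w)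
      (by rw [map_mul, map_mul, map_inv, hx, hw, hga, mul_inv_cancel_right])
    obtain ⟨e, he, ee⟩ := h.exists_eq_mul (x := y * w * y) (y := w)
      (by rw [map_mul, map_mul, hy, hw, hgb])
    have cc := h.comm_of_ker hc
    have cd := h.comm_of_ker hd
    have ce := h.comm_of_ker he
    have h1 : x * (y * w * y) * x⁻¹ = (x * y * x⁻¹) * (x * w * x⁻¹) * (x * y * x⁻¹) := by group
    rw [ec, ed, ee] at h1
    have h2 : x * (w * e) * x⁻¹ = w * d * e := by
      calc x * (w * e) * x⁻¹ = x * w * (e * x⁻¹) := by group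
        _ = x * w * (x⁻¹ * e) := by rw [ce]
        _ = (x * w * x⁻¹) * e := by group
        _ = w * d * e := by rw [ed]
    have h3 : y * c * (w * d) * (y * c) = w * d * e * (c * c) := by
      calc y * c * (w * d) * (y * c) = y * (c * w) * (d * y) * c := by group
        _ = y * (w * c) * (y * d) * c := by rw [cc, cd]
        _ = y * w * (c * y) * d * c := by group
        _ = y * w * (y * c) * d * c := by rw [cc]
        _ = (y * w * y) * (c * d) * c := by group
        _ = (w * e) * (d * c) * c := by rw [ee, cc]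
        _ = w * (e * d) * (c * c) := by group
        _ = w * (d * e) * (c * c) := by rw [ce]
        _ = w * d * e * (c * c) := by group
    rw [h2, h3] at h1
    have h4 : c * c = 1 := by
      have := h1.symm
      rwa [mul_eq_left] at this
    have h5 : c = 1 := by
      have e1 : c ^ 2 = 1 := by rw [pow_two]; exact h4
      have e2 := h.pow_eq_one hc
      have hco : Nat.Coprime 2 p := by
        rw [Nat.coprime_primes (by norm_num) hp]
        exact fun e => hp2 e.symm
      have := pow_gcd_eq_one.2 ⟨e1, e2⟩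
      rwa [hco.gcd_eq_one, pow_one] at this
    rw [h5, mul_one] at ec
    calc x * y = (x * y * x⁻¹) * x := by group
      _ = y * x := by rw [ec]
  refine h.false_of_comm hp {a, b} ?_ hpm ?_
  · rintro x (rfl | rfl) <;> assumption
  · rintro x y (hx | hx) (hy | hy)
    · exact h.comm_lifts (hx.trans hy.symm)
    · exact key x y hx hy
    · exact (key y x hy hx).symm
    · exact h.comm_lifts (hx.trans hy.symm)

end local_args

section two_local

variable {Γ Ω : Type*} [Group Γ] [Group Ω] {τ : Γ →* Ω} {G : Subgroup Ω}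

theorem PStem.sq_ker (h : PStem 2 τ G) {c : Γ} (hc : τ c = 1) : c * c = 1 := by
  have := h.pow_eq_one hc
  rwa [pow_two] at this

theorem PStem.sq_lift (h : PStem 2 τ G) {x y : Γ} (e : τ x = τ y) : x * x = y * y := by
  obtain ⟨c, hc, rfl⟩ := h.exists_eq_mul e
  calc y * c * (y * c) = y * (c * y) * c := by group
    _ = y * (y * c) * c := by rw [h.comm_of_ker hc]
    _ = y * y * (c * c) := by group
    _ = y * y := by rw [h.sq_ker hc, mul_one]

/-- squares of lifts are invariant under conjugation -/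
theorem PStem.sq_conj (h : PStem 2 τ G) {x x1 : Γ} (h1 : τ (x1 * x1) = 1) {g : Ω} (hg : g ∈ G)
    (e : g * τ x1 = τ x * g) : x * x = x1 * x1 := by
  obtain ⟨w, rfl⟩ := h.lift hg
  have e1 : τ x = τ (w * x1 * w⁻¹) := by rw [map_mul, map_mul, map_inv, e, mul_inv_cancel_right]
  rw [h.sq_lift e1]
  calc w * x1 * w⁻¹ * (w * x1 * w⁻¹) = w * (x1 * x1) * w⁻¹ := by group
    _ = (x1 * x1) * w * w⁻¹ := by rw [h.comm_of_ker h1]
    _ = x1 * x1 := by group

theorem anticomm {x y c : Γ} (_hc : ∀ g, c * g = g * c) (hcc : c * c = 1) (hx : x * x = c)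
    (hy : y * y = c) (hxy : x * y * (x * y) = c) : y * x = x * y * c := by
  have hxi : x⁻¹ = x * c := inv_eq_of_mul_eq_one_right (by rw [← mul_assoc, hx, hcc])
  have hyi : y⁻¹ = y * c := inv_eq_of_mul_eq_one_right (by rw [← mul_assoc, hy, hcc])
  calc y * x = x⁻¹ * (x * y * (x * y)) * y⁻¹ := by group
    _ = x * c * c * (y * c) := by rw [hxy, hxi, hyi]
    _ = x * (c * c) * y * c := by group
    _ = x * y * c := by rw [hcc, mul_one]

theorem cube_mul_central {y c : Γ} (cc : ∀ g, c * g = g * c) :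
    y * c * (y * c) * (y * c) = (y * y * y) * (c * c) * c := by
  calc y * c * (y * c) * (y * c) = y * (c * y) * (c * y) * c := by group
    _ = y * (y * c) * (y * c) * c := by rw [cc]
    _ = y * y * (c * y) * c * c := by group
    _ = y * y * (y * c) * c * c := by rw [cc]
    _ = _ := by group

theorem PStem.cube_unique (h : PStem 2 τ G) {x y : Γ} (e : τ x = τ y) (hx : x * x * x = 1)
    (hy : y * y * y = 1) : x = y := by
  obtain ⟨c, hc, rfl⟩ := h.exists_eq_mul e
  rw [cube_mul_central (h.comm_of_ker hc), hy, h.sq_ker hc, one_mul, one_mul] at hx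
  rw [hx, mul_one]

/-- the local data used at the prime `2`: an elementary abelian subgroup `V` all of whose
non-identity elements are conjugate to `v1`, an element `a` of order `3` acting freely on `V`, and
two involutions `s`, `t` normalising `V` and `⟨a⟩`, generating a dihedral group of order `8`. -/
structure TwoLocal (G V : Subgroup Ω) (v1 a s t : Ω) : Prop where
  hVG : V ≤ G
  hv1V : v1 ∈ V
  hv1 : v1 * v1 = 1
  hconj : ∀ v ∈ V, v ≠ 1 → ∃ g ∈ G, g * v1 = v * g
  indep : ∃ u ∈ V, ∃ v ∈ V, ∃ w ∈ V, u ≠ 1 ∧ v ≠ 1 ∧ w ≠ 1 ∧ u * v ≠ 1 ∧ u * w ≠ 1 ∧ v * w ≠ 1 ∧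
    u * (v * w) ≠ 1
  ha : a ∈ G
  ha3 : a * a * a = 1
  haV : ∀ v ∈ V, a * v * a⁻¹ ∈ V
  hN : ∀ v ∈ V, v * (a * v * a⁻¹) * (a * (a * v * a⁻¹) * a⁻¹) = 1
  hs : s ∈ G
  ht : t ∈ G
  hsV : ∀ v ∈ V, s * v * s⁻¹ ∈ V
  htV : ∀ v ∈ V, t * v * t⁻¹ ∈ V
  hsa : s * a * s⁻¹ = a ∨ s * a * s⁻¹ = a⁻¹
  hta : t * a * t⁻¹ = a ∨ t * a * t⁻¹ = a⁻¹
  hs1 : ∃ g ∈ G, g * v1 = s * g
  ht1 : ∃ g ∈ G, g * v1 = t * g
  hr1 : ∃ g ∈ G, g * v1 = (s * t * (s * t)) * g
  hcard : Nat.card V * 8 ≤ Nat.card ↥(V ⊔ closure {s, t})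
  hidx : ∃ m, Nat.card G = Nat.card V * 8 * m ∧ ¬ 2 ∣ m

theorem PStem.false_of_twoLocal [Finite Γ] [Finite G] (h : PStem 2 τ G) {V : Subgroup Ω}
    {v1 a s t : Ω} (L : TwoLocal G V v1 a s t) : False := by
  obtain ⟨x1, hx1⟩ := h.lift (L.hVG L.hv1V)
  have hx11 : τ (x1 * x1) = 1 := by rw [map_mul, hx1, L.hv1]
  have hsq : ∀ x, (∃ g ∈ G, g * v1 = τ x * g) → x * x = x1 * x1 := fun x ⟨g, hg, e⟩ =>
    h.sq_conj hx11 hg (by rw [hx1]; exact e)
  have hc0 : x1 * x1 = 1 := by
    obtain ⟨u, hu, v, hv, w, hw, n1, n2, n3, n4, n5, n6, n7⟩ := L.indep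
    obtain ⟨A, rfl⟩ := h.lift (L.hVG hu)
    obtain ⟨B, rfl⟩ := h.lift (L.hVG hv)
    obtain ⟨D, rfl⟩ := h.lift (L.hVG hw)
    have hc := h.comm_of_ker hx11
    have hcc := h.sq_ker hx11
    have sA := hsq A (L.hconj _ hu n1)
    have sB := hsq B (L.hconj _ hv n2)
    have sD := hsq D (L.hconj _ hw n3)
    have sAB := hsq (A * B) (by rw [map_mul]; exact L.hconj _ (V.mul_mem hu hv) n4)
    have sAD := hsq (A * D) (by rw [map_mul]; exact L.hconj _ (V.mul_mem hu hw) n5)
    have sBD := hsq (B * D) (by rw [map_mul]; exact L.hconj _ (V.mul_mem hv hw) n6)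
    have sABD := hsq (A * (B * D)) (by
      rw [map_mul, map_mul]; exact L.hconj _ (V.mul_mem hu (V.mul_mem hv hw)) n7)
    have e1 := anticomm hc hcc sA sB sAB
    have e2 := anticomm hc hcc sA sD sAD
    have e3 := anticomm hc hcc sA sBD sABD
    have e4 : B * D * A = A * (B * D) := by
      calc B * D * A = B * (D * A) := by group
        _ = B * (A * D * (x1 * x1)) := by rw [e2]
        _ = (B * A) * D * (x1 * x1) := by group
        _ = A * B * ((x1 * x1) * D) * (x1 * x1) := by rw [e1]; group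
        _ = A * B * (D * (x1 * x1)) * (x1 * x1) := by rw [hc]
        _ = A * (B * D) * ((x1 * x1) * (x1 * x1)) := by group
        _ = A * (B * D) := by rw [hcc, mul_one]
    rw [e4] at e3
    exact (mul_eq_left.1 e3.symm)
  have hinv : ∀ x, (∃ g ∈ G, g * v1 = τ x * g) → x * x = 1 := fun x hx => (hsq x hx).trans hc0
  have hV2 : ∀ x, τ x ∈ V → x * x = 1 := by
    intro x hx
    by_cases e : τ x = 1
    · exact h.sq_ker e
    · exact hinv x (L.hconj _ hx e)
  have hVc : ∀ x y, τ x ∈ V → τ y ∈ V → x * y = y * x := by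
    intro x y hx hy
    have h1 := hV2 x hx
    have h2 := hV2 y hy
    have h3 := hV2 (x * y) (by rw [map_mul]; exact V.mul_mem hx hy)
    have hxi : x⁻¹ = x := inv_eq_of_mul_eq_one_left h1
    have hyi : y⁻¹ = y := inv_eq_of_mul_eq_one_left h2
    symm
    calc y * x = x⁻¹ * (x * y * (x * y)) * y⁻¹ := by group
      _ = x * y := by rw [h3, mul_one, hxi, hyi]
  have hvv : ∀ v ∈ V, v * v = 1 := by
    intro v hv
    obtain ⟨x, rfl⟩ := h.lift (L.hVG hv)
    rw [← map_mul, hV2 x hv, map_one]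
  -- the lift of `a` of order 3
  obtain ⟨α, hα, hα3⟩ : ∃ α, τ α = a ∧ α * α * α = 1 := by
    obtain ⟨a0, ha0⟩ := h.lift L.ha
    have hc : τ (a0 * a0 * a0) = 1 := by rw [map_mul, map_mul, ha0, L.ha3]
    have cc := h.comm_of_ker hc
    have h2 := h.sq_ker hc
    refine ⟨a0 * (a0 * a0 * a0), by rw [map_mul, hc, mul_one, ha0], ?_⟩
    rw [cube_mul_central cc, h2, mul_one, h2]
  have hαi : α⁻¹ = α * α := inv_eq_of_mul_eq_one_left hα3
  have hcjV : ∀ x, τ x ∈ V → τ (α * x * α⁻¹) ∈ V := by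
    intro x hx
    rw [map_mul, map_mul, map_inv, hα]
    exact L.haV _ hx
  have hcj3 : ∀ x, α * (α * (α * x * α⁻¹) * α⁻¹) * α⁻¹ = x := by
    intro x
    calc α * (α * (α * x * α⁻¹) * α⁻¹) * α⁻¹ = (α * α * α) * x * (α * α * α)⁻¹ := by group
      _ = x := by rw [hα3]; group
  let W : Subgroup Γ :=
    { carrier := {y | ∃ x, τ x ∈ V ∧ y = x * (α * x * α⁻¹)}
      one_mem' := ⟨1, by rw [map_one]; exact V.one_mem, by group⟩
      mul_mem' := by
        rintro _ _ ⟨x, hx, rfl⟩ ⟨y, hy, rfl⟩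
        refine ⟨x * y, by rw [map_mul]; exact V.mul_mem hx hy, ?_⟩
        calc x * (α * x * α⁻¹) * (y * (α * y * α⁻¹)) = x * ((α * x * α⁻¹) * y) * (α * y * α⁻¹) := by
              group
          _ = x * (y * (α * x * α⁻¹)) * (α * y * α⁻¹) := by rw [hVc _ y (hcjV x hx) hy]
          _ = _ := by group
      inv_mem' := by
        rintro _ ⟨x, hx, rfl⟩
        refine ⟨x, hx, ?_⟩
        exact inv_eq_of_mul_eq_one_left
          (hV2 _ (by rw [map_mul]; exact V.mul_mem hx (hcjV x hx))) }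
  have hWmem : ∀ y, y ∈ W ↔ ∃ x, τ x ∈ V ∧ y = x * (α * x * α⁻¹) := fun y => Iff.rfl
  have hWV : ∀ y ∈ W, τ y ∈ V := by
    rintro _ ⟨x, hx, rfl⟩
    rw [map_mul]; exact V.mul_mem hx (hcjV x hx)
  have hWker : ∀ y ∈ W, τ y = 1 → y = 1 := by
    rintro _ ⟨x, hx, rfl⟩ e
    have h1 := L.hN _ hx
    rw [map_mul, map_mul, map_mul, map_inv, hα] at e
    rw [e, one_mul] at h1
    have h2 : τ x = 1 := by
      have : a * (a * τ x * a⁻¹) * a⁻¹ = a * (a * 1 * a⁻¹) * a⁻¹ := by rw [h1]; group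
      simpa using this
    have cc := h.comm_of_ker h2
    calc x * (α * x * α⁻¹) = x * (x * α * α⁻¹) := by rw [← cc α]
      _ = x * x := by group
      _ = 1 := h.sq_ker h2
  have hWsurj : ∀ v ∈ V, ∃ y ∈ W, τ y = v := by
    intro v hv
    obtain ⟨x, hx⟩ := h.lift (L.hVG (L.haV v hv))
    refine ⟨x * (α * x * α⁻¹), ⟨x, by rw [hx]; exact L.haV v hv, rfl⟩, ?_⟩
    rw [map_mul, map_mul, map_mul, map_inv, hα, hx]
    have h1 := L.hN v hv
    have h2 := hvv v hv
    calc a * v * a⁻¹ * (a * (a * v * a⁻¹) * a⁻¹)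
        = (v * v) * (a * v * a⁻¹ * (a * (a * v * a⁻¹) * a⁻¹)) := by rw [h2, one_mul]
      _ = v * (v * (a * v * a⁻¹) * (a * (a * v * a⁻¹) * a⁻¹)) := by group
      _ = v := by rw [h1, mul_one]
  have hWnorm : ∀ b, (∀ v ∈ V, τ b * v * (τ b)⁻¹ ∈ V) → (b * α * b⁻¹ = α ∨ b * α * b⁻¹ = α⁻¹) →
      ∀ y ∈ W, b * y * b⁻¹ ∈ W := by
    rintro b hb hba _ ⟨x, hx, rfl⟩
    have hx' : τ (b * x * b⁻¹) ∈ V := by
      rw [map_mul, map_mul, map_inv]; exact hb _ hx
    have e : b * (x * (α * x * α⁻¹)) * b⁻¹ =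
        (b * x * b⁻¹) * ((b * α * b⁻¹) * (b * x * b⁻¹) * (b * α * b⁻¹)⁻¹) := by group
    rw [e]
    rcases hba with hba | hba
    · rw [hba]
      exact ⟨_, hx', rfl⟩
    · rw [hba, inv_inv]
      refine ⟨α * (α * (b * x * b⁻¹) * α⁻¹) * α⁻¹, hcjV _ (hcjV _ hx'), ?_⟩
      rw [hcj3]
      have e2 : α⁻¹ * (b * x * b⁻¹) * α = α * (α * (b * x * b⁻¹) * α⁻¹) * α⁻¹ := by
        have : α = α⁻¹ * α⁻¹ := by rw [hαi]; calc α = α * (α * α * α) := by rw [hα3, mul_one]
          _ = _ := by group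
        calc α⁻¹ * (b * x * b⁻¹) * α = α⁻¹ * (b * x * b⁻¹) * (α⁻¹ * α⁻¹) := by rw [← this]
          _ = (α * α) * (b * x * b⁻¹) * (α⁻¹ * α⁻¹) := by rw [← hαi]
          _ = _ := by group
      rw [e2]
      exact hVc _ _ hx' (hcjV _ (hcjV _ hx'))
  -- lifts of `s` and `t`
  obtain ⟨S, hS⟩ := h.lift L.hs
  obtain ⟨T, hT⟩ := h.lift L.ht
  have hSS : S * S = 1 := hinv S (by rw [hS]; exact L.hs1)
  have hTT : T * T = 1 := hinv T (by rw [hT]; exact L.ht1)
  have hST : S * T * (S * T) * (S * T * (S * T)) = 1 :=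
    hinv (S * T * (S * T)) (by simp only [map_mul, hS, hT]; exact L.hr1)
  have hαi3 : α⁻¹ * α⁻¹ * α⁻¹ = 1 := by
    calc α⁻¹ * α⁻¹ * α⁻¹ = (α * α * α)⁻¹ := by group
      _ = 1 := by rw [hα3, inv_one]
  have hlift : ∀ b, (τ b * a * (τ b)⁻¹ = a ∨ τ b * a * (τ b)⁻¹ = a⁻¹) →
      (b * α * b⁻¹ = α ∨ b * α * b⁻¹ = α⁻¹) := by
    intro b hb
    have h3 : b * α * b⁻¹ * (b * α * b⁻¹) * (b * α * b⁻¹) = 1 := by
      calc b * α * b⁻¹ * (b * α * b⁻¹) * (b * α * b⁻¹) = b * (α * α * α) * b⁻¹ := by group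
        _ = 1 := by rw [hα3]; group
    rcases hb with hb | hb
    · left
      exact h.cube_unique (by rw [map_mul, map_mul, map_inv, hα, hb]) h3 hα3
    · right
      exact h.cube_unique (by rw [map_mul, map_mul, map_inv, map_inv, hα, hb]) h3 hαi3
  have hSW : S ∈ normalizer W := mem_normalizer_of_forall W
    (hWnorm S (by rw [hS]; exact L.hsV) (hlift S (by rw [hS]; exact L.hsa)))
  have hTW : T ∈ normalizer W := mem_normalizer_of_forall W
    (hWnorm T (by rw [hT]; exact L.htV) (hlift T (by rw [hT]; exact L.hta)))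
  have hDW : closure {S, T} ≤ normalizer W := by
    rw [closure_le]
    rintro x (rfl | rfl) <;> assumption
  have hfV : Finite V := Finite.of_injective (Subgroup.inclusion L.hVG)
    (Subgroup.inclusion_injective L.hVG)
  have hcW : Nat.card W ≤ Nat.card V := by
    apply Nat.card_le_card_of_injective (fun y : W => (⟨τ y.1, hWV y.1 y.2⟩ : V))
    intro y y' e
    have e1 : τ y.1 = τ y'.1 := congrArg Subtype.val e
    have := hWker (y.1 * y'.1⁻¹) (W.mul_mem y.2 (W.inv_mem y'.2))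
      (by rw [map_mul, map_inv, e1, mul_inv_cancel])
    exact Subtype.ext (mul_inv_eq_one.1 this)
  have hcK : Nat.card ↥(W ⊔ closure {S, T}) ≤ Nat.card V * 8 :=
    (card_sup_le W _ hDW).trans (Nat.mul_le_mul hcW (card_dihedral_le hSS hTT hST))
  have hmap : (W ⊔ closure {S, T}).map τ = V ⊔ closure {s, t} := by
    rw [Subgroup.map_sup, MonoidHom.map_closure, Set.image_pair, hS, hT]
    congr 1
    apply le_antisymm
    · rintro _ ⟨y, hy, rfl⟩
      exact hWV y hy
    · intro v hv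
      obtain ⟨y, hy, rfl⟩ := hWsurj v hv
      exact ⟨y, hy, rfl⟩
  have hsurj : Function.Surjective
      (fun x : ↥(W ⊔ closure {S, T}) => (⟨τ x.1, ⟨x.1, x.2, rfl⟩⟩ : (W ⊔ closure {S, T}).map τ)) := by
    rintro ⟨_, x, hx, rfl⟩
    exact ⟨⟨x, hx⟩, rfl⟩
  have hbij := hsurj.bijective_of_nat_card_le (by rw [hmap]; exact hcK.trans L.hcard)
  have hcP : Nat.card ↥((W ⊔ closure {S, T}).map τ) = Nat.card V * 8 := by
    apply le_antisymm
    · exact (Nat.card_le_card_of_surjective _ hsurj).trans hcK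
    · rw [hmap]; exact L.hcard
  have hPG : (W ⊔ closure {S, T}).map τ ≤ G := by
    rintro _ ⟨x, _, rfl⟩
    exact h.mem x
  obtain ⟨m, hm, hm2⟩ := L.hidx
  refine h.false_of_compl (by norm_num) (W ⊔ closure {S, T}) ?_
    (not_dvd_relIndex hPG (by rw [hcP]; exact hm) hm2)
  intro x hx e
  have := hbij.1 (a₁ := ⟨x, hx⟩) (a₂ := 1) (Subtype.ext (by simpa using e))
  exact congrArg Subtype.val this

end two_local

end Cfsg.Agent.Lib.Helper3.SchurTriv
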