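import Cfsg.Agent.Lib.Helper28.M24Cls2

/-!
# Counting the fixed points of the product of an involution and a permutation, on tables
-/

set_option autoImplicit false
open Cfsg

namespace Cfsg.Agent.Lib.Helper3.BlkAgree

open Cfsg.Agent.Lib.Helper28

/-- the number of positions where two lists agree. -/
def agree : List ℕ → List ℕ → ℕ
  | a :: l, b :: m => (if a == b then 1 else 0) + agree l m
  | _, _ => 0

theorem agree_map (f g : ℕ → ℕ) (l : List ℕ) :
    agree (l.map f) (l.map g) = (l.filter fun i => f i == g i).length := by
  induction l with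
  | nil => rfl
  | cons a l ih =>
    simp only [List.map_cons, agree, List.filter_cons, ih]
    split_ifs <;> simp <;> omega

theorem card_fixSet_mul {h X : Equiv.Perm GolayPt} (hh : h * h = 1) :
    (fixSet (h * X)).card = agree (tblOf h) (tblOf X) := by
  unfold tblOf
  rw [agree_map]
  have e : ((List.range 24).filter fun i => idx (h (ptOf i)) == idx (X (ptOf i))).length =
      ((Finset.range 24).filter fun i => idx (h (ptOf i)) = idx (X (ptOf i))).card := by
    simp only [Finset.card, Finset.filter, Finset.range, Multiset.range, Multiset.filter_coe,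
      Multiset.coe_card]
    congr 2
  rw [e]
  have hh' : ∀ p, h (h p) = p := fun p => by
    have := congrArg (fun f : Equiv.Perm GolayPt => f p) hh
    simpa using this
  apply Finset.card_bij (fun p _ => idx p)
  · intro p hp
    rw [mem_fixSet, Equiv.Perm.mul_apply] at hp
    rw [Finset.mem_filter, Finset.mem_range, ptOf_idx]
    refine ⟨idx_lt p, ?_⟩
    rw [← hp, hh', hp]
  · intro p _ q _ e
    exact idx_injective e
  · intro i hi
    rw [Finset.mem_filter, Finset.mem_range] at hi
    refine ⟨ptOf i, ?_, idx_ptOf hi.1⟩
    rw [mem_fixSet, Equiv.Perm.mul_apply, ← idx_injective hi.2, hh']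

end Cfsg.Agent.Lib.Helper3.BlkAgree
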