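import Cfsg.Agent.Lib.Helper3.BlkM22a

/-!
# The 2-blocks of `M22`: the functions of the checks
-/

set_option autoImplicit false

namespace Cfsg.Agent.Lib.Helper3.BlkM22

open Cfsg Cfsg.Agent.Lib.Helper28 Cfsg.Agent.Lib.Helper3.M24T Cfsg.Agent.Lib.Helper3.M24Gen
  Cfsg.Agent.Lib.Helper3.FusGrp

def incB : ℕ → List ℕ → Bool
  | _, [] => true
  | a, b :: l => Nat.blt a b && incB b l

theorem nodup_of_incB : ∀ (l : List ℕ) (a : ℕ), incB a l = true → (∀ x ∈ l, a < x) ∧ l.Nodup
  | [], _, _ => ⟨by simp, List.nodup_nil⟩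
  | b :: l, a, h => by
    simp only [incB, Bool.and_eq_true, Nat.blt_eq] at h
    obtain ⟨h1, h2⟩ := nodup_of_incB l b h.2
    refine ⟨?_, List.nodup_cons.2 ⟨fun hb => lt_irrefl _ (h1 b hb), h2⟩⟩
    intro x hx
    rcases List.mem_cons.1 hx with rfl | hx
    · exact h.1
    · exact h.1.trans (h1 x hx)

def LT : List (List ℕ) := L22c.map dec

def M77 : List ℕ := P77.map (·.1)

/-- the values of the class function of the certificate. -/
def gam (n : ℕ) : ℤ :=
  if n = 8 then 14300 else if n = 6 then -3406 else if n = 4 then 63 else if n = 3 then 560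
  else if n = 2 then -318 else 0

def S (xs : List ℕ) : ℤ := (LT.map fun tb => gam (popc (fixMask (comp tb xs)))).sum

/-- as many fixed points as the square. -/
def PO (T : List ℕ) : Bool := popc (fixMask T) == popc (fixMask (comp T T))

def Q22 (T k : List ℕ) : Bool := !PO T || (in22 k && reps.any fun r => comp k T == comp r k)

end Cfsg.Agent.Lib.Helper3.BlkM22
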