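import Cfsg.Agent.Lib.Helper3.BlkM22d

set_option autoImplicit false
set_option maxRecDepth 1000000

namespace Cfsg.Agent.Lib.Helper3.BlkM22

open Cfsg Cfsg.Agent.Lib.Helper28 Cfsg.Agent.Lib.Helper3.M24T Cfsg.Agent.Lib.Helper3.M24Gen
  Cfsg.Agent.Lib.Helper3.FusGrp

theorem c1 : incB 0 L22c = true := by decide +kernel
theorem c2 : LT.map code = L22c := by decide +kernel
theorem c3 : LT.all (fun t => in22 t && isInvT t) = true := by decide +kernel

end Cfsg.Agent.Lib.Helper3.BlkM22
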