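import Cfsg.Agent.Lib.Helper3.BlkM22d

set_option autoImplicit false
set_option maxRecDepth 1000000

namespace Cfsg.Agent.Lib.Helper3.BlkM22

open Cfsg Cfsg.Agent.Lib.Helper28 Cfsg.Agent.Lib.Helper3.M24T Cfsg.Agent.Lib.Helper3.M24Gen
  Cfsg.Agent.Lib.Helper3.FusGrp

theorem c4 : ∀ a < 4096, (!(popc (enc B12 a) == 8 && (enc B12 a).testBit 23 && (enc B12 a).testBit 0)
    || M77.contains (enc B12 a)) = true := by decide +kernel

theorem c5 : P77.all (fun p => inM24 (dec p.2.1) && inM24 (dec p.2.2) &&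
    comp (dec p.2.1) (dec p.2.2) == idT && img (dec p.2.1) p.1 == O5 && decide (p.1 < 2 ^ 24) &&
    U7.all (fun u => u == idT ||
      (L22c.contains (code (comp (dec p.2.2) (comp u (dec p.2.1)))) &&
        dec (code (comp (dec p.2.2) (comp u (dec p.2.1)))) == comp (dec p.2.2) (comp u (dec p.2.1))))) = true := by
  decide +kernel

end Cfsg.Agent.Lib.Helper3.BlkM22
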