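import Cfsg.Agent.Lib.Helper3.BlkM22d
import Cfsg.Agent.Lib.Helper3.BlkAgree

set_option autoImplicit false
set_option maxRecDepth 1000000

namespace Cfsg.Agent.Lib.Helper3.BlkM22

open Cfsg Cfsg.Agent.Lib.Helper28 Cfsg.Agent.Lib.Helper3.M24T Cfsg.Agent.Lib.Helper3.M24Gen
  Cfsg.Agent.Lib.Helper3.FusGrp Cfsg.Agent.Lib.Helper3.BlkAgree

def S2 (xs : List ℕ) : ℤ := (LT.map fun tb => gam (agree tb xs)).sum

theorem c6 : S2 idT = 16516500 := by decide +kernel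
theorem c6' : ∀ r ∈ reps, S2 r = 0 := by decide +kernel

end Cfsg.Agent.Lib.Helper3.BlkM22
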