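import Cfsg.Agent.Lib.Helper3.BlkM22g

set_option autoImplicit false
set_option maxRecDepth 1000000

namespace Cfsg.Agent.Lib.Helper3.BlkM22

open Cfsg Cfsg.Agent.Lib.Helper28 Cfsg.Agent.Lib.Helper3.M24T Cfsg.Agent.Lib.Helper3.M24Gen
  Cfsg.Agent.Lib.Helper3.FusGrp

theorem c7a : list960.map (comp t0) = NF := by decide +kernel
theorem c7b : (NF.zip certs).all (fun p => Q22 p.1 p.2) = true := by decide +kernel
theorem c8 : list960.length = certs.length := by decide +kernel
theorem c9 : inM24 t0 = true := by decide +kernel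
theorem c10 : ∀ r ∈ reps, in22 r = true := by decide +kernel

theorem c7 : (list960.zip certs).all (fun p => Q22 (comp t0 p.1) p.2) = true := by
  have h := c7b
  rw [← c7a, List.zip_map_left, List.all_map] at h
  exact h

end Cfsg.Agent.Lib.Helper3.BlkM22
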