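import Cfsg.Agent.Lib.Helper28.M24Cls2
import Cfsg.Agent.Lib.Helper3.AutFix
import Cfsg.Agent.Lib.Helper3.OctStab

/-!
# The pointwise stabiliser of an octad is a self-centralising elementary abelian 2-group
-/

set_option autoImplicit false
open scoped Pointwise
open Cfsg

namespace Cfsg.Agent.Lib.Helper3.BlkOct

open MulAction Cfsg.Agent.Lib.Helper28 Cfsg.Agent.Lib.Helper3.M24T Cfsg.Agent.Lib.Helper3.M24Gen
  Cfsg.Agent.Lib.Helper3.OctStab

theorem U7_comm : ∀ u ∈ U7, ∀ v ∈ U7, comp u v = comp v u := by decide +kernel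

theorem U7_in : ∀ u ∈ U7, inM24 u = true := by decide +kernel

theorem mem_base_iff {g : Equiv.Perm GolayPt} : g ∈ fixO (un O5) ↔ ∃ u ∈ U7, g = permOf u := by
  constructor
  · intro hg
    rw [fixO_base] at hg
    obtain ⟨u, hu, -, rfl⟩ := stab6_enum hg
    exact ⟨u, hu, rfl⟩
  · rintro ⟨u, hu, rfl⟩
    rw [mem_fixO]
    refine ⟨permOf_mem_M24 (U7_in u hu), fun p hp => ?_⟩
    rw [mem_un] at hp
    rw [permOf_apply (isTbl_of_inM24 (U7_in u hu)), U7_fix u hu _ (idx_lt p) hp, ptOf_idx]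

theorem comm_base {a b : Equiv.Perm GolayPt} (ha : a ∈ fixO (un O5)) (hb : b ∈ fixO (un O5)) :
    a * b = b * a := by
  obtain ⟨u, hu, rfl⟩ := mem_base_iff.1 ha
  obtain ⟨v, hv, rfl⟩ := mem_base_iff.1 hb
  have h1 := isTbl_of_inM24 (U7_in u hu)
  have h2 := isTbl_of_inM24 (U7_in v hv)
  rw [← (permOf_comp h1 h2).2, ← (permOf_comp h2 h1).2, U7_comm u hu v hv]

def u1 : List ℕ := [0, 1, 2, 3, 6, 5, 4, 22, 20, 12, 11, 10, 9, 19, 14, 18, 21, 17, 15, 13, 8, 16, 7, 23]

theorem u1_mem : u1 ∈ U7 := by decide +kernel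
theorem u1_fix : fixMask u1 = O5 := by decide +kernel

theorem cent_base {h : Equiv.Perm GolayPt} (hh : h ∈ M24)
    (hc : ∀ q ∈ fixO (un O5), h * q = q * h) : h ∈ fixO (un O5) := by
  have hq1 : permOf u1 ∈ fixO (un O5) := mem_base_iff.2 ⟨u1, u1_mem, rfl⟩
  have hfix : fixSet (permOf u1) = un O5 := by rw [fixSet_permOf (U7_in _ u1_mem), u1_fix]
  have hO : h • un O5 = un O5 := by
    rw [← hfix, ← fixSet_conj, hc _ hq1]
    simp
  have h4 : h (ptOf 4) ∈ un 8241104 := by
    have h5 : h (ptOf 4) ∉ un O5 := by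
      rw [← hO, mem_smul_finset_iff, mem_un, idx_ptOf (by decide)]
      decide
    rw [mem_un] at h5 ⊢
    have : ∀ j < 24, ¬ O5.testBit j = true → (8241104 : ℕ).testBit j = true := by decide
    exact this _ (idx_lt _) h5
  obtain ⟨u, hu, hu1, -, hu3⟩ := exists_of_lvlCheck lvl7 h4
  have huQ : permOf u ∈ fixO (un O5) := mem_base_iff.2 ⟨u, hu, rfl⟩
  have hone : (permOf u)⁻¹ * h = 1 := by
    apply AutFix.eq_one_of_nine (M24.mul_mem (M24.inv_mem (permOf_mem_M24 hu1)) hh)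
    have hsub : un 8241104 ⊆ fixSet ((permOf u)⁻¹ * h) := by
      intro p hp
      obtain ⟨v, hv, -, -, hv3⟩ := exists_of_lvlCheck lvl7 hp
      have hvQ : permOf v ∈ fixO (un O5) := mem_base_iff.2 ⟨v, hv, rfl⟩
      rw [mem_fixSet, Equiv.Perm.mul_apply, Equiv.Perm.inv_eq_iff_eq, ← hv3]
      have e1 : h (permOf v (ptOf 4)) = permOf v (h (ptOf 4)) := by
        have := congrArg (fun f : Equiv.Perm GolayPt => f (ptOf 4)) (hc _ hvQ)
        simpa using this
      have e2 : permOf u (permOf v (ptOf 4)) = permOf v (permOf u (ptOf 4)) := by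
        have := congrArg (fun f : Equiv.Perm GolayPt => f (ptOf 4)) (comm_base huQ hvQ)
        simpa using this
      rw [e1, e2, hu3]
    have := Finset.card_le_card hsub
    rw [card_un] at this
    have e : popc 8241104 = 16 := by decide +kernel
    omega
  have : h = permOf u := by
    have := congrArg (fun x => permOf u * x) hone
    simpa using this
  rw [this]; exact huQ

theorem fixO_comm {o : Finset GolayPt} (ho : o ∈ octads) {a b : Equiv.Perm GolayPt}
    (ha : a ∈ fixO o) (hb : b ∈ fixO o) : a * b = b * a := by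
  obtain ⟨k, hk, hko⟩ := exists_M24_smul_octad ho
  have h1 := (fixO_conj hk a).1 ha
  have h2 := (fixO_conj hk b).1 hb
  rw [hko] at h1 h2
  have := comm_base h1 h2
  have e : k * (a * b) * k⁻¹ = k * (b * a) * k⁻¹ := by
    calc k * (a * b) * k⁻¹ = (k * a * k⁻¹) * (k * b * k⁻¹) := by group
      _ = (k * b * k⁻¹) * (k * a * k⁻¹) := this
      _ = k * (b * a) * k⁻¹ := by group
  exact mul_left_cancel (mul_right_cancel e)

theorem fixO_cent {o : Finset GolayPt} (ho : o ∈ octads) {h : Equiv.Perm GolayPt} (hh : h ∈ M24)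
    (hc : ∀ q ∈ fixO o, h * q = q * h) : h ∈ fixO o := by
  obtain ⟨k, hk, hko⟩ := exists_M24_smul_octad ho
  rw [fixO_conj hk, hko]
  apply cent_base (conj_mem hk hh)
  intro q hq
  have hq' : k⁻¹ * q * k ∈ fixO o := by
    rw [fixO_conj hk, hko]
    have : k * (k⁻¹ * q * k) * k⁻¹ = q := by group
    rwa [this]
  have := hc _ hq'
  calc k * h * k⁻¹ * q = k * (h * (k⁻¹ * q * k)) * k⁻¹ := by group
    _ = k * ((k⁻¹ * q * k) * h) * k⁻¹ := by rw [this]
    _ = q * (k * h * k⁻¹) := by group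

/-- the local structure at an involution fixing the points of an octad. -/
theorem local_octad {t : Equiv.Perm GolayPt} (ht : t ∈ M24) (ho : fixSet t ∈ octads) :
    IsPGroup 2 (fixO (fixSet t)) ∧ (∀ q ∈ fixO (fixSet t), q * t = t * q) ∧
      (∀ h ∈ M24, h * t = t * h → ∀ q ∈ fixO (fixSet t), h * q * h⁻¹ ∈ fixO (fixSet t)) ∧
      (∀ h ∈ M24, (∀ q ∈ fixO (fixSet t), h * q = q * h) → h ∈ fixO (fixSet t)) := by
  have htQ : t ∈ fixO (fixSet t) := mem_fixO.2 ⟨ht, fun p hp => mem_fixSet.1 hp⟩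
  refine ⟨IsPGroup.of_card (n := 4) (by rw [card_fixO ho]; norm_num),
    fun q hq => fixO_comm ho hq htQ, ?_, fun h hh hc => fixO_cent ho hh hc⟩
  intro h hh hht q hq
  have := (fixO_conj hh q).1 hq
  have e : h • fixSet t = fixSet t := by
    rw [← fixSet_conj, hht]; simp
  rwa [e] at this

end Cfsg.Agent.Lib.Helper3.BlkOct
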