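import Cfsg.Agent.S0958
import Cfsg.Agent.S0936
import Cfsg.Agent.S4487
import Cfsg.Agent.S0924
import Cfsg.Agent.S0908
import Cfsg.Agent.H25.QuotDefect
import Cfsg.Agent.H6.PPart
import Cfsg.Agent.BlockLib.Idempotent

/-!
# A criterion for a finite group to have a single 2-block

If the centraliser of every involution has a self-centralising normal 2-subgroup, and no irreducible
character vanishes at all the elements of even order (certified by a convolution identity), then all the
irreducible characters lie in one 2-block.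
-/

set_option autoImplicit false
set_option linter.style.haveILetI false
set_option linter.unusedSectionVars false

namespace Cfsg.Agent.Lib.Helper3.BlkOne

open Cfsg Cfsg.Agent.CharLib Cfsg.Agent.BlockLib

universe u

/-- a finite group with a self-centralising normal `p`-subgroup satisfies the hypotheses of `S4487`. -/
theorem core_of_selfCentralizing {H : Type u} [Group H] [Finite H] (p : ℕ) [Fact p.Prime]
    (Q : Subgroup H) [Q.Normal] (hQ : IsPGroup p Q) (hC : Subgroup.centralizer (Q : Set H) ≤ Q) :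
    pPrimeCore p H = ⊥ ∧ Subgroup.centralizer ((pCore p H) : Set H) ≤ pCore p H := by
  have hQle : Q ≤ pCore p H := le_sSup ⟨inferInstance, hQ⟩
  constructor
  · rw [pPrimeCore, eq_bot_iff]
    apply sSup_le
    rintro N ⟨hN, hNc⟩
    have hdisj : N ⊓ Q = ⊥ := by
      rw [eq_bot_iff]
      intro x hx
      rw [Subgroup.mem_inf] at hx
      rw [Subgroup.mem_bot]
      have h1 : orderOf x ∣ Nat.card N := by
        have := orderOf_dvd_natCard (⟨x, hx.1⟩ : N)
        rwa [Subgroup.orderOf_mk] at this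
      obtain ⟨k, hk⟩ := hQ ⟨x, hx.2⟩
      have h2 : orderOf x ∣ p ^ k := by
        apply orderOf_dvd_of_pow_eq_one
        simpa using congrArg Subtype.val hk
      have h3 : (Nat.card N).Coprime (p ^ k) := Nat.Coprime.pow_right k hNc
      have h4 : orderOf x = 1 := Nat.eq_one_of_dvd_coprimes h3 h1 h2
      exact orderOf_eq_one_iff.1 h4
    intro x hx
    have hxc : x ∈ Subgroup.centralizer (Q : Set H) := by
      rw [Subgroup.mem_centralizer_iff]
      intro q hq
      have h5 : x * q * x⁻¹ * q⁻¹ ∈ N ⊓ Q := by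
        rw [Subgroup.mem_inf]
        constructor
        · have : x * q * x⁻¹ * q⁻¹ = x * (q * x⁻¹ * q⁻¹) := by group
          rw [this]
          exact N.mul_mem hx (hN.conj_mem _ (N.inv_mem hx) q)
        · exact Q.mul_mem (Subgroup.Normal.conj_mem inferInstance q hq x) (Q.inv_mem hq)
      rw [hdisj, Subgroup.mem_bot] at h5
      have : x * q = q * x := by
        calc x * q = (x * q * x⁻¹ * q⁻¹) * (q * x) := by group
          _ = q * x := by rw [h5, one_mul]
      exact this.symm
    have hxQ := hC hxc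
    have : x ∈ N ⊓ Q := ⟨hx, hxQ⟩
    rwa [hdisj] at this
  · intro x hx
    apply hQle
    apply hC
    rw [Subgroup.mem_centralizer_iff] at hx ⊢
    intro q hq
    exact hx q (hQle hq)


variable {G : Type u} [Group G] [Fintype G]

theorem mem_cent_zpowers {t h : G} :
    h ∈ Subgroup.centralizer ((Subgroup.zpowers t : Subgroup G) : Set G) ↔ h * t = t * h := by
  rw [Subgroup.mem_centralizer_iff]
  constructor
  · intro H
    exact (H t (Subgroup.mem_zpowers t)).symm
  · rintro H _ ⟨k, rfl⟩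
    have : Commute h t := H
    exact ((this.zpow_right k).eq).symm

/-- the case of a nontrivial defect group. -/
theorem principal_of_invol (M : Ideal AlgInt) (hM : IsPModular 2 M)
    (χ : IrrCharacter G) (D0 : Subgroup G)
    (hD0 : IsDefectGroup 2 M (blockOf M (χ : G → ℂ)) D0) (t : G) (ht : t ∈ D0) (ht2 : orderOf t = 2)
    (Q : Subgroup G) (hQ : IsPGroup 2 Q) (hQt : ∀ q ∈ Q, q * t = t * q)
    (hQn : ∀ h : G, h * t = t * h → ∀ q ∈ Q, h * q * h⁻¹ ∈ Q)
    (hQc : ∀ h : G, h * t = t * h → (∀ q ∈ Q, h * q = q * h) → h ∈ Q) :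
    SameBlock M (fun _ : G => (1 : ℂ)) (χ : G → ℂ) := by
  haveI : Fact (Nat.Prime 2) := ⟨Nat.prime_two⟩
  haveI := isPrime_of_isPModular hM
  have hMt := ne_top_of_isPModular hM
  set B := blockOf M (χ : G → ℂ) with hBdef
  have hB : IsPBlock M B := ⟨χ, rfl⟩
  set P := Subgroup.zpowers t with hPdef
  set H := Subgroup.centralizer (P : Set G) with hHdef
  haveI : Fintype H := Fintype.ofFinite H
  have hP : IsPGroup 2 P := by
    apply IsPGroup.of_card (n := 1)
    rw [Nat.card_zpowers, ht2, pow_one]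
  have hPH : P ⊔ Subgroup.centralizer (P : Set G) ≤ H := by
    apply sup_le _ le_rfl
    rintro _ ⟨k, rfl⟩
    apply mem_cent_zpowers.2
    exact ((Commute.refl t).zpow_left k).eq
  have hHN : H ≤ Subgroup.normalizer (P : Set G) := Subgroup.centralizer_le_normalizer _
  obtain ⟨b, hb⟩ := (Cfsg.Agent.S0958.result 2 M hM P H hP hPH hHN B hB).2 ⟨D0, hD0, 1, by
    rintro _ ⟨x, hx, rfl⟩
    obtain ⟨k, rfl⟩ := hx
    simpa using D0.zpow_mem ht k⟩
  -- the centraliser has a single block
  have hmemH : ∀ h : G, h ∈ H ↔ h * t = t * h := fun h => mem_cent_zpowers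
  let Q' : Subgroup H := Q.subgroupOf H
  haveI hQ'n : Q'.Normal := by
    constructor
    intro q hq h
    rw [Subgroup.mem_subgroupOf] at hq ⊢
    exact hQn h ((hmemH h).1 h.2) q hq
  have hQ'p : IsPGroup 2 Q' := by
    intro q
    obtain ⟨k, hk⟩ := hQ ⟨(q : H), q.2⟩
    refine ⟨k, ?_⟩
    apply Subtype.ext
    apply Subtype.ext
    simpa using congrArg Subtype.val hk
  have hQ'c : Subgroup.centralizer (Q' : Set H) ≤ Q' := by
    intro h hh
    rw [Subgroup.mem_centralizer_iff] at hh
    rw [Subgroup.mem_subgroupOf]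
    apply hQc h ((hmemH h).1 h.2)
    intro q hq
    have hqH : q ∈ H := (hmemH q).2 (hQt q hq)
    have := hh ⟨q, hqH⟩ (by
      change (⟨q, hqH⟩ : H) ∈ Q.subgroupOf H
      rw [Subgroup.mem_subgroupOf]; exact hq)
    exact (congrArg Subtype.val this).symm
  obtain ⟨hc1, hc2⟩ := core_of_selfCentralizing 2 Q' hQ'p hQ'c
  have hone : ∀ θ θ' : IrrCharacter H, SameBlock M (θ : H → ℂ) (θ' : H → ℂ) :=
    Cfsg.Agent.S4487.result 2 M hM hc1 hc2
  obtain ⟨ξ, hξ⟩ := hb.1
  have hbp : b = principalBlock M H := by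
    rw [hξ]
    ext θ
    constructor
    · intro _
      exact hone ⟨fun _ => 1, isIrrCharacter_one⟩ θ
    · intro _
      exact hone ξ θ
  have hb0 := (Cfsg.Agent.S0936.result 2 M hM H b ⟨B, hb⟩).2 hbp
  have hξb : ξ ∈ b := by rw [hξ]; exact SameBlock.refl' hMt _
  have hχB : χ ∈ B := SameBlock.refl' hMt _
  have h1B : (⟨fun _ => 1, isIrrCharacter_one⟩ : IrrCharacter G) ∈ principalBlock M G :=
    SameBlock.refl' hMt _
  intro g
  have e1 := hb.2.2 ξ hξb χ hχB g
  have e2 := hb0.2.2 ξ hξb _ h1B g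
  have := memLocalIdeal_sub e1 e2
  simpa using this


/-- a character in a block of defect zero vanishes at the elements of even order. -/
theorem vanish_of_bot (M : Ideal AlgInt) (hM : IsPModular 2 M) (χ : IrrCharacter G)
    (hD0 : IsDefectGroup 2 M (blockOf M (χ : G → ℂ)) ⊥) (g : G) (hg : 2 ∣ orderOf g) :
    (χ : G → ℂ) g = 0 := by
  haveI : Fact (Nat.Prime 2) := ⟨Nat.prime_two⟩
  have hB : IsPBlock M (blockOf M (χ : G → ℂ)) := ⟨χ, rfl⟩
  obtain ⟨x, hx, -⟩ := Cfsg.Agent.H6.exists_isPPart Nat.prime_two g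
  have hx1 : x ≠ 1 := by
    rintro rfl
    obtain ⟨y, hy, -, -, hy2⟩ := hx
    rw [one_mul] at hy
    exact hy2 (hy ▸ hg)
  apply Cfsg.Agent.S0924.result 2 M hM χ g x hx
  intro D hD hxD
  have h1 := Cfsg.Agent.S0908.result 2 M hM _ hB D hD
  have h2 := Cfsg.Agent.S0908.result 2 M hM _ hB ⊥ hD0
  rw [← h2, Subgroup.card_bot] at h1
  rw [Subgroup.card_eq_one.1 h1, Subgroup.mem_bot] at hxD
  exact hx1 hxD

/-- **The criterion.** -/
theorem one_block (M : Ideal AlgInt) (hM : IsPModular 2 M)
    (hloc : ∀ t : G, orderOf t = 2 → ∃ Q : Subgroup G, IsPGroup 2 Q ∧ (∀ q ∈ Q, q * t = t * q) ∧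
      (∀ h : G, h * t = t * h → ∀ q ∈ Q, h * q * h⁻¹ ∈ Q) ∧
      (∀ h : G, h * t = t * h → (∀ q ∈ Q, h * q = q * h) → h ∈ Q))
    (f c : G → ℂ) (hf : IsClassFunction G f) (hc : IsClassFunction G c)
    (hfs : ∀ g, ¬ 2 ∣ orderOf g → f g = 0) (D : ℂ) (hD : D ≠ 0)
    (hconv : ∀ x, ¬ 2 ∣ orderOf x → x ≠ 1 → conv f c x = 0) (hconv1 : conv f c 1 = D)
    (χ ψ : IrrCharacter G) : SameBlock M (χ : G → ℂ) (ψ : G → ℂ) := by
  haveI : Fact (Nat.Prime 2) := ⟨Nat.prime_two⟩
  haveI := isPrime_of_isPModular hM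
  have key : ∀ χ : IrrCharacter G, SameBlock M (fun _ : G => (1 : ℂ)) (χ : G → ℂ) := by
    intro χ
    have hB : IsPBlock M (blockOf M (χ : G → ℂ)) := ⟨χ, rfl⟩
    obtain ⟨D0, hD0⟩ := Cfsg.Agent.H25.QuotDefect.exists_isDefectGroup hM hB
    by_cases hbot : D0 = ⊥
    · exfalso
      subst hbot
      have hv := vanish_of_bot M hM χ hD0
      have h1 := omega_conv χ.2 hf hc
      have h2 : omega (χ : G → ℂ) f = 0 := by
        unfold omega
        rw [Finset.sum_eq_zero, zero_div]
        intro g _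
        by_cases hg : 2 ∣ orderOf g
        · rw [hv g hg, mul_zero]
        · rw [hfs g hg, zero_mul]
      have h3 : omega (χ : G → ℂ) (conv f c) = D := by
        unfold omega
        rw [Finset.sum_eq_single 1, hconv1, mul_div_assoc, div_self (irr_apply_one_ne_zero χ), mul_one]
        · intro g _ hg1
          by_cases hg : 2 ∣ orderOf g
          · rw [hv g hg, mul_zero]
          · rw [hconv g hg hg1, zero_mul]
        · intro h; exact absurd (Finset.mem_univ _) h
      rw [h2, zero_mul, h3] at h1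
      exact hD h1
    · have hcard := Cfsg.Agent.S0908.result 2 M hM _ hB D0 hD0
      have h2 : 2 ∣ Nat.card D0 := by
        rw [hcard]
        apply dvd_pow_self
        intro h0
        rw [h0, pow_zero] at hcard
        exact hbot (Subgroup.card_eq_one.1 hcard)
      obtain ⟨t, ht⟩ := exists_prime_orderOf_dvd_card' 2 h2
      have ht2 : orderOf (t : G) = 2 := by rw [Subgroup.orderOf_coe]; exact ht
      obtain ⟨Q, hQ, hQt, hQn, hQc⟩ := hloc t ht2
      exact principal_of_invol M hM χ D0 hD0 t t.2 ht2 Q hQ hQt hQn hQc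
  exact SameBlock.trans' (SameBlock.symm' (key χ)) (key ψ)

end Cfsg.Agent.Lib.Helper3.BlkOne
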