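import Cfsg.Agent.Lib.Helper3.BlkM22e1
import Cfsg.Agent.Lib.Helper3.BlkM22e2
import Cfsg.Agent.Lib.Helper3.BlkM22e3
import Cfsg.Agent.Lib.Helper3.BlkM22e4
import Cfsg.Agent.Lib.Helper3.BlkOct
import Cfsg.Agent.Lib.Helper3.BlkOne

/-!
# `M22` has a single 2-block
-/

set_option autoImplicit false
set_option maxRecDepth 1000000
open scoped Pointwise
open Cfsg

namespace Cfsg.Agent.Lib.Helper3.BlkM22

open MulAction Cfsg.Agent.Lib.Helper28 Cfsg.Agent.Lib.Helper3.M24T Cfsg.Agent.Lib.Helper3.M24Gen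
  Cfsg.Agent.Lib.Helper3.OctStab Cfsg.Agent.Lib.Helper3.FusGrp Cfsg.Agent.Lib.Helper3.BlkOct
  Cfsg.Agent.Lib.Helper3.BlkAgree

theorem LT_nodup : LT.Nodup := by
  apply List.Nodup.of_map code
  rw [c2]
  exact (nodup_of_incB _ _ c1).2

theorem LT_good {tb : List ℕ} (h : tb ∈ LT) :
    inM24 tb = true ∧ permOf tb ∈ Spor.M22 ∧ orderOf (permOf tb) = 2 := by
  have := List.all_eq_true.1 c3 tb h
  simp only [Bool.and_eq_true] at this
  have h1 : inM24 tb = true := by
    have := this.1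
    simp only [in22, Bool.and_eq_true] at this
    exact this.1.1
  exact ⟨h1, (good22 tb this.1).2, orderOf_permOf_two h1 this.2⟩

theorem fix_octad {t : Equiv.Perm GolayPt} (ht : t ∈ Spor.M22) (h2 : orderOf t = 2) :
    fixSet t ∈ octads := by
  rcases invol_cases (M22_le ht) h2 with ⟨k, hk, -, ho⟩ | ⟨k, hk, -, he⟩
  · exact ho
  · exfalso
    have : ptOf 23 ∈ fixSet t := mem_fixSet.2 (mem_M22.1 ht).2.1
    rw [he] at this
    simp at this

theorem inv_mem {t : Equiv.Perm GolayPt} (ht : t ∈ Spor.M22) (h2 : orderOf t = 2) : tblOf t ∈ LT := by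
  have ht24 := M22_le ht
  obtain ⟨-, h23, h0⟩ := mem_M22.1 ht
  have ho := fix_octad ht h2
  obtain ⟨hcode, hpop⟩ := isOct_iff.1 ((mem_octads_iff_isOct _).1 ho)
  have hb23 : (mk (fixSet t)).testBit 23 = true := by
    have := testBit_mk_idx (fixSet t) (ptOf 23)
    rw [idx_ptOf (by decide)] at this
    rw [this]; simpa [mem_fixSet] using h23
  have hb0 : (mk (fixSet t)).testBit 0 = true := by
    have := testBit_mk_idx (fixSet t) (ptOf 0)
    rw [idx_ptOf (by decide)] at this
    rw [this]; simpa [mem_fixSet] using h0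
  have hmem : M77.contains (mk (fixSet t)) = true := by
    have := forall_isCode (P := fun m => (!(popc m == 8 && m.testBit 23 && m.testBit 0)
      || M77.contains m) = true) c4 _ hcode
    simpa [hpop, hb23, hb0] using this
  rw [List.contains_iff_mem] at hmem
  obtain ⟨p, hp, hpm⟩ := List.mem_map.1 hmem
  have h5 := List.all_eq_true.1 c5 p hp
  simp only [Bool.and_eq_true, beq_iff_eq, decide_eq_true_eq, List.all_eq_true, Bool.or_eq_true] at h5
  obtain ⟨⟨⟨⟨⟨hg, hgi⟩, hinv⟩, himg⟩, hlt⟩, hU⟩ := h5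
  have hgT := isTbl_of_inM24 hg
  have hgiT := isTbl_of_inM24 hgi
  have hgi' : permOf (dec p.2.2) = (permOf (dec p.2.1))⁻¹ := FusEnum.permOf_inv_of_comp hgT hgiT hinv
  have hsm : permOf (dec p.2.1) • fixSet t = un O5 := by
    rw [← un_mk (fixSet t), ← hpm, permOf_smul_un hgT hlt, himg]
  have htQ : t ∈ fixO (fixSet t) := mem_fixO.2 ⟨ht24, fun p hp => mem_fixSet.1 hp⟩
  have h6 := (fixO_conj (permOf_mem_M24 hg) t).1 htQ
  rw [hsm] at h6
  obtain ⟨u, hu, hu'⟩ := mem_base_iff.1 h6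
  have huT := isTbl_of_inM24 (U7_in u hu)
  have ht' : t = permOf (dec p.2.2) * (permOf u * permOf (dec p.2.1)) := by
    rw [hgi', ← hu']; group
  have htb : tblOf t = comp (dec p.2.2) (comp u (dec p.2.1)) := by
    rw [ht', tblOf_mul, tblOf_mul, tblOf_permOf hgiT, tblOf_permOf huT, tblOf_permOf hgT]
  rcases hU u hu with h | ⟨h7, h8⟩
  · exfalso
    rw [h, permOf_idT] at hu'
    have : t = 1 := by
      have e : t = (permOf (dec p.2.1))⁻¹ * (permOf (dec p.2.1) * t * (permOf (dec p.2.1))⁻¹) *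
        permOf (dec p.2.1) := by group
      rw [e, hu']; simp
    rw [this] at h2; simp at h2
  · rw [htb, ← h8]
    rw [List.contains_iff_mem] at h7
    exact List.mem_map.2 ⟨_, h7, rfl⟩

/-! ### elements of odd order -/

theorem fix_of_sq {x : Equiv.Perm GolayPt} (hx : ¬ 2 ∣ orderOf x) {a : GolayPt} (h : x (x a) = a) :
    x a = a := by
  have hodd : orderOf x % 2 = 1 := by omega
  have h2 : ∀ n : ℕ, (x ^ (2 * n)) a = a := by
    intro n
    induction n with
    | zero => simp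
    | succ n ih =>
      rw [show 2 * (n + 1) = 2 * n + 2 by ring, pow_add, Equiv.Perm.mul_apply, pow_two,
        Equiv.Perm.mul_apply, h, ih]
  have h3 : x ^ (2 * (orderOf x / 2 + 1)) = x := by
    have : 2 * (orderOf x / 2 + 1) = orderOf x + 1 := by omega
    rw [this, pow_succ, pow_orderOf_eq_one, one_mul]
  have := h2 (orderOf x / 2 + 1)
  rwa [h3] at this

theorem PO_of_odd {x : Equiv.Perm GolayPt} (hx : ¬ 2 ∣ orderOf x) : PO (tblOf x) = true := by
  unfold PO
  rw [beq_iff_eq, ← tblOf_mul, ← card_fixSet, ← card_fixSet]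
  congr 1
  ext p
  rw [mem_fixSet, mem_fixSet, Equiv.Perm.mul_apply]
  exact ⟨fun h => by rw [h, h], fun h => fix_of_sq hx h⟩

theorem orderOf_conj' (k x : Equiv.Perm GolayPt) : orderOf (k * x * k⁻¹) = orderOf x := by
  have := orderOf_injective (MulAut.conj k).toMonoidHom (MulAut.conj k).injective x
  simpa using this

theorem odd_class {x : Equiv.Perm GolayPt} (hx : x ∈ Spor.M22) (hodd : ¬ 2 ∣ orderOf x) (hx1 : x ≠ 1) :
    ∃ κ ∈ Spor.M22, ∃ r ∈ reps, κ * x * κ⁻¹ = permOf r := by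
  obtain ⟨hx24, h23, h0⟩ := mem_M22.1 hx
  obtain ⟨a, ha⟩ : ∃ a, x a ≠ a := by
    by_contra hcon
    push Not at hcon
    exact hx1 (Equiv.ext hcon)
  have hc : x (x a) ≠ a := fun h => ha (fix_of_sq hodd h)
  have hb : x (x a) ≠ x a := fun h => ha (x.injective h)
  have a23 : a ≠ ptOf 23 := fun h => ha (by rw [h, h23])
  have a0 : a ≠ ptOf 0 := fun h => ha (by rw [h, h0])
  have b23 : x a ≠ ptOf 23 := fun h => a23 (x.injective (by rw [h, h23]))
  have b0 : x a ≠ ptOf 0 := fun h => a0 (x.injective (by rw [h, h0]))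
  have c23 : x (x a) ≠ ptOf 23 := fun h => b23 (x.injective (by rw [h, h23]))
  have c0 : x (x a) ≠ ptOf 0 := fun h => b0 (x.injective (by rw [h, h0]))
  have h230 : ptOf 23 ≠ ptOf 0 := by decide
  obtain ⟨k, hk, hmap⟩ := exists_M24_map_base [ptOf 23, ptOf 0, a, x a, x (x a)] (by simp)
    (by simp [h230, Ne.symm a23, Ne.symm a0, Ne.symm b23, Ne.symm b0, Ne.symm c23, Ne.symm c0,
      Ne.symm ha, Ne.symm hc, Ne.symm hb])
  simp only [List.map_cons, List.map_nil, List.length_cons, List.length_nil, List.take_succ_cons,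
    List.take_zero, List.cons.injEq, and_true, zero_add, Nat.reduceAdd] at hmap
  obtain ⟨e1, e2, e3, e4, e5⟩ := hmap
  have hk22 : k ∈ Spor.M22 := mem_M22.2 ⟨hk, e1, e2⟩
  have hx' := conj_mem hk hx24
  obtain ⟨cert, hcert⟩ := check960c c9 c8 c7 hx' (by
    intro i hi
    simp only [List.mem_cons, List.not_mem_nil, or_false] at hi
    rcases hi with rfl | rfl | rfl | rfl
    · rw [permOf_ptOf c9 (by decide)]
      conv_lhs => rw [← e1, conj_apply, h23, e1]
      rfl
    · rw [permOf_ptOf c9 (by decide)]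
      conv_lhs => rw [← e2, conj_apply, h0, e2]
      rfl
    · rw [permOf_ptOf c9 (by decide)]
      conv_lhs => rw [← e3, conj_apply, e4]
      rfl
    · rw [permOf_ptOf c9 (by decide)]
      conv_lhs => rw [← e4, conj_apply, e5]
      rfl)
  have hP : PO (tblOf (k * x * k⁻¹)) = true := PO_of_odd (by rw [orderOf_conj']; exact hodd)
  simp only [Q22, hP, Bool.not_true, Bool.false_or, Bool.and_eq_true, List.any_eq_true,
    beq_iff_eq] at hcert
  obtain ⟨hc22, r, hr, e⟩ := hcert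
  have hg := good22 cert hc22
  have hrT := (good22 r (c10 r hr)).1
  refine ⟨permOf cert * k, Spor.M22.mul_mem hg.2 hk22, r, hr, ?_⟩
  have e2 : permOf cert * (k * x * k⁻¹) = permOf r * permOf cert := by
    apply tblOf_injective
    rw [tblOf_mul (permOf cert), tblOf_mul (permOf r), tblOf_permOf hg.1, tblOf_permOf hrT, e]
  calc permOf cert * k * x * (permOf cert * k)⁻¹
      = (permOf cert * (k * x * k⁻¹)) * (permOf cert)⁻¹ := by group
    _ = permOf r := by rw [e2]; simp

/-! ### the certificate -/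

noncomputable instance instFin22 : Fintype ↥Spor.M22 := Fintype.ofFinite _

/-- the indicator of the involutions. -/
noncomputable def fI (h : ↥Spor.M22) : ℂ := if orderOf h = 2 then 1 else 0

/-- the class function of the certificate. -/
noncomputable def cI (g : ↥Spor.M22) : ℂ := (gam (fixSet (g : Equiv.Perm GolayPt)).card : ℂ)

theorem fI_class : IsClassFunction ↥Spor.M22 fI := by
  intro g h
  unfold fI
  have : orderOf (h * g * h⁻¹) = orderOf g := by
    have := orderOf_injective (MulAut.conj h).toMonoidHom (MulAut.conj h).injective g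
    simpa using this
  rw [this]

theorem cI_class : IsClassFunction ↥Spor.M22 cI := by
  intro g h
  unfold cI
  have : ((h * g * h⁻¹ : ↥Spor.M22) : Equiv.Perm GolayPt) =
      (h : Equiv.Perm GolayPt) * g * (h : Equiv.Perm GolayPt)⁻¹ := rfl
  rw [this, card_fixSet_conj]

theorem conv_eq (X : ↥Spor.M22) :
    Cfsg.Agent.BlockLib.conv fI cI X = (S2 (tblOf (X : Equiv.Perm GolayPt)) : ℂ) := by
  rw [Cfsg.Agent.BlockLib.conv_apply]
  have h1 : ∀ h : ↥Spor.M22, fI h * cI (h⁻¹ * X) =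
      if orderOf h = 2 then cI (h⁻¹ * X) else 0 := by
    intro h; unfold fI; split_ifs <;> simp
  simp only [h1]
  rw [← Finset.sum_filter]
  unfold S2
  rw [← List.sum_toFinset _ LT_nodup, Int.cast_sum]
  apply Finset.sum_bij (fun (h : ↥Spor.M22) _ => tblOf (h : Equiv.Perm GolayPt))
  · intro h hh
    rw [Finset.mem_filter] at hh
    rw [List.mem_toFinset]
    exact inv_mem h.2 (by rw [← Subgroup.orderOf_coe] at hh; exact hh.2)
  · intro a _ b _ e
    exact Subtype.ext (tblOf_injective e)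
  · intro tb htb
    rw [List.mem_toFinset] at htb
    obtain ⟨h1, h2, h3⟩ := LT_good htb
    refine ⟨⟨permOf tb, h2⟩, ?_, tblOf_permOf (isTbl_of_inM24 h1)⟩
    rw [Finset.mem_filter]
    refine ⟨Finset.mem_univ _, ?_⟩
    rw [← Subgroup.orderOf_coe]; exact h3
  · intro h hh
    rw [Finset.mem_filter] at hh
    have h2 : orderOf (h : Equiv.Perm GolayPt) = 2 := by rw [Subgroup.orderOf_coe]; exact hh.2
    have hsq : (h : Equiv.Perm GolayPt) * h = 1 := by rw [← sq, ← h2, pow_orderOf_eq_one]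
    have hinv : (h : Equiv.Perm GolayPt)⁻¹ = h := inv_eq_of_mul_eq_one_left hsq
    unfold cI
    have : ((h⁻¹ * X : ↥Spor.M22) : Equiv.Perm GolayPt) = (h : Equiv.Perm GolayPt) * X := by
      rw [Subgroup.coe_mul, Subgroup.coe_inv, hinv]
    rw [this, card_fixSet_mul hsq]

theorem main (M : Ideal AlgInt) (hM : IsPModular 2 M) (χ ψ : IrrCharacter ↥Spor.M22) :
    SameBlock M (χ : ↥Spor.M22 → ℂ) (ψ : ↥Spor.M22 → ℂ) := by
  apply BlkOne.one_block M hM ?_ fI cI fI_class cI_class ?_ (16516500 : ℂ) (by norm_num) ?_ ?_ χ ψ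
  · intro t ht
    have ht2 : orderOf (t : Equiv.Perm GolayPt) = 2 := by rw [Subgroup.orderOf_coe]; exact ht
    have ho := fix_octad t.2 ht2
    obtain ⟨hp, hc, hn, hs⟩ := local_octad (M22_le t.2) ho
    have hle : fixO (fixSet (t : Equiv.Perm GolayPt)) ≤ Spor.M22 := by
      intro q hq
      rw [mem_fixO] at hq
      obtain ⟨-, h23, h0⟩ := mem_M22.1 t.2
      exact mem_M22.2 ⟨hq.1, hq.2 _ (mem_fixSet.2 h23), hq.2 _ (mem_fixSet.2 h0)⟩
    refine ⟨(fixO (fixSet (t : Equiv.Perm GolayPt))).subgroupOf Spor.M22, ?_, ?_, ?_, ?_⟩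
    · intro q
      obtain ⟨k, hk⟩ := hp ⟨(q : ↥Spor.M22), q.2⟩
      refine ⟨k, ?_⟩
      apply Subtype.ext
      apply Subtype.ext
      simpa using congrArg Subtype.val hk
    · intro q hq
      exact Subtype.ext (hc q hq)
    · intro h hh q hq
      exact hn h (M22_le h.2) (congrArg Subtype.val hh) q hq
    · intro h _ hq
      apply hs h (M22_le h.2)
      intro q hq'
      exact congrArg Subtype.val (hq ⟨q, hle hq'⟩ hq')
  · intro g hg
    unfold fI
    rw [if_neg]
    intro h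
    exact hg (by rw [h])
  · intro x hx hx1
    have hx' : ¬ 2 ∣ orderOf (x : Equiv.Perm GolayPt) := by rw [Subgroup.orderOf_coe]; exact hx
    obtain ⟨κ, hκ, r, hr, e⟩ := odd_class x.2 hx' (fun h => hx1 (Subtype.ext h))
    have hcl := Cfsg.Agent.BlockLib.isClassFunction_conv fI_class cI_class x ⟨κ, hκ⟩
    rw [← hcl, conv_eq]
    have : (((⟨κ, hκ⟩ : ↥Spor.M22) * x * (⟨κ, hκ⟩ : ↥Spor.M22)⁻¹ : ↥Spor.M22) : Equiv.Perm GolayPt) =
        permOf r := e
    rw [this, tblOf_permOf (good22 r (c10 r hr)).1, c6' r hr]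
    simp
  · rw [conv_eq]
    have : ((1 : ↥Spor.M22) : Equiv.Perm GolayPt) = 1 := rfl
    rw [this, tblOf_one, c6]
    norm_num

end Cfsg.Agent.Lib.Helper3.BlkM22
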