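import Cfsg.Agent.Lib.Helper3.BlkM24a
import Cfsg.Agent.Lib.Helper3.BlkM22d
import Cfsg.Agent.Lib.Helper3.BlkAgree

/-!
# The 2-blocks of `M24`: the functions of the checks
-/

set_option autoImplicit false

namespace Cfsg.Agent.Lib.Helper3.BlkM24

open Cfsg Cfsg.Agent.Lib.Helper28 Cfsg.Agent.Lib.Helper3.M24T Cfsg.Agent.Lib.Helper3.M24Gen
  Cfsg.Agent.Lib.Helper3.FusGrp Cfsg.Agent.Lib.Helper3.BlkM22 Cfsg.Agent.Lib.Helper3.BlkAgree

def look (n i : ℕ) : ℕ := Nat.land (Nat.shiftRight n (5 * i)) 31

theorem dec_eq (n : ℕ) : dec n = (List.range 24).map (look n) := rfl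

/-- the codes of the non-identity elements fixing the points of the base octad. -/
def U7c : List ℕ := [965128854020860192151391391390468128, 963721886883755259286232606933354528, 979121071158219704299181131031480352, 968708902336673183175954409307867168, 967812279691448225500382947153381408, 971592882964418941354553515258775584, 970499966350631336865513127433832480, 976448692869377735270425038196672544, 981818691054096003685363657089320992, 972512676110088067912772961567868960, 966182099583441531322624363496310816, 983548720921252936276249910206105632, 975346028712660580592452217730074656, 980224387687010295957922729495201824, 961365507626256404119956257276790816]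

def idxs : List ℕ := [0, 1, 2, 3, 4, 5, 6, 7, 8, 9, 10, 11, 12, 13, 14, 15, 16, 17, 18, 19, 20, 21, 22, 23]

/-- `n` is the code of the product of the tables of codes `gi`, `uc`, `g`. -/
def isConj (gi g n uc : ℕ) : Bool :=
  idxs.all fun i => Nat.beq (look n i) (look gi (look uc (look g i)))

def zipAll (gi g : ℕ) : List ℕ → List ℕ → Bool
  | n :: l, u :: m => isConj gi g n u && zipAll gi g l m
  | [], [] => true
  | _, _ => false

def blkOK (p : ℕ × ℕ × ℕ × List ℕ) : Bool :=
  inM24 (dec p.2.1) && isTbl (dec p.2.2.1) && comp (dec p.2.1) (dec p.2.2.1) == idT &&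
  img (dec p.2.1) p.1 == O5 && decide (p.1 < 2 ^ 24) && zipAll p.2.2.1 p.2.1 p.2.2.2 U7c

def P759 : List (ℕ × ℕ × ℕ × List ℕ) := PC0 ++ PC1 ++ PC2 ++ PC3

def M759 : List ℕ := P759.map (·.1)

def gam2 (a b : ℕ) : ℤ :=
  if a = 2 then (if b = 2 then -1408328549553 else if b = 4 then -958725794028 else 1006367387397)
  else if a = 0 then 59710737395 else if a = 1 then 90471466057 else if a = 3 then 1455318717965
  else if a = 4 then 2669446936261 else if a = 6 then -44964880913488
  else if a = 8 then 79243324602750 else 0

/-- the value of the class function at the product of the involution of code `n` and the element of table `xs`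
and code `Xc`. -/
def F (xs : List ℕ) (Xc : ℕ) (n : ℕ) : ℤ :=
  gam2 (agree (dec n) xs) (agree (dec n) (xs.map fun j => look Xc (look n j)))

def sumOver (P : List (ℕ × ℕ × ℕ × List ℕ)) (f : ℕ → ℤ) : ℤ := (P.map fun p => (p.2.2.2.map f).sum).sum

def Q24 (rs : List (List ℕ)) (T c : List ℕ) : Bool :=
  !PO T || (match c with
    | [] => false
    | j :: k => inM24 k && comp k T == comp (rs.getD j []) k)

def repsA : List (List ℕ) := repsO ++ repsE

end Cfsg.Agent.Lib.Helper3.BlkM24
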