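import Cfsg.Agent.Lib.Helper3.BlkM24d

set_option autoImplicit false
set_option maxRecDepth 1000000

namespace Cfsg.Agent.Lib.Helper3.BlkM24

open Cfsg Cfsg.Agent.Lib.Helper28 Cfsg.Agent.Lib.Helper3.M24T Cfsg.Agent.Lib.Helper3.M24Gen
  Cfsg.Agent.Lib.Helper3.FusGrp Cfsg.Agent.Lib.Helper3.BlkM22 Cfsg.Agent.Lib.Helper3.BlkAgree

def agB : List ℕ → List ℕ → ℕ
  | a :: l, b :: m => Nat.add (cond (Nat.beq a b) 1 0) (agB l m)
  | _, _ => 0

theorem agree_eq_agB : ∀ l m : List ℕ, agree l m = agB l m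
  | [], _ => by simp [agree, agB]
  | _ :: _, [] => by simp [agree, agB]
  | a :: l, b :: m => by
    simp only [agree, agB, agree_eq_agB l m]
    by_cases h : a = b
    · subst h; simp
    · have : Nat.beq a b = false := by
        rw [← Bool.not_eq_true, Nat.beq_eq]; exact h
      simp [h, this]

end Cfsg.Agent.Lib.Helper3.BlkM24
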