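import Cfsg.Agent.Lib.Helper3.BlkM24d

set_option autoImplicit false
set_option maxRecDepth 1000000

namespace Cfsg.Agent.Lib.Helper3.BlkM24

open Cfsg Cfsg.Agent.Lib.Helper28 Cfsg.Agent.Lib.Helper3.M24T Cfsg.Agent.Lib.Helper3.M24Gen
  Cfsg.Agent.Lib.Helper3.FusGrp Cfsg.Agent.Lib.Helper3.BlkM22 Cfsg.Agent.Lib.Helper3.BlkAgree

theorem bk1 : PC1.all blkOK = true := by decide +kernel

end Cfsg.Agent.Lib.Helper3.BlkM24
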