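import Cfsg.Agent.Lib.Helper3.BlkM24d
import Cfsg.Agent.Lib.Helper3.BlkM24n0

set_option autoImplicit false
set_option maxRecDepth 1000000

namespace Cfsg.Agent.Lib.Helper3.BlkM24

open Cfsg Cfsg.Agent.Lib.Helper28 Cfsg.Agent.Lib.Helper3.M24T Cfsg.Agent.Lib.Helper3.M24Gen
  Cfsg.Agent.Lib.Helper3.FusGrp Cfsg.Agent.Lib.Helper3.BlkM22 Cfsg.Agent.Lib.Helper3.BlkAgree

theorem nfa0 : list960.map (comp tP0) = NF0 := by decide +kernel

theorem nfb0 : (NF0.zip certs0).all (fun p => Q24 repsA p.1 p.2) = true := by decide +kernel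

theorem nfl0 : list960.length = certs0.length := by decide +kernel

theorem nft0 : inM24 tP0 = true := by decide +kernel

theorem nf0 : (list960.zip certs0).all (fun p => Q24 repsA (comp tP0 p.1) p.2) = true := by
  have h := nfb0
  rw [← nfa0, List.zip_map_left, List.all_map] at h
  exact h

end Cfsg.Agent.Lib.Helper3.BlkM24
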