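import Cfsg.Agent.Lib.Helper3.BlkM24d
import Cfsg.Agent.Lib.Helper3.BlkM24n2

set_option autoImplicit false
set_option maxRecDepth 1000000

namespace Cfsg.Agent.Lib.Helper3.BlkM24

open Cfsg Cfsg.Agent.Lib.Helper28 Cfsg.Agent.Lib.Helper3.M24T Cfsg.Agent.Lib.Helper3.M24Gen
  Cfsg.Agent.Lib.Helper3.FusGrp Cfsg.Agent.Lib.Helper3.BlkM22 Cfsg.Agent.Lib.Helper3.BlkAgree

theorem nfa2 : list960.map (comp tP2) = NF2 := by decide +kernel

theorem nfb2 : (NF2.zip certs2).all (fun p => Q24 repsA p.1 p.2) = true := by decide +kernel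

theorem nfl2 : list960.length = certs2.length := by decide +kernel

theorem nft2 : inM24 tP2 = true := by decide +kernel

theorem nf2 : (list960.zip certs2).all (fun p => Q24 repsA (comp tP2 p.1) p.2) = true := by
  have h := nfb2
  rw [← nfa2, List.zip_map_left, List.all_map] at h
  exact h

end Cfsg.Agent.Lib.Helper3.BlkM24
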