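import Cfsg.Agent.Lib.Helper3.SchurTriv
import Cfsg.Agent.Lib.Helper3.FusGrp
import Cfsg.Agent.Lib.Helper3.FusEnum2

/-!
# Table tools for the Schur multiplier computations in the Mathieu groups
-/

set_option autoImplicit false

namespace Cfsg.Agent.Lib.Helper3.SchurTbl

open Cfsg Cfsg.Agent.Lib.Helper28 Cfsg.Agent.Lib.Helper3.M24T Cfsg.Agent.Lib.Helper3.M24Gen
  Cfsg.Agent.Lib.Helper3.FusEnum

/-- the list is closed under products, contains the identity and consists of involutions -/
def chkV (L : List (List ℕ)) : Bool :=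
  L.contains idT &&
    L.all (fun a => isTbl a && comp a a == idT && L.all (fun b => L.contains (comp a b)))

theorem chkV_spec {L : List (List ℕ)} (h : chkV L = true) :
    idT ∈ L ∧ ∀ a ∈ L, isTbl a = true ∧ comp a a = idT ∧ ∀ b ∈ L, comp a b ∈ L := by
  simp only [chkV, Bool.and_eq_true, List.all_eq_true, beq_iff_eq, List.contains_iff_mem] at h
  exact ⟨h.1, fun a ha => ⟨(h.2 a ha).1.1, (h.2 a ha).1.2, (h.2 a ha).2⟩⟩

/-- the elementary abelian 2-group given by a list of tables -/
def listSub (L : List (List ℕ)) (h : chkV L = true) : Subgroup (Equiv.Perm GolayPt) where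
  carrier := {g | tblOf g ∈ L}
  one_mem' := by
    show tblOf 1 ∈ L
    rw [tblOf_one]; exact (chkV_spec h).1
  mul_mem' := by
    intro a b ha hb
    show tblOf (a * b) ∈ L
    rw [tblOf_mul]
    exact ((chkV_spec h).2 _ ha).2.2 _ hb
  inv_mem' := by
    intro a ha
    show tblOf a⁻¹ ∈ L
    have h1 : a * a = 1 := by
      apply tblOf_injective
      rw [tblOf_mul, ((chkV_spec h).2 _ ha).2.1, tblOf_one]
    rw [inv_eq_of_mul_eq_one_left h1]
    exact ha

theorem mem_listSub {L : List (List ℕ)} {h : chkV L = true} {g : Equiv.Perm GolayPt} :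
    g ∈ listSub L h ↔ tblOf g ∈ L := Iff.rfl

theorem good_listSub {L : List (List ℕ)} {h : chkV L = true} {t : List ℕ} (ht : t ∈ L) :
    Good (listSub L h) t := by
  have h1 := ((chkV_spec h).2 t ht).1
  exact ⟨h1, by rw [mem_listSub, tblOf_permOf h1]; exact ht⟩

theorem forall_listSub {L : List (List ℕ)} {h : chkV L = true} {Q : Equiv.Perm GolayPt → Prop}
    (hQ : ∀ t ∈ L, isTbl t = true → Q (permOf t)) : ∀ v ∈ listSub L h, Q v := by
  intro v hv
  rw [← permOf_tblOf v]
  exact hQ _ hv (isTbl_tblOf v)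

theorem length_le_card {S : Subgroup (Equiv.Perm GolayPt)} {P : List (List ℕ)}
    (hb : ∀ t ∈ P, Good S t) (hnd : P.Nodup) : P.length ≤ Nat.card S := by
  rw [← List.toFinset_card_of_nodup hnd, ← Fintype.card_coe, ← Nat.card_eq_fintype_card]
  apply Nat.card_le_card_of_injective
    (fun t : {x // x ∈ P.toFinset} => (⟨permOf t.1, (hb t.1 (List.mem_toFinset.1 t.2)).2⟩ : S))
  intro a b e
  have e1 : permOf a.1 = permOf b.1 := congrArg Subtype.val e
  have := congrArg tblOf e1
  rw [tblOf_permOf (hb a.1 (List.mem_toFinset.1 a.2)).1,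
    tblOf_permOf (hb b.1 (List.mem_toFinset.1 b.2)).1] at this
  exact Subtype.ext this

theorem card_listSub {L : List (List ℕ)} {h : chkV L = true} (hnd : L.Nodup) :
    Nat.card (listSub L h) = L.length :=
  FusEnum2.card_eq_length (fun _ hg => hg) (fun _ ht => good_listSub ht) hnd

/-- powers of a table -/
def powT (t : List ℕ) : ℕ → List ℕ
  | 0 => idT
  | n + 1 => comp (powT t n) t

theorem tblOf_pow (g : Equiv.Perm GolayPt) (n : ℕ) : tblOf (g ^ n) = powT (tblOf g) n := by
  induction n with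
  | zero => rw [pow_zero, tblOf_one]; rfl
  | succ n ih => rw [pow_succ, tblOf_mul, ih]; rfl

theorem orderOf_permOf {t : List ℕ} (ht : isTbl t = true) {p : ℕ} (hp : p.Prime)
    (h1 : powT t p = idT) (h2 : t ≠ idT) : orderOf (permOf t) = p := by
  have : Fact p.Prime := ⟨hp⟩
  apply orderOf_eq_prime
  · apply tblOf_injective
    rw [tblOf_pow, tblOf_permOf ht, h1, tblOf_one]
  · intro e
    apply h2
    rw [← tblOf_permOf ht, e, tblOf_one]

end Cfsg.Agent.Lib.Helper3.SchurTbl
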