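import Cfsg.Agent.Lib.Helper3.BlkM24g
import Cfsg.Agent.Lib.Helper3.BlkM24k0
import Cfsg.Agent.Lib.Helper3.BlkM24k1
import Cfsg.Agent.Lib.Helper3.BlkM24k2
import Cfsg.Agent.Lib.Helper3.BlkM24k3
import Cfsg.Agent.Lib.Helper3.BlkM24o
import Cfsg.Agent.Lib.Helper3.BlkM24w0
import Cfsg.Agent.Lib.Helper3.BlkM24w1
import Cfsg.Agent.Lib.Helper3.BlkM24w2
import Cfsg.Agent.Lib.Helper3.BlkOct
import Cfsg.Agent.Lib.Helper3.BlkOne
import Cfsg.Agent.Lib.Helper3.SchurTbl

/-!
# The 2-blocks of `M24`: the involutions with fixed points, the convolution, the classes of odd order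
-/

set_option autoImplicit false
set_option maxRecDepth 1000000
open scoped Pointwise
open Cfsg

namespace Cfsg.Agent.Lib.Helper3.BlkM24

open MulAction Cfsg.Agent.Lib.Helper28 Cfsg.Agent.Lib.Helper3.M24T Cfsg.Agent.Lib.Helper3.M24Gen
  Cfsg.Agent.Lib.Helper3.OctStab Cfsg.Agent.Lib.Helper3.FusGrp Cfsg.Agent.Lib.Helper3.BlkOct
  Cfsg.Agent.Lib.Helper3.BlkAgree Cfsg.Agent.Lib.Helper3.BlkM22

theorem orderOf_conj' (k x : Equiv.Perm GolayPt) : orderOf (k * x * k⁻¹) = orderOf x := by
  have := orderOf_injective (MulAut.conj k).toMonoidHom (MulAut.conj k).injective x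
  simpa using this

/-! ### the blocks -/

theorem blk_all {p : ℕ × ℕ × ℕ × List ℕ} (hp : p ∈ P759) : blkOK p = true := by
  simp only [P759, List.mem_append] at hp
  rcases hp with ((hp | hp) | hp) | hp
  · exact List.all_eq_true.1 bk0 p hp
  · exact List.all_eq_true.1 bk1 p hp
  · exact List.all_eq_true.1 bk2 p hp
  · exact List.all_eq_true.1 bk3 p hp

theorem getD_dec (n : ℕ) {j : ℕ} (hj : j < 24) : (dec n).getD j 0 = look n j := by
  rw [dec_eq, List.getD_eq_getElem _ _ (by simpa using hj)]
  simp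

theorem look_lt {n : ℕ} (h : isTbl (dec n) = true) {i : ℕ} (hi : i < 24) : look n i < 24 := by
  apply (isTbl_iff.1 h).2.1
  rw [dec_eq]
  exact List.mem_map.2 ⟨i, List.mem_range.2 hi, rfl⟩

/-- the conjugate of the table `u`. -/
def phi (p : ℕ × ℕ × ℕ × List ℕ) (u : List ℕ) : List ℕ := comp (dec p.2.2.1) (comp u (dec p.2.1))

theorem dec_of_isConj {gi g n uc : ℕ} (h : isConj gi g n uc = true) (hg : isTbl (dec g) = true)
    (hu : isTbl (dec uc) = true) : dec n = comp (dec gi) (comp (dec uc) (dec g)) := by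
  have h1 : ∀ i < 24, look n i = look gi (look uc (look g i)) := by
    intro i hi
    have := List.all_eq_true.1 h i (by
      have : idxs = List.range 24 := by decide
      rw [this]; exact List.mem_range.2 hi)
    exact Nat.eq_of_beq_eq_true this
  unfold comp
  rw [dec_eq n, dec_eq g, List.map_map, List.map_map]
  apply List.map_congr_left
  intro i hi
  have hi' := List.mem_range.1 hi
  simp only [Function.comp]
  rw [getD_dec uc (look_lt hg hi'), getD_dec gi (look_lt hu (look_lt hg hi')), h1 i hi']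

theorem map_of_zipAll {gi g : ℕ} (hg : isTbl (dec g) = true) : ∀ (l m : List ℕ),
    zipAll gi g l m = true → (∀ uc ∈ m, isTbl (dec uc) = true) →
    l.map dec = (m.map dec).map fun u => comp (dec gi) (comp u (dec g))
  | [], [], _, _ => rfl
  | [], _ :: _, h, _ => by simp [zipAll] at h
  | _ :: _, [], h, _ => by simp [zipAll] at h
  | n :: l, u :: m, h, hm => by
    simp only [zipAll, Bool.and_eq_true] at h
    simp only [List.map_cons]
    rw [dec_of_isConj h.1 hg (hm u List.mem_cons_self),
      map_of_zipAll hg l m h.2 (fun uc huc => hm uc (List.mem_cons_of_mem _ huc))]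

theorem U7t : ∀ u ∈ U7.tail, u ∈ U7 ∧ u ≠ idT ∧ fixMask u = O5 ∧ isInvT u = true := by decide +kernel

theorem U7_cons : U7 = idT :: U7.tail := by decide +kernel

theorem U7t_nodup : U7.tail.Nodup := by decide +kernel

structure BlkFacts (p : ℕ × ℕ × ℕ × List ℕ) : Prop where
  hg : inM24 (dec p.2.1) = true
  hgi : isTbl (dec p.2.2.1) = true
  hinv : permOf (dec p.2.2.1) = (permOf (dec p.2.1))⁻¹
  hsm : permOf (dec p.2.1) • un p.1 = un O5
  hlt : p.1 < 2 ^ 24
  hmap : p.2.2.2.map dec = U7.tail.map (phi p)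

theorem blkFacts {p : ℕ × ℕ × ℕ × List ℕ} (hp : p ∈ P759) : BlkFacts p := by
  have h := blk_all hp
  simp only [blkOK, Bool.and_eq_true, beq_iff_eq, decide_eq_true_eq] at h
  obtain ⟨⟨⟨⟨⟨hg, hgi⟩, hinv⟩, himg⟩, hlt⟩, hz⟩ := h
  have hgT := isTbl_of_inM24 hg
  refine ⟨hg, hgi, FusEnum.permOf_inv_of_comp hgT hgi hinv, ?_, hlt, ?_⟩
  · rw [permOf_smul_un hgT hlt, himg]
  · have := map_of_zipAll (gi := p.2.2.1) hgT _ _ hz (by
      intro uc huc
      have : dec uc ∈ U7.tail := by rw [← u7c]; exact List.mem_map_of_mem huc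
      exact isTbl_of_inM24 (U7_in _ (U7t _ this).1))
    rw [this, u7c]
    rfl

theorem phi_facts {p : ℕ × ℕ × ℕ × List ℕ} (hp : p ∈ P759) {u : List ℕ} (hu : u ∈ U7.tail) :
    isTbl (phi p u) = true ∧
      permOf (phi p u) = (permOf (dec p.2.1))⁻¹ * permOf u * permOf (dec p.2.1) := by
  have hb := blkFacts hp
  have huT := isTbl_of_inM24 (U7_in _ (U7t u hu).1)
  obtain ⟨a1, a2⟩ := permOf_comp huT (isTbl_of_inM24 hb.hg)
  obtain ⟨b1, b2⟩ := permOf_comp hb.hgi a1
  exact ⟨b1, by unfold phi; rw [b2, a2, hb.hinv, mul_assoc]⟩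

theorem phi_good {p : ℕ × ℕ × ℕ × List ℕ} (hp : p ∈ P759) {u : List ℕ} (hu : u ∈ U7.tail) :
    permOf (phi p u) ∈ M24 ∧ orderOf (permOf (phi p u)) = 2 ∧ fixSet (permOf (phi p u)) = un p.1 := by
  have hb := blkFacts hp
  obtain ⟨h1, h2⟩ := phi_facts hp hu
  obtain ⟨hu1, hu2, hu3, hu4⟩ := U7t u hu
  have hG := permOf_mem_M24 hb.hg
  have e : permOf (phi p u) = (permOf (dec p.2.1))⁻¹ * permOf u * ((permOf (dec p.2.1))⁻¹)⁻¹ := by
    rw [h2, inv_inv]
  refine ⟨?_, ?_, ?_⟩
  · rw [h2]
    exact M24.mul_mem (M24.mul_mem (M24.inv_mem hG) (permOf_mem_M24 (U7_in u hu1))) hG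
  · rw [e, orderOf_conj', orderOf_permOf_two (U7_in u hu1) hu4]
  · rw [e, fixSet_conj, fixSet_permOf (U7_in u hu1), hu3, ← hb.hsm, inv_smul_smul]

/-- the tables of the involutions with fixed points. -/
def LT24 : List (List ℕ) := (P759.flatMap (·.2.2.2)).map dec

theorem LT24_eq : LT24 = P759.flatMap fun p => U7.tail.map (phi p) := by
  unfold LT24
  rw [List.map_flatMap]
  apply List.flatMap_congr
  intro p hp
  exact (blkFacts hp).hmap

theorem mem_LT24 {tb : List ℕ} : tb ∈ LT24 ↔ ∃ p ∈ P759, ∃ u ∈ U7.tail, tb = phi p u := by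
  rw [LT24_eq, List.mem_flatMap]
  constructor
  · rintro ⟨p, hp, h⟩
    obtain ⟨u, hu, rfl⟩ := List.mem_map.1 h
    exact ⟨p, hp, u, hu, rfl⟩
  · rintro ⟨p, hp, u, hu, rfl⟩
    exact ⟨p, hp, List.mem_map_of_mem hu⟩

theorem pairwise_of_incB : ∀ (l : List ℕ) (a : ℕ), incB a l = true → l.Pairwise (· < ·)
  | [], _, _ => List.Pairwise.nil
  | b :: l, a, h => by
    simp only [incB, Bool.and_eq_true] at h
    exact List.Pairwise.cons (nodup_of_incB l b h.2).1 (pairwise_of_incB l b h.2)

theorem LT24_nodup : LT24.Nodup := by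
  rw [LT24_eq, List.nodup_flatMap]
  constructor
  · intro p hp
    apply List.Nodup.map_on _ U7t_nodup
    intro u hu v hv e
    have h1 := (phi_facts hp hu).2
    have h2 := (phi_facts hp hv).2
    rw [e, h2] at h1
    have h3 : permOf v = permOf u := mul_left_cancel (mul_right_cancel h1)
    rw [← tblOf_permOf (isTbl_of_inM24 (U7_in _ (U7t u hu).1)), ← h3,
      tblOf_permOf (isTbl_of_inM24 (U7_in _ (U7t v hv).1))]
  · have h1 : (P759.map (·.1)).Pairwise (· < ·) := by
      have := pairwise_of_incB _ _ m_inc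
      rw [← m_eq] at this
      exact this
    rw [List.pairwise_map] at h1
    apply List.Pairwise.imp_of_mem _ h1
    intro p q hp hq hlt
    intro tb h1 h2
    obtain ⟨u, hu, rfl⟩ := List.mem_map.1 h1
    obtain ⟨v, hv, e⟩ := List.mem_map.1 h2
    have e1 := (phi_good hp hu).2.2
    have e2 := (phi_good hq hv).2.2
    rw [e, e1] at e2
    have := congrArg mk e2
    rw [mk_un (blkFacts hp).hlt, mk_un (blkFacts hq).hlt] at this
    omega

theorem inv_mem24 {t : Equiv.Perm GolayPt} (ht : t ∈ M24) (h2 : orderOf t = 2)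
    (hf : (fixSet t).card ≠ 0) : tblOf t ∈ LT24 := by
  have ho : fixSet t ∈ octads := by
    rcases invol_cases ht h2 with ⟨k, hk, -, ho⟩ | ⟨k, hk, -, he⟩
    · exact ho
    · rw [he] at hf; simp at hf
  obtain ⟨hcode, hpop⟩ := isOct_iff.1 ((mem_octads_iff_isOct _).1 ho)
  have hmem : M759L.contains (mk (fixSet t)) = true := by
    have := forall_isCode (P := fun m => (!(popc m == 8) || M759L.contains m) = true) oc _ hcode
    simpa [hpop] using this
  rw [List.contains_iff_mem, ← m_eq] at hmem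
  obtain ⟨p, hp, hpm⟩ := List.mem_map.1 hmem
  have hb := blkFacts hp
  have hsm : permOf (dec p.2.1) • fixSet t = un O5 := by
    rw [← un_mk (fixSet t), ← hpm]; exact hb.hsm
  have htQ : t ∈ fixO (fixSet t) := mem_fixO.2 ⟨ht, fun p hp => mem_fixSet.1 hp⟩
  have h6 := (fixO_conj (permOf_mem_M24 hb.hg) t).1 htQ
  rw [hsm] at h6
  obtain ⟨u, hu, hu'⟩ := mem_base_iff.1 h6
  have hut : u ∈ U7.tail := by
    rw [U7_cons] at hu
    rcases List.mem_cons.1 hu with h | h
    · exfalso
      rw [h, permOf_idT] at hu'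
      have : t = 1 := by
        have e : t = (permOf (dec p.2.1))⁻¹ * (permOf (dec p.2.1) * t * (permOf (dec p.2.1))⁻¹) *
          permOf (dec p.2.1) := by group
        rw [e, hu']; simp
      rw [this] at h2; simp at h2
    · exact h
  rw [mem_LT24]
  refine ⟨p, hp, u, hut, ?_⟩
  obtain ⟨h7, h8⟩ := phi_facts hp hut
  rw [← tblOf_permOf h7, h8, ← hu']
  congr 1
  group

/-! ### the certificate -/

noncomputable instance instFin24 : Fintype ↥M24 := Fintype.ofFinite _

/-- the indicator of the involutions with fixed points. -/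
noncomputable def fI (h : ↥M24) : ℂ :=
  if orderOf h = 2 ∧ (fixSet (h : Equiv.Perm GolayPt)).card ≠ 0 then 1 else 0

/-- the class function of the certificate. -/
noncomputable def cI (g : ↥M24) : ℂ :=
  (gam2 (fixSet (g : Equiv.Perm GolayPt)).card (fixSet ((g : Equiv.Perm GolayPt) * g)).card : ℂ)

theorem fI_class : IsClassFunction ↥M24 fI := by
  intro g h
  unfold fI
  have h1 : orderOf (h * g * h⁻¹) = orderOf g := by
    have := orderOf_injective (MulAut.conj h).toMonoidHom (MulAut.conj h).injective g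
    simpa using this
  have h2 : ((h * g * h⁻¹ : ↥M24) : Equiv.Perm GolayPt) =
      (h : Equiv.Perm GolayPt) * g * (h : Equiv.Perm GolayPt)⁻¹ := rfl
  rw [h1, h2, card_fixSet_conj]

theorem cI_class : IsClassFunction ↥M24 cI := by
  intro g h
  unfold cI
  have h2 : ((h * g * h⁻¹ : ↥M24) : Equiv.Perm GolayPt) =
      (h : Equiv.Perm GolayPt) * g * (h : Equiv.Perm GolayPt)⁻¹ := rfl
  have h3 : (h : Equiv.Perm GolayPt) * g * (h : Equiv.Perm GolayPt)⁻¹ *
      ((h : Equiv.Perm GolayPt) * g * (h : Equiv.Perm GolayPt)⁻¹) =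
      (h : Equiv.Perm GolayPt) * ((g : Equiv.Perm GolayPt) * g) * (h : Equiv.Perm GolayPt)⁻¹ := by group
  rw [h2, h3, card_fixSet_conj, card_fixSet_conj]

theorem sq_eq (n Xc : ℕ) (xs : List ℕ) (hX : ∀ k < 32, xs.getD k 0 = look Xc k)
    (hxs : ∀ j ∈ xs, j < 24) :
    comp (comp xs (dec n)) xs = xs.map fun j => look Xc (look n j) := by
  unfold comp
  apply List.map_congr_left
  intro j hj
  have hj' := hxs j hj
  rw [dec_eq, List.map_map, List.getD_eq_getElem _ _ (by simpa using hj')]
  simp only [List.getElem_map, List.getElem_range, Function.comp]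
  apply hX
  unfold look
  exact Nat.lt_succ_of_le Nat.and_le_right

theorem sum_flatMap' (P : List (ℕ × ℕ × ℕ × List ℕ)) (f : ℕ → ℤ) :
    ((P.flatMap (·.2.2.2)).map f).sum = sumOver P f := by
  unfold sumOver
  induction P with
  | nil => rfl
  | cons p P ih => simp [List.flatMap_cons, List.map_append, List.sum_append, ih]

theorem conv_eq (X : ↥M24) (Xc : ℕ)
    (hX : ∀ k < 32, (tblOf (X : Equiv.Perm GolayPt)).getD k 0 = look Xc k) :
    Cfsg.Agent.BlockLib.conv fI cI X = (sumOver P759 (F (tblOf (X : Equiv.Perm GolayPt)) Xc) : ℂ) := by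
  rw [Cfsg.Agent.BlockLib.conv_apply]
  have h1 : ∀ h : ↥M24, fI h * cI (h⁻¹ * X) =
      if orderOf h = 2 ∧ (fixSet (h : Equiv.Perm GolayPt)).card ≠ 0 then cI (h⁻¹ * X) else 0 := by
    intro h; unfold fI; split_ifs <;> simp
  simp only [h1]
  rw [← Finset.sum_filter, ← sum_flatMap']
  have hxs : ∀ j ∈ tblOf (X : Equiv.Perm GolayPt), j < 24 := (isTbl_iff.1 (isTbl_tblOf _)).2.1
  have e1 : (P759.flatMap (·.2.2.2)).map (F (tblOf (X : Equiv.Perm GolayPt)) Xc) =
      LT24.map fun tb => gam2 (agree tb (tblOf (X : Equiv.Perm GolayPt)))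
        (agree tb (comp (comp (tblOf (X : Equiv.Perm GolayPt)) tb) (tblOf (X : Equiv.Perm GolayPt)))) := by
    unfold LT24
    rw [List.map_map]
    apply List.map_congr_left
    intro n _
    simp only [Function.comp, F]
    rw [sq_eq n Xc _ hX hxs]
  rw [e1, ← List.sum_toFinset _ LT24_nodup, Int.cast_sum]
  apply Finset.sum_bij (fun (h : ↥M24) _ => tblOf (h : Equiv.Perm GolayPt))
  · intro h hh
    rw [Finset.mem_filter] at hh
    rw [List.mem_toFinset]
    exact inv_mem24 h.2 (by rw [Subgroup.orderOf_coe]; exact hh.2.1) hh.2.2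
  · intro a _ b _ e
    exact Subtype.ext (tblOf_injective e)
  · intro tb htb
    rw [List.mem_toFinset, mem_LT24] at htb
    obtain ⟨p, hp, u, hu, rfl⟩ := htb
    obtain ⟨g1, g2, g3⟩ := phi_good hp hu
    refine ⟨⟨permOf (phi p u), g1⟩, ?_, tblOf_permOf (phi_facts hp hu).1⟩
    rw [Finset.mem_filter]
    refine ⟨Finset.mem_univ _, ?_, ?_⟩
    · rw [← Subgroup.orderOf_coe]; exact g2
    · change (fixSet (permOf (phi p u))).card ≠ 0
      have ho : fixSet (permOf (phi p u)) ∈ octads := by
        rcases invol_cases g1 g2 with ⟨k, hk, -, ho⟩ | ⟨k, hk, -, he⟩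
        · exact ho
        · exfalso
          rw [g3] at he
          have h5 := (blkFacts hp).hsm
          rw [he] at h5
          have h6 := congrArg Finset.card h5
          rw [card_smul, card_un] at h6
          have : popc O5 = 8 := by decide +kernel
          rw [this] at h6
          simp at h6
      rw [mem_octads_iff, ← card_eq_popc] at ho
      omega
  · intro h hh
    rw [Finset.mem_filter] at hh
    have h2 : orderOf (h : Equiv.Perm GolayPt) = 2 := by rw [Subgroup.orderOf_coe]; exact hh.2.1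
    have hsq : (h : Equiv.Perm GolayPt) * h = 1 := by rw [← sq, ← h2, pow_orderOf_eq_one]
    have hinv : (h : Equiv.Perm GolayPt)⁻¹ = h := inv_eq_of_mul_eq_one_left hsq
    unfold cI
    have e2 : ((h⁻¹ * X : ↥M24) : Equiv.Perm GolayPt) = (h : Equiv.Perm GolayPt) * X := by
      rw [Subgroup.coe_mul, Subgroup.coe_inv, hinv]
    have e3 : (h : Equiv.Perm GolayPt) * X * ((h : Equiv.Perm GolayPt) * X) =
        (h : Equiv.Perm GolayPt) * ((X : Equiv.Perm GolayPt) * h * X) := by group
    rw [e2, e3, card_fixSet_mul hsq, card_fixSet_mul hsq, tblOf_mul, tblOf_mul]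

/-! ### elements of odd order -/

theorem fix_of_sq {x : Equiv.Perm GolayPt} (hx : ¬ 2 ∣ orderOf x) {a : GolayPt} (h : x (x a) = a) :
    x a = a := by
  have hodd : orderOf x % 2 = 1 := by omega
  have h2 : ∀ n : ℕ, (x ^ (2 * n)) a = a := by
    intro n
    induction n with
    | zero => simp
    | succ n ih =>
      rw [show 2 * (n + 1) = 2 * n + 2 by ring, pow_add, Equiv.Perm.mul_apply, pow_two,
        Equiv.Perm.mul_apply, h, ih]
  have h3 : x ^ (2 * (orderOf x / 2 + 1)) = x := by
    have : 2 * (orderOf x / 2 + 1) = orderOf x + 1 := by omega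
    rw [this, pow_succ, pow_orderOf_eq_one, one_mul]
  have := h2 (orderOf x / 2 + 1)
  rwa [h3] at this

theorem PO_of_odd {x : Equiv.Perm GolayPt} (hx : ¬ 2 ∣ orderOf x) : PO (tblOf x) = true := by
  unfold PO
  rw [beq_iff_eq, ← tblOf_mul, ← card_fixSet, ← card_fixSet]
  congr 1
  ext p
  rw [mem_fixSet, mem_fixSet, Equiv.Perm.mul_apply]
  exact ⟨fun h => by rw [h, h], fun h => fix_of_sq hx h⟩

theorem odd_pow {x : Equiv.Perm GolayPt} (hx : ¬ 2 ∣ orderOf x) (k : ℕ) : ¬ 2 ∣ orderOf (x ^ k) :=
  fun h => hx (h.trans (orderOf_pow_dvd k))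

theorem repsA_tbl : ∀ r ∈ repsA, inM24 r = true := by decide +kernel

theorem repsE_even : ∀ r ∈ repsE, (PO (SchurTbl.powT r 3) && PO (SchurTbl.powT r 6)) = false := by
  decide +kernel

theorem not_tbl_zero : isTbl (List.replicate 24 0) = false := by decide +kernel

theorem class_of_agree {t : List ℕ} {certs : List (List ℕ)} (ht : inM24 t = true)
    (hl : list960.length = certs.length)
    (hc : (list960.zip certs).all (fun p => Q24 repsA (comp t p.1) p.2) = true)
    {x : Equiv.Perm GolayPt} (hx : x ∈ M24) (hodd : ¬ 2 ∣ orderOf x)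
    (hag : ∀ i ∈ [23, 0, 1, 2], x (ptOf i) = permOf t (ptOf i)) :
    ∃ κ ∈ M24, ∃ r ∈ repsO, κ * x * κ⁻¹ = permOf r := by
  obtain ⟨c, hcert⟩ := check960c (Q := Q24 repsA) ht hl hc hx hag
  simp only [Q24, PO_of_odd hodd, Bool.not_true, Bool.false_or] at hcert
  match c, hcert with
  | [], h => simp at h
  | j :: k, h =>
    simp only [Bool.and_eq_true, beq_iff_eq] at h
    obtain ⟨hk, e⟩ := h
    have hkT := isTbl_of_inM24 hk
    by_cases hj : j < repsA.length
    · have hr : repsA.getD j [] ∈ repsA := by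
        rw [List.getD_eq_getElem _ _ hj]; exact List.getElem_mem _
      have hrT := isTbl_of_inM24 (repsA_tbl _ hr)
      have e2 : permOf k * x = permOf (repsA.getD j []) * permOf k := by
        apply tblOf_injective
        rw [tblOf_mul, tblOf_mul, tblOf_permOf hkT, tblOf_permOf hrT, e]
      have e3 : permOf k * x * (permOf k)⁻¹ = permOf (repsA.getD j []) := by rw [e2]; simp
      rcases List.mem_append.1 hr with h1 | h1
      · exact ⟨permOf k, permOf_mem_M24 hk, _, h1, e3⟩
      · exfalso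
        have ho : ¬ 2 ∣ orderOf (permOf (repsA.getD j [])) := by rw [← e3, orderOf_conj']; exact hodd
        have h3 := PO_of_odd (odd_pow ho 3)
        have h6 := PO_of_odd (odd_pow ho 6)
        rw [SchurTbl.tblOf_pow, tblOf_permOf hrT] at h3 h6
        have := repsE_even _ h1
        rw [h3, h6] at this
        simp at this
    · exfalso
      rw [List.getD_eq_default _ _ (by omega)] at e
      have h1 := (permOf_comp hkT (isTbl_tblOf x)).1
      rw [e] at h1
      have h2 : comp [] k = List.replicate 24 0 := by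
        unfold comp
        have : k.length = 24 := (isTbl_iff.1 hkT).1
        rw [← this]
        simp
      rw [h2, not_tbl_zero] at h1
      simp at h1

theorem lift_conj {k x κ : Equiv.Perm GolayPt} {r : List ℕ} (e : κ * (k * x * k⁻¹) * κ⁻¹ = permOf r) :
    (κ * k) * x * (κ * k)⁻¹ = permOf r := by
  rw [← e]; group

theorem odd_class {x : Equiv.Perm GolayPt} (hx : x ∈ M24) (hodd : ¬ 2 ∣ orderOf x) (hx1 : x ≠ 1) :
    ∃ κ ∈ M24, ∃ r ∈ repsO, κ * x * κ⁻¹ = permOf r := by
  obtain ⟨a, ha⟩ : ∃ a, x a ≠ a := by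
    by_contra hcon
    push Not at hcon
    exact hx1 (Equiv.ext hcon)
  have hca : x (x a) ≠ a := fun h => ha (fix_of_sq hodd h)
  have hcb : x (x a) ≠ x a := fun h => ha (x.injective h)
  have hdb : x (x (x a)) ≠ x a := fun h => hca (x.injective h)
  have hdc : x (x (x a)) ≠ x (x a) := fun h => hcb (x.injective h)
  have hoddc : ∀ k : Equiv.Perm GolayPt, ¬ 2 ∣ orderOf (k * x * k⁻¹) := fun k => by
    rw [orderOf_conj']; exact hodd
  by_cases hda : x (x (x a)) = a
  · -- a 3-cycle
    obtain ⟨e, he⟩ : ∃ e, e ∉ ({a, x a, x (x a)} : Finset GolayPt) := by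
      by_contra hcon
      push Not at hcon
      have h1 : (Finset.univ : Finset GolayPt) ⊆ {a, x a, x (x a)} := fun p _ => hcon p
      have h2 := Finset.card_le_card h1
      have h3 : ({a, x a, x (x a)} : Finset GolayPt).card ≤ 3 := Finset.card_le_three
      have h4 : (Finset.univ : Finset GolayPt).card = 24 := by decide
      omega
    simp only [Finset.mem_insert, Finset.mem_singleton, not_or] at he
    obtain ⟨ea, eb, ec⟩ := he
    by_cases hfe : x e = e
    · obtain ⟨k, hk, hmap⟩ := exists_M24_map_base [a, x a, x (x a), e] (by simp)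
        (by simp [Ne.symm ha, Ne.symm hca, Ne.symm hcb, Ne.symm ea, Ne.symm eb, Ne.symm ec])
      simp only [List.map_cons, List.map_nil, List.length_cons, List.length_nil, List.take_succ_cons,
        List.take_zero, List.cons.injEq, and_true, zero_add, Nat.reduceAdd] at hmap
      obtain ⟨e1, e2, e3, e4⟩ := hmap
      obtain ⟨κ, hκ, r, hr, e⟩ := class_of_agree nft1 nfl1 nf1 (conj_mem hk hx) (hoddc k) (by
        intro i hi
        simp only [List.mem_cons, List.not_mem_nil, or_false] at hi
        rcases hi with rfl | rfl | rfl | rfl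
        · rw [permOf_ptOf nft1 (by decide)]
          conv_lhs => rw [← e1, conj_apply, e2]
          rfl
        · rw [permOf_ptOf nft1 (by decide)]
          conv_lhs => rw [← e2, conj_apply, e3]
          rfl
        · rw [permOf_ptOf nft1 (by decide)]
          conv_lhs => rw [← e3, conj_apply, hda, e1]
          rfl
        · rw [permOf_ptOf nft1 (by decide)]
          conv_lhs => rw [← e4, conj_apply, hfe, e4]
          rfl)
      exact ⟨κ * k, M24.mul_mem hκ hk, r, hr, lift_conj e⟩
    · have fa : x e ≠ a := fun h => ec (x.injective (by rw [h, hda]))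
      have fb : x e ≠ x a := fun h => ea (x.injective h)
      have fc : x e ≠ x (x a) := fun h => eb (x.injective h)
      obtain ⟨k, hk, hmap⟩ := exists_M24_map_base [a, x a, x (x a), e, x e] (by simp)
        (by simp [Ne.symm ha, Ne.symm hca, Ne.symm hcb, Ne.symm ea, Ne.symm eb, Ne.symm ec,
          Ne.symm fa, Ne.symm fb, Ne.symm fc, Ne.symm hfe])
      simp only [List.map_cons, List.map_nil, List.length_cons, List.length_nil, List.take_succ_cons,
        List.take_zero, List.cons.injEq, and_true, zero_add, Nat.reduceAdd] at hmap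
      obtain ⟨e1, e2, e3, e4, e5⟩ := hmap
      obtain ⟨κ, hκ, r, hr, e⟩ := class_of_agree nft2 nfl2 nf2 (conj_mem hk hx) (hoddc k) (by
        intro i hi
        simp only [List.mem_cons, List.not_mem_nil, or_false] at hi
        rcases hi with rfl | rfl | rfl | rfl
        · rw [permOf_ptOf nft2 (by decide)]
          conv_lhs => rw [← e1, conj_apply, e2]
          rfl
        · rw [permOf_ptOf nft2 (by decide)]
          conv_lhs => rw [← e2, conj_apply, e3]
          rfl
        · rw [permOf_ptOf nft2 (by decide)]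
          conv_lhs => rw [← e3, conj_apply, hda, e1]
          rfl
        · rw [permOf_ptOf nft2 (by decide)]
          conv_lhs => rw [← e4, conj_apply, e5]
          rfl)
      exact ⟨κ * k, M24.mul_mem hκ hk, r, hr, lift_conj e⟩
  · -- a cycle of length at least five
    have hea : x (x (x (x a))) ≠ a := by
      intro h
      have ho2 : ¬ 2 ∣ orderOf (x * x) := by rw [← sq]; exact odd_pow hodd 2
      have := fix_of_sq (x := x * x) ho2 (a := a) (by simpa using h)
      exact hca (by simpa using this)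
    have heb : x (x (x (x a))) ≠ x a := fun h => hda (x.injective h)
    have hec : x (x (x (x a))) ≠ x (x a) := fun h => hdb (x.injective h)
    have hed : x (x (x (x a))) ≠ x (x (x a)) := fun h => hdc (x.injective h)
    obtain ⟨k, hk, hmap⟩ := exists_M24_map_base [a, x a, x (x a), x (x (x a)), x (x (x (x a)))] (by simp)
      (by simp [Ne.symm ha, Ne.symm hca, Ne.symm hcb, Ne.symm hda, Ne.symm hdb, Ne.symm hdc,
        Ne.symm hea, Ne.symm heb, Ne.symm hec, Ne.symm hed])
    simp only [List.map_cons, List.map_nil, List.length_cons, List.length_nil, List.take_succ_cons,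
      List.take_zero, List.cons.injEq, and_true, zero_add, Nat.reduceAdd] at hmap
    obtain ⟨e1, e2, e3, e4, e5⟩ := hmap
    obtain ⟨κ, hκ, r, hr, e⟩ := class_of_agree nft0 nfl0 nf0 (conj_mem hk hx) (hoddc k) (by
      intro i hi
      simp only [List.mem_cons, List.not_mem_nil, or_false] at hi
      rcases hi with rfl | rfl | rfl | rfl
      · rw [permOf_ptOf nft0 (by decide)]
        conv_lhs => rw [← e1, conj_apply, e2]
        rfl
      · rw [permOf_ptOf nft0 (by decide)]
        conv_lhs => rw [← e2, conj_apply, e3]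
        rfl
      · rw [permOf_ptOf nft0 (by decide)]
        conv_lhs => rw [← e3, conj_apply, e4]
        rfl
      · rw [permOf_ptOf nft0 (by decide)]
        conv_lhs => rw [← e4, conj_apply, e5]
        rfl)
    exact ⟨κ * k, M24.mul_mem hκ hk, r, hr, lift_conj e⟩

end Cfsg.Agent.Lib.Helper3.BlkM24
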