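import Cfsg.Agent.Lib.Helper3.BlkM24p
import Cfsg.Agent.Lib.Helper3.BlkM24q

/-!
# The 2-blocks of `M24`: the local subgroups
-/

set_option autoImplicit false
set_option maxRecDepth 1000000
open scoped Pointwise
open Cfsg

namespace Cfsg.Agent.Lib.Helper3.BlkM24

open MulAction Cfsg.Agent.Lib.Helper28 Cfsg.Agent.Lib.Helper3.M24T Cfsg.Agent.Lib.Helper3.M24Gen
  Cfsg.Agent.Lib.Helper3.OctStab Cfsg.Agent.Lib.Helper3.FusGrp Cfsg.Agent.Lib.Helper3.BlkOct
  Cfsg.Agent.Lib.Helper3.BlkAgree Cfsg.Agent.Lib.Helper3.BlkM22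

/-- the local condition. -/
def Loc (t : Equiv.Perm GolayPt) : Prop :=
  ∃ Q : Subgroup (Equiv.Perm GolayPt), Q ≤ M24 ∧ IsPGroup 2 Q ∧ (∀ q ∈ Q, q * t = t * q) ∧
    (∀ h ∈ M24, h * t = t * h → ∀ q ∈ Q, h * q * h⁻¹ ∈ Q) ∧
    (∀ h ∈ M24, h * t = t * h → (∀ q ∈ Q, h * q = q * h) → h ∈ Q)

theorem Loc_conj {t k : Equiv.Perm GolayPt} (hk : k ∈ M24) (h : Loc (k * t * k⁻¹)) : Loc t := by
  obtain ⟨Q, h1, h2, h3, h4, h5⟩ := h
  have hmem : ∀ q, q ∈ Q.comap (MulAut.conj k).toMonoidHom ↔ k * q * k⁻¹ ∈ Q := by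
    intro q
    rw [Subgroup.mem_comap]
    rfl
  have hcm : ∀ a : Equiv.Perm GolayPt, a * t = t * a →
      (k * a * k⁻¹) * (k * t * k⁻¹) = (k * t * k⁻¹) * (k * a * k⁻¹) := by
    intro a ha
    calc (k * a * k⁻¹) * (k * t * k⁻¹) = k * (a * t) * k⁻¹ := by group
      _ = k * (t * a) * k⁻¹ := by rw [ha]
      _ = _ := by group
  refine ⟨Q.comap (MulAut.conj k).toMonoidHom, ?_, ?_, ?_, ?_, ?_⟩
  · intro q hq
    rw [hmem] at hq
    have := conj_mem (M24.inv_mem hk) (h1 hq)
    have e : k⁻¹ * (k * q * k⁻¹) * k⁻¹⁻¹ = q := by group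
    rwa [e] at this
  · exact h2.comap_of_injective _ (MulAut.conj k).injective
  · intro q hq
    rw [hmem] at hq
    have := h3 _ hq
    have e : k * (q * t) * k⁻¹ = k * (t * q) * k⁻¹ := by
      calc k * (q * t) * k⁻¹ = (k * q * k⁻¹) * (k * t * k⁻¹) := by group
        _ = (k * t * k⁻¹) * (k * q * k⁻¹) := this
        _ = _ := by group
    exact mul_left_cancel (mul_right_cancel e)
  · intro h hh hc q hq
    rw [hmem] at hq ⊢
    have := h4 _ (conj_mem hk hh) (hcm h hc) _ hq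
    have e : k * h * k⁻¹ * (k * q * k⁻¹) * (k * h * k⁻¹)⁻¹ = k * (h * q * h⁻¹) * k⁻¹ := by group
    rwa [e] at this
  · intro h hh hc hq
    rw [hmem]
    apply h5 _ (conj_mem hk hh) (hcm h hc)
    intro q hq'
    have hq2 : k⁻¹ * q * k ∈ Q.comap (MulAut.conj k).toMonoidHom := by
      rw [hmem]
      have e : k * (k⁻¹ * q * k) * k⁻¹ = q := by group
      rwa [e]
    have := hq _ hq2
    calc k * h * k⁻¹ * q = k * (h * (k⁻¹ * q * k)) * k⁻¹ := by group
      _ = k * ((k⁻¹ * q * k) * h) * k⁻¹ := by rw [this]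
      _ = _ := by group

theorem Loc_octad {t : Equiv.Perm GolayPt} (ht : t ∈ M24) (ho : fixSet t ∈ octads) : Loc t := by
  obtain ⟨hp, hc, hn, hs⟩ := local_octad ht ho
  exact ⟨fixO (fixSet t), fun q hq => (mem_fixO.1 hq).1, hp, hc, hn, fun h hh _ hq => hs h hh hq⟩

/-! ### the fixed point free involutions -/

theorem closure_commute {G : Type*} [Group G] {k : Set G} (hk : ∀ x ∈ k, ∀ y ∈ k, Commute x y) :
    ∀ a ∈ Subgroup.closure k, ∀ b ∈ Subgroup.closure k, Commute a b := by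
  have h1 : ∀ x ∈ k, ∀ b ∈ Subgroup.closure k, Commute x b := by
    intro x hx b hb
    induction hb using Subgroup.closure_induction with
    | mem y hy => exact hk x hx y hy
    | one => exact Commute.one_right x
    | mul a b _ _ ha hb => exact ha.mul_right hb
    | inv a _ ha => exact ha.inv_right
  intro a ha b hb
  induction ha using Subgroup.closure_induction with
  | mem y hy => exact h1 y hy b hb
  | one => exact Commute.one_left b
  | mul a c _ _ ha hc => exact ha.mul_left hc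
  | inv a _ ha => exact ha.inv_left

/-- the involutions with fixed points commuting with `t` whose product with `t` has fixed points. -/
def XS (t : Equiv.Perm GolayPt) : Set (Equiv.Perm GolayPt) :=
  {s | s ∈ M24 ∧ orderOf s = 2 ∧ (fixSet s).card ≠ 0 ∧ s * t = t * s ∧ (fixSet (s * t)).card ≠ 0}

theorem XS_conj {t h s : Equiv.Perm GolayPt} (hh : h ∈ M24) (hc : h * t = t * h) (hs : s ∈ XS t) :
    h * s * h⁻¹ ∈ XS t := by
  obtain ⟨h1, h2, h3, h4, h5⟩ := hs
  have hc' : h⁻¹ * t = t * h⁻¹ := by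
    have : h⁻¹ * (h * t) * h⁻¹ = h⁻¹ * (t * h) * h⁻¹ := by rw [hc]
    simpa [mul_assoc] using this.symm
  have e : h * s * h⁻¹ * t = h * (s * t) * h⁻¹ := by
    rw [mul_assoc (h * s), hc']; group
  refine ⟨conj_mem hh h1, by rw [orderOf_conj', h2], by rw [card_fixSet_conj]; exact h3, ?_, ?_⟩
  · rw [e, h4, ← mul_assoc, hc, mul_assoc, mul_assoc, mul_assoc]
  · rw [e, card_fixSet_conj]; exact h5

/-- the group generated by the six involutions. -/
def Q2B : Subgroup (Equiv.Perm GolayPt) := Subgroup.closure {s | ∃ x ∈ gQ, s = permOf x}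

theorem gQ_XS {x : List ℕ} (hx : x ∈ gQ) : permOf x ∈ XS (permOf r2B) := by
  obtain ⟨h1, h2, h3, h4, h5⟩ := q3 x hx
  have hT := isTbl_of_inM24 h1
  have hR := isTbl_of_inM24 inM24_r2B
  have e := (permOf_comp hT hR).2
  refine ⟨permOf_mem_M24 h1, orderOf_permOf_two h1 h2, ?_, ?_, ?_⟩
  · rw [card_fixSet, tblOf_permOf hT]; exact h3
  · rw [← e, h4, (permOf_comp hR hT).2]
  · rw [← e, card_fixSet, tblOf_permOf (permOf_comp hT hR).1]; exact h5

theorem Q2B_comm : ∀ a ∈ Q2B, ∀ b ∈ Q2B, Commute a b := by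
  apply closure_commute
  rintro _ ⟨x, hx, rfl⟩ _ ⟨y, hy, rfl⟩
  have hx' := isTbl_of_inM24 (q3 x hx).1
  have hy' := isTbl_of_inM24 (q3 y hy).1
  show permOf x * permOf y = permOf y * permOf x
  rw [← (permOf_comp hx' hy').2, q4 x hx y hy, (permOf_comp hy' hx').2]

theorem Q2B_sq : ∀ a ∈ Q2B, a * a = 1 := by
  intro a ha
  induction ha using Subgroup.closure_induction with
  | mem y hy =>
    obtain ⟨x, hx, rfl⟩ := hy
    have := (gQ_XS hx).2.1
    rw [← sq, ← this, pow_orderOf_eq_one]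
  | one => simp
  | mul a b ha' hb' ha hb =>
    have := (Q2B_comm a ha' b hb').eq
    calc a * b * (a * b) = a * (b * a) * b := by group
      _ = a * (a * b) * b := by rw [this]
      _ = (a * a) * (b * b) := by group
      _ = 1 := by rw [ha, hb, one_mul]
  | inv a _ ha =>
    rw [← mul_inv_rev, ha, inv_one]

theorem goodQL : ∀ q ∈ QL, FusEnum.Good Q2B q := by
  rw [← q1]
  apply FusEnum.good_prods
  intro a ha u hu
  rcases q6 a ha u hu with rfl | h
  · exact FusEnum.good_idT _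
  · exact ⟨isTbl_of_inM24 (q3 u h).1, Subgroup.subset_closure ⟨u, h, rfl⟩⟩

theorem chk_all {n : ℕ} (hn : n ∈ P759.flatMap (·.2.2.2)) : chkX n = true := by
  obtain ⟨p, hp, hn⟩ := List.mem_flatMap.1 hn
  simp only [P759, List.mem_append] at hp
  rcases hp with ((hp | hp) | hp) | hp
  · exact List.all_eq_true.1 (List.all_eq_true.1 qx0 p hp) n hn
  · exact List.all_eq_true.1 (List.all_eq_true.1 qx1 p hp) n hn
  · exact List.all_eq_true.1 (List.all_eq_true.1 qx2 p hp) n hn
  · exact List.all_eq_true.1 (List.all_eq_true.1 qx3 p hp) n hn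

theorem idxs_eq : idxs = List.range 24 := by decide

theorem XS_sub {s : Equiv.Perm GolayPt} (hs : s ∈ XS (permOf r2B)) : s ∈ Q2B := by
  obtain ⟨hM, h2, hf, hc, hf2⟩ := hs
  have h1 := inv_mem24 hM h2 hf
  unfold LT24 at h1
  obtain ⟨n, hn, e⟩ := List.mem_map.1 h1
  have hchk := chk_all hn
  have hl : ∀ i < 24, look n i = idx (s (ptOf i)) := by
    intro i hi
    rw [← getD_dec n hi, e, getD_tblOf _ hi]
  have hlt : ∀ i < 24, look tc i = idx (permOf r2B (ptOf i)) := by
    intro i hi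
    rw [← getD_dec tc hi, q5, ← getD_tblOf _ hi, tblOf_permOf (isTbl_of_inM24 inM24_r2B)]
  have hst : ∀ i < 24, look n (look tc i) = idx ((s * permOf r2B) (ptOf i)) := by
    intro i hi
    rw [hlt i hi, hl _ (idx_lt _), ptOf_idx]
    rfl
  have hts : ∀ i < 24, look tc (look n i) = idx ((permOf r2B * s) (ptOf i)) := by
    intro i hi
    rw [hl i hi, hlt _ (idx_lt _), ptOf_idx]
    rfl
  have hcomm : commC n tc = true := by
    unfold commC
    rw [List.all_eq_true]
    intro i hi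
    rw [idxs_eq, List.mem_range] at hi
    rw [hst i hi, hts i hi, hc]
    exact Nat.beq_refl _
  have hfix : fixC n tc = true := by
    unfold fixC
    rw [List.any_eq_true]
    obtain ⟨p, hp⟩ := Finset.card_pos.1 (Nat.pos_of_ne_zero hf2)
    refine ⟨idx p, by rw [idxs_eq, List.mem_range]; exact idx_lt p, ?_⟩
    rw [hst _ (idx_lt p), ptOf_idx, mem_fixSet.1 hp]
    exact Nat.beq_refl _
  have hmem : n ∈ QLc := by
    simpa [chkX, hcomm, hfix] using hchk
  have h3 : tblOf s ∈ QL := by rw [← e, ← q2]; exact List.mem_map_of_mem hmem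
  have := (goodQL _ h3).2
  rwa [permOf_tblOf] at this

theorem Q2B_eq : Q2B = Subgroup.closure (XS (permOf r2B)) := by
  apply le_antisymm
  · unfold Q2B
    rw [Subgroup.closure_le]
    rintro _ ⟨x, hx, rfl⟩
    exact Subgroup.subset_closure (gQ_XS hx)
  · rw [Subgroup.closure_le]
    intro s hs
    exact XS_sub hs

theorem Q2B_le : Q2B ≤ M24 := by
  unfold Q2B
  rw [Subgroup.closure_le]
  rintro _ ⟨x, hx, rfl⟩
  exact (gQ_XS hx).1

theorem Q2B_t : ∀ q ∈ Q2B, Commute q (permOf r2B) := by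
  intro q hq
  induction hq using Subgroup.closure_induction with
  | mem y hy =>
    obtain ⟨x, hx, rfl⟩ := hy
    exact (gQ_XS hx).2.2.2.1
  | one => exact Commute.one_left _
  | mul a b _ _ ha hb => exact ha.mul_left hb
  | inv a _ ha => exact ha.inv_left

theorem Q2B_norm {h : Equiv.Perm GolayPt} (hh : h ∈ M24) (hc : h * permOf r2B = permOf r2B * h) :
    ∀ q ∈ Q2B, h * q * h⁻¹ ∈ Q2B := by
  rw [Q2B_eq]
  intro q hq
  induction hq using Subgroup.closure_induction with
  | mem y hy => exact Subgroup.subset_closure (XS_conj hh hc hy)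
  | one => simp
  | mul a b _ _ ha hb =>
    have e : h * (a * b) * h⁻¹ = (h * a * h⁻¹) * (h * b * h⁻¹) := by group
    rw [e]; exact Subgroup.mul_mem _ ha hb
  | inv a _ ha =>
    have e : h * a⁻¹ * h⁻¹ = (h * a * h⁻¹)⁻¹ := by group
    rw [e]; exact Subgroup.inv_mem _ ha

/-- an element centralising the group maps a point into its orbit. -/
theorem orbit_of_cent {h : Equiv.Perm GolayPt} (hc : ∀ q ∈ Q2B, h * q = q * h) {β : ℕ} (hβ : β < 24)
    {T : List ℕ} (hT : ∀ y < 24, y ∈ T ∨ ∃ q ∈ QL, q.getD β 0 = β ∧ q.getD y 0 ≠ y) :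
    idx (h (ptOf β)) ∈ T := by
  rcases hT _ (idx_lt (h (ptOf β))) with h1 | ⟨q, hq, h2, h3⟩
  · exact h1
  · exfalso
    apply h3
    obtain ⟨g1, g2⟩ := goodQL q hq
    have e1 : permOf q (ptOf β) = ptOf β := by rw [permOf_apply g1, idx_ptOf hβ, h2]
    have e2 : permOf q (h (ptOf β)) = h (ptOf β) := by
      have := congrArg (fun f : Equiv.Perm GolayPt => f (ptOf β)) (hc _ g2)
      simp only [Equiv.Perm.mul_apply, e1] at this
      exact this.symm
    rw [permOf_apply g1] at e2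
    have := congrArg idx e2
    rwa [idx_ptOf ((isTbl_iff.1 g1).2.1 _ (by
      rw [List.getD_eq_getElem _ _ (by rw [(isTbl_iff.1 g1).1]; exact idx_lt _)]
      exact List.getElem_mem _))] at this

theorem Q2B_cent {h : Equiv.Perm GolayPt} (hh : h ∈ M24) (hc : ∀ q ∈ Q2B, h * q = q * h) :
    h ∈ Q2B := by
  have a1 := orbit_of_cent hc (by decide) q7a
  have a2 := orbit_of_cent hc (by decide) q7b
  have a3 := orbit_of_cent hc (by decide) q7c
  obtain ⟨u, hu, u1, u2, u3⟩ := q8 _ a1 _ a2 _ a3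
  obtain ⟨g1, g2⟩ := goodQL u hu
  have hu' : ∀ β < 24, u.getD β 0 = idx (h (ptOf β)) → permOf u (ptOf β) = h (ptOf β) := by
    intro β hβ e
    rw [permOf_apply g1, idx_ptOf hβ, e, ptOf_idx]
  have key : ∀ β < 24, permOf u (ptOf β) = h (ptOf β) → ∀ v ∈ QL,
      ((permOf u)⁻¹ * h) (ptOf (v.getD β 0)) = ptOf (v.getD β 0) := by
    intro β hβ e v hv
    obtain ⟨k1, k2⟩ := goodQL v hv
    have e0 : ptOf (v.getD β 0) = permOf v (ptOf β) := by rw [permOf_apply k1, idx_ptOf hβ]
    rw [e0, Equiv.Perm.mul_apply, Equiv.Perm.inv_eq_iff_eq]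
    have e1 : h (permOf v (ptOf β)) = permOf v (h (ptOf β)) := by
      have := congrArg (fun f : Equiv.Perm GolayPt => f (ptOf β)) (hc _ k2)
      simpa using this
    have e2 : permOf u (permOf v (ptOf β)) = permOf v (permOf u (ptOf β)) := by
      have := congrArg (fun f : Equiv.Perm GolayPt => f (ptOf β)) (Q2B_comm _ g2 _ k2).eq
      simpa using this
    rw [e1, e2, e]
  have hone : (permOf u)⁻¹ * h = 1 := by
    apply AutFix.eq_one_of_nine (M24.mul_mem (M24.inv_mem (Q2B_le g2)) hh)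
    have hsub : un 9750287 ⊆ fixSet ((permOf u)⁻¹ * h) := by
      intro p hp
      rw [mem_un] at hp
      rw [mem_fixSet]
      rcases q9 _ (idx_lt p) hp with hj | hj | hj
      · obtain ⟨v, hv, v1, -, -⟩ := q8 _ hj _ a2 _ a3
        have := key 0 (by decide) (hu' 0 (by decide) u1) v hv
        rwa [v1, ptOf_idx] at this
      · obtain ⟨v, hv, -, v1, -⟩ := q8 _ a1 _ hj _ a3
        have := key 1 (by decide) (hu' 1 (by decide) u2) v hv
        rwa [v1, ptOf_idx] at this
      · obtain ⟨v, hv, -, -, v1⟩ := q8 _ a1 _ a2 _ hj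
        have := key 3 (by decide) (hu' 3 (by decide) u3) v hv
        rwa [v1, ptOf_idx] at this
    have := Finset.card_le_card hsub
    rw [card_un, q10] at this
    omega
  have : h = permOf u := by
    have := congrArg (fun x => permOf u * x) hone
    simpa using this
  rw [this]; exact g2

theorem Loc_2B : Loc (permOf r2B) := by
  refine ⟨Q2B, Q2B_le, ?_, fun q hq => (Q2B_t q hq).eq, fun h hh hc => Q2B_norm hh hc,
    fun h hh _ hq => Q2B_cent hh hq⟩
  intro q
  refine ⟨1, ?_⟩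
  apply Subtype.ext
  have := Q2B_sq q q.2
  simpa [sq] using this

theorem Loc_all {t : Equiv.Perm GolayPt} (ht : t ∈ M24) (h2 : orderOf t = 2) : Loc t := by
  rcases invol_cases ht h2 with ⟨k, hk, -, ho⟩ | ⟨k, hk, e, -⟩
  · exact Loc_octad ht ho
  · apply Loc_conj hk
    rw [e]; exact Loc_2B

end Cfsg.Agent.Lib.Helper3.BlkM24
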