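import Cfsg.Agent.Lib.Helper3.BlkM24r
import Cfsg.Agent.Lib.Helper3.BlkM24v0
import Cfsg.Agent.Lib.Helper3.BlkM24v1
import Cfsg.Agent.Lib.Helper3.BlkM24v2
import Cfsg.Agent.Lib.Helper3.BlkM24v3
import Cfsg.Agent.Lib.Helper3.BlkM24v4
import Cfsg.Agent.Lib.Helper3.BlkM24v5
import Cfsg.Agent.Lib.Helper3.BlkM24v6
import Cfsg.Agent.Lib.Helper3.BlkM24v7
import Cfsg.Agent.Lib.Helper3.BlkM24v8
import Cfsg.Agent.Lib.Helper3.BlkM24v9
import Cfsg.Agent.Lib.Helper3.BlkM24v10
import Cfsg.Agent.Lib.Helper3.BlkM24v11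
import Cfsg.Agent.Lib.Helper3.BlkM24v12

/-!
# `M24` has one 2-block
-/

set_option autoImplicit false
set_option maxRecDepth 1000000
open scoped Pointwise
open Cfsg

namespace Cfsg.Agent.Lib.Helper3.BlkM24

open MulAction Cfsg.Agent.Lib.Helper28 Cfsg.Agent.Lib.Helper3.M24T Cfsg.Agent.Lib.Helper3.M24Gen
  Cfsg.Agent.Lib.Helper3.OctStab Cfsg.Agent.Lib.Helper3.FusGrp Cfsg.Agent.Lib.Helper3.BlkOct
  Cfsg.Agent.Lib.Helper3.BlkAgree Cfsg.Agent.Lib.Helper3.BlkM22

theorem sumOver_split (f : ℕ → ℤ) :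
    sumOver P759 f = sumOver PC0 f + sumOver PC1 f + sumOver PC2 f + sumOver PC3 f := by
  simp only [sumOver, P759, List.map_append, List.sum_append]

theorem tot0 : sumOver P759 (F r0 984818244535754528103549039458486304) = 902185250602308750 := by
  have e : F r0 984818244535754528103549039458486304 = F0 := funext F0_eq
  rw [e, sumOver_split, ev0_0, ev0_1, ev0_2, ev0_3]
  norm_num

theorem tot1 : sumOver P759 (F r1 956686542228104603148775023532509552) = 0 := by
  have e : F r1 956686542228104603148775023532509552 = F1 := funext F1_eq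
  rw [e, sumOver_split, ev1_0, ev1_1, ev1_2, ev1_3]
  norm_num

theorem tot2 : sumOver P759 (F r2 416204700113339957232938738532400171) = 0 := by
  have e : F r2 416204700113339957232938738532400171 = F2 := funext F2_eq
  rw [e, sumOver_split, ev2_0, ev2_1, ev2_2, ev2_3]
  norm_num

theorem tot3 : sumOver P759 (F r3 110933709909861319824274484963584041) = 0 := by
  have e : F r3 110933709909861319824274484963584041 = F3 := funext F3_eq
  rw [e, sumOver_split, ev3_0, ev3_1, ev3_2, ev3_3]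
  norm_num

theorem tot4 : sumOver P759 (F r4 838162266041852643266897043297393711) = 0 := by
  have e : F r4 838162266041852643266897043297393711 = F4 := funext F4_eq
  rw [e, sumOver_split, ev4_0, ev4_1, ev4_2, ev4_3]
  norm_num

theorem tot5 : sumOver P759 (F r5 152079103424689815712065337305404000) = 0 := by
  have e : F r5 152079103424689815712065337305404000 = F5 := funext F5_eq
  rw [e, sumOver_split, ev5_0, ev5_1, ev5_2, ev5_3]
  norm_num

theorem tot6 : sumOver P759 (F r6 26668922620462732412686803326936562) = 0 := by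
  have e : F r6 26668922620462732412686803326936562 = F6 := funext F6_eq
  rw [e, sumOver_split, ev6_0, ev6_1, ev6_2, ev6_3]
  norm_num

theorem tot7 : sumOver P759 (F r7 212101120480267489137777372503952759) = 0 := by
  have e : F r7 212101120480267489137777372503952759 = F7 := funext F7_eq
  rw [e, sumOver_split, ev7_0, ev7_1, ev7_2, ev7_3]
  norm_num

theorem tot8 : sumOver P759 (F r8 292817355540762765555942194221331956) = 0 := by
  have e : F r8 292817355540762765555942194221331956 = F8 := funext F8_eq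
  rw [e, sumOver_split, ev8_0, ev8_1, ev8_2, ev8_3]
  norm_num

theorem tot9 : sumOver P759 (F r9 516755773311398598272057486325891783) = 0 := by
  have e : F r9 516755773311398598272057486325891783 = F9 := funext F9_eq
  rw [e, sumOver_split, ev9_0, ev9_1, ev9_2, ev9_3]
  norm_num

theorem tot10 : sumOver P759 (F r10 321163304150053925625245363337314562) = 0 := by
  have e : F r10 321163304150053925625245363337314562 = F10 := funext F10_eq
  rw [e, sumOver_split, ev10_0, ev10_1, ev10_2, ev10_3]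
  norm_num

theorem tot11 : sumOver P759 (F r11 269600533524801101347718147725529687) = 0 := by
  have e : F r11 269600533524801101347718147725529687 = F11 := funext F11_eq
  rw [e, sumOver_split, ev11_0, ev11_1, ev11_2, ev11_3]
  norm_num

theorem tot12 : sumOver P759 (F r12 27890057747468883522757871104308744) = 0 := by
  have e : F r12 27890057747468883522757871104308744 = F12 := funext F12_eq
  rw [e, sumOver_split, ev12_0, ev12_1, ev12_2, ev12_3]
  norm_num

theorem repsO_eq : repsO = [r1, r2, r3, r4, r5, r6, r7, r8, r9, r10, r11, r12] := rfl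

theorem r0_eq : idT = r0 := rfl

theorem tot_all : ∀ r ∈ repsO, ∃ Xc : ℕ, (∀ k < 32, r.getD k 0 = look Xc k) ∧ sumOver P759 (F r Xc) = 0 := by
  intro r hr
  rw [repsO_eq] at hr
  simp only [List.mem_cons, List.not_mem_nil, or_false] at hr
  rcases hr with rfl | rfl | rfl | rfl | rfl | rfl | rfl | rfl | rfl | rfl | rfl | rfl
  · exact ⟨_, lk1, tot1⟩
  · exact ⟨_, lk2, tot2⟩
  · exact ⟨_, lk3, tot3⟩
  · exact ⟨_, lk4, tot4⟩
  · exact ⟨_, lk5, tot5⟩
  · exact ⟨_, lk6, tot6⟩
  · exact ⟨_, lk7, tot7⟩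
  · exact ⟨_, lk8, tot8⟩
  · exact ⟨_, lk9, tot9⟩
  · exact ⟨_, lk10, tot10⟩
  · exact ⟨_, lk11, tot11⟩
  · exact ⟨_, lk12, tot12⟩

theorem repsO_in : ∀ r ∈ repsO, inM24 r = true := by decide +kernel

theorem main (M : Ideal AlgInt) (hM : IsPModular 2 M) (χ ψ : IrrCharacter ↥M24) :
    SameBlock M (χ : ↥M24 → ℂ) (ψ : ↥M24 → ℂ) := by
  apply BlkOne.one_block M hM ?_ fI cI fI_class cI_class ?_ (902185250602308750 : ℂ) (by norm_num) ?_ ?_ χ ψ
  · intro t ht
    have ht2 : orderOf (t : Equiv.Perm GolayPt) = 2 := by rw [Subgroup.orderOf_coe]; exact ht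
    obtain ⟨Q, hle, hp, hc, hn, hs⟩ := Loc_all t.2 ht2
    refine ⟨Q.subgroupOf M24, ?_, ?_, ?_, ?_⟩
    · intro q
      obtain ⟨k, hk⟩ := hp ⟨(q : ↥M24), q.2⟩
      refine ⟨k, ?_⟩
      apply Subtype.ext
      apply Subtype.ext
      simpa using congrArg Subtype.val hk
    · intro q hq
      exact Subtype.ext (hc q hq)
    · intro h hh q hq
      exact hn h h.2 (congrArg Subtype.val hh) q hq
    · intro h hh hq
      apply hs h h.2 (congrArg Subtype.val hh)
      intro q hq'
      exact congrArg Subtype.val (hq ⟨q, hle hq'⟩ hq')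
  · intro g hg
    unfold fI
    rw [if_neg]
    intro h
    exact hg (by rw [h.1])
  · intro x hx hx1
    have hx' : ¬ 2 ∣ orderOf (x : Equiv.Perm GolayPt) := by rw [Subgroup.orderOf_coe]; exact hx
    obtain ⟨κ, hκ, r, hr, e⟩ := odd_class x.2 hx' (fun h => hx1 (Subtype.ext h))
    have hcl := Cfsg.Agent.BlockLib.isClassFunction_conv fI_class cI_class x ⟨κ, hκ⟩
    obtain ⟨Xc, hl, hz⟩ := tot_all r hr
    have e2 : (((⟨κ, hκ⟩ : ↥M24) * x * (⟨κ, hκ⟩ : ↥M24)⁻¹ : ↥M24) : Equiv.Perm GolayPt) =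
        permOf r := e
    have e3 : tblOf (((⟨κ, hκ⟩ : ↥M24) * x * (⟨κ, hκ⟩ : ↥M24)⁻¹ : ↥M24) : Equiv.Perm GolayPt) = r := by
      rw [e2, tblOf_permOf (isTbl_of_inM24 (repsO_in r hr))]
    rw [← hcl, conv_eq _ Xc (by rw [e3]; exact hl), e3, hz]
    simp
  · have e3 : tblOf ((1 : ↥M24) : Equiv.Perm GolayPt) = r0 := by
      have : ((1 : ↥M24) : Equiv.Perm GolayPt) = 1 := rfl
      rw [this, tblOf_one, r0_eq]
    rw [conv_eq 1 _ (by rw [e3]; exact lk0), e3, tot0]
    norm_num

end Cfsg.Agent.Lib.Helper3.BlkM24
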