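import Mathlib
import Cfsg.Agent.Lib.Helper3.Cent2BA

/-!
# The centraliser of a fixed point free involution of `M24`
-/

set_option autoImplicit false

namespace Cfsg.Agent.Lib.Helper3.Cent2B

open MulAction Cfsg Cfsg.Agent.Lib.Helper28 Cfsg.Agent.Lib.Helper3.M24T Cfsg.Agent.Lib.Helper3.M24Gen
  Cfsg.Agent.Lib.Helper3.Sext Cfsg.Agent.Lib.Helper3.OctStab
open scoped Pointwise

/-! ### orbits and stabilisers -/

theorem card_of_orbit {Ω : Type*} [DecidableEq Ω] (H K : Subgroup (Equiv.Perm Ω)) (x : Ω) (O : Finset Ω)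
    (hK : ∀ g, g ∈ K ↔ g ∈ H ∧ g x = x)
    (hO1 : ∀ g ∈ H, g x ∈ O) (hO2 : ∀ y ∈ O, ∃ g ∈ H, g x = y) :
    Nat.card H = O.card * Nat.card K := by
  rw [Subgroup.card_eq_card_quotient_mul_card_subgroup (stabilizer H x)]
  congr 1
  · rw [← Nat.card_congr (orbitEquivQuotientStabilizer H x)]
    have : orbit H x = (O : Set Ω) := by
      ext y
      constructor
      · rintro ⟨g, rfl⟩
        exact hO1 g.1 g.2
      · intro hy
        obtain ⟨g, hg, e⟩ := hO2 y hy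
        exact ⟨⟨g, hg⟩, e⟩
    rw [this]
    simp
  · apply Nat.card_congr
    exact
      { toFun := fun g => ⟨g.1.1, (hK _).2 ⟨g.1.2, g.2⟩⟩
        invFun := fun g => ⟨⟨g.1, ((hK _).1 g.2).1⟩, ((hK _).1 g.2).2⟩
        left_inv := fun _ => rfl
        right_inv := fun _ => rfl }

/-! ### the centraliser -/

/-- the centraliser in `M24`. -/
def CC (t : Equiv.Perm GolayPt) : Subgroup (Equiv.Perm GolayPt) := M24 ⊓ Subgroup.centralizer {t}

theorem mem_CC {t c : Equiv.Perm GolayPt} : c ∈ CC t ↔ c ∈ M24 ∧ c * t = t * c := by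
  unfold CC
  rw [Subgroup.mem_inf, Subgroup.mem_centralizer_iff]
  simp only [Set.mem_singleton_iff, forall_eq]
  exact and_congr_right fun _ => eq_comm

theorem conj_CC {t k c : Equiv.Perm GolayPt} (hk : k ∈ M24) :
    c ∈ CC t ↔ k * c * k⁻¹ ∈ CC (k * t * k⁻¹) := by
  rw [mem_CC, mem_CC]
  constructor
  · rintro ⟨h1, h2⟩
    refine ⟨conj_mem hk h1, ?_⟩
    calc k * c * k⁻¹ * (k * t * k⁻¹) = k * (c * t) * k⁻¹ := by group
      _ = k * (t * c) * k⁻¹ := by rw [h2]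
      _ = _ := by group
  · rintro ⟨h1, h2⟩
    constructor
    · have := conj_mem (M24.inv_mem hk) h1
      have e : k⁻¹ * (k * c * k⁻¹) * k⁻¹⁻¹ = c := by group
      rwa [e] at this
    · have e : k * (c * t) * k⁻¹ = k * (t * c) * k⁻¹ := by
        calc k * (c * t) * k⁻¹ = k * c * k⁻¹ * (k * t * k⁻¹) := by group
          _ = k * t * k⁻¹ * (k * c * k⁻¹) := h2
          _ = _ := by group
      exact mul_left_cancel (mul_right_cancel e)

theorem good_of_comm {c : List ℕ} (h1 : inM24 c = true) (h2 : comp c r2B = comp r2B c) :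
    permOf c ∈ CC (permOf r2B) := by
  have hT := isTbl_of_inM24 h1
  have hR := isTbl_of_inM24 inM24_r2B
  exact mem_CC.2 ⟨permOf_mem_M24 h1, by rw [← (permOf_comp hT hR).2, h2, (permOf_comp hR hT).2]⟩

/-! ### the sextet -/

theorem T1m_lt : T1m < 2 ^ 24 := by decide
theorem card_T1 : (un T1m).card = 4 := by rw [card_un]; decide +kernel

/-- the sextet. -/
noncomputable def S0 : Finset (Finset GolayPt) := K (un T1m)

theorem S0_mem : S0 ∈ sextets := K_mem_sextets card_T1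

theorem un_mem_S0 {m : ℕ} (hm : m ∈ S0m) : un m ∈ S0 := by
  obtain ⟨h1, h2, h3, -⟩ := S0m_ok m hm
  unfold S0
  rw [mem_K, card_un]
  refine ⟨h1, ?_⟩
  unfold inC
  rw [mk_symmDiff, mk_un T1m_lt, mk_un h3]
  exact h2

theorem S0_eq : S0 = (S0m.map un).toFinset := by
  symm
  apply Finset.eq_of_subset_of_card_le
  · intro T hT
    rw [List.mem_toFinset] at hT
    obtain ⟨m, hm, rfl⟩ := List.mem_map.1 hT
    exact un_mem_S0 hm
  · rw [S0_mem.1, List.toFinset_card_of_nodup, List.length_map]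
    · decide
    · apply List.Nodup.map_on _ S0m_nodup
      intro a ha b hb e
      rw [← mk_un (S0m_ok a ha).2.2.1, e, mk_un (S0m_ok b hb).2.2.1]

theorem S0_fix {T : Finset GolayPt} (hT : T ∈ S0) : permOf r2B • T = T := by
  rw [S0_eq, List.mem_toFinset] at hT
  obtain ⟨m, hm, rfl⟩ := List.mem_map.1 hT
  obtain ⟨-, -, h3, h4⟩ := S0m_ok m hm
  rw [permOf_smul_un (isTbl_of_inM24 inM24_r2B) h3, h4]

theorem disj_of_sextet {S : Finset (Finset GolayPt)} (hS : S ∈ sextets) {T U : Finset GolayPt}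
    (hT : T ∈ S) (hU : U ∈ S) (hne : T ≠ U) : Disjoint T U := by
  have e := eq_K hS hT
  rw [e] at hT hU
  exact (K_pair hT hU hne).1

theorem uniq {S : Finset (Finset GolayPt)} (hS : S ∈ sextets) (hfix : ∀ T ∈ S, permOf r2B • T = T) :
    S = S0 := by
  obtain ⟨T, hT, U, hU, V, hV, hTU, hTV, hUV⟩ := Finset.two_lt_card.1 (by rw [hS.1]; norm_num : 2 < S.card)
  have inv_oct : ∀ A ∈ S, ∀ B ∈ S, A ≠ B → mk (A ∪ B) ∈ O15 := by
    intro A hA B hB hne
    have ho := hS.2.2 A hA B hB hne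
    obtain ⟨hc, hp⟩ := (mem_octads_iff _).1 ho
    have h1 := forall_isCode (P := fun m => (!(popc m == 8 && img r2B m == m) || O15.contains m) = true)
      O15_all _ hc
    have h2 : img r2B (mk (A ∪ B)) = mk (A ∪ B) := by
      rw [← mk_permOf_smul (isTbl_of_inM24 inM24_r2B), Finset.smul_finset_union, hfix A hA, hfix B hB]
    simpa [hp, h2] using h1
  have e1 : T = (T ∪ U) ∩ (T ∪ V) := by
    rw [← Finset.union_inter_distrib_left, Finset.disjoint_iff_inter_eq_empty.1 (disj_of_sextet hS hU hV hUV),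
      Finset.union_empty]
  have h4 : popc (mk (T ∪ U) &&& mk (T ∪ V)) = 4 := by
    rw [← mk_inter, ← e1, ← card_eq_popc]; exact hS.2.1 T hT
  have h5 := O15_inter _ (inv_oct T hT U hU hTU) _ (inv_oct T hT V hV hTV) h4
  rw [← mk_inter, ← e1] at h5
  have h6 : T ∈ S0 := by
    have := un_mem_S0 h5
    rwa [un_mk] at this
  rw [eq_K hS hT, eq_K S0_mem h6]

theorem smul_S0 {c : Equiv.Perm GolayPt} (hc : c ∈ CC (permOf r2B)) : c • S0 = S0 := by
  obtain ⟨h1, h2⟩ := mem_CC.1 hc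
  apply uniq (smul_mem_sextets h1 S0_mem)
  intro T hT
  obtain ⟨T', hT', rfl⟩ := Finset.mem_smul_finset.1 hT
  rw [← mul_smul, ← h2, mul_smul, S0_fix hT']

/-! ### the order -/

/-- the stabiliser of the point `0`. -/
noncomputable def C0 : Subgroup (Equiv.Perm GolayPt) := CC (permOf r2B) ⊓ stabilizer (Equiv.Perm GolayPt) (ptOf 0)

/-- the stabiliser of the points `0` and `1`. -/
noncomputable def C01 : Subgroup (Equiv.Perm GolayPt) := C0 ⊓ stabilizer (Equiv.Perm GolayPt) (ptOf 1)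

theorem mem_C0 {g : Equiv.Perm GolayPt} : g ∈ C0 ↔ g ∈ CC (permOf r2B) ∧ g (ptOf 0) = ptOf 0 := by
  unfold C0
  rw [Subgroup.mem_inf, mem_stabilizer_iff]; rfl

theorem mem_C01 {g : Equiv.Perm GolayPt} : g ∈ C01 ↔ g ∈ C0 ∧ g (ptOf 1) = ptOf 1 := by
  unfold C01
  rw [Subgroup.mem_inf, mem_stabilizer_iff]; rfl

theorem trans0 (y : GolayPt) : ∃ g ∈ CC (permOf r2B), g (ptOf 0) = y := by
  obtain ⟨c, hc, e⟩ := CT_cov _ (idx_lt y)
  obtain ⟨h1, h2⟩ := CT_ok c hc
  exact ⟨permOf c, good_of_comm h1 h2, by rw [permOf_ptOf h1 (by decide), e, ptOf_idx]⟩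

theorem card_CC : Nat.card (CC (permOf r2B)) = 24 * Nat.card C0 := by
  rw [card_of_orbit (CC (permOf r2B)) C0 (ptOf 0) Finset.univ (fun g => mem_C0)
    (fun _ _ => Finset.mem_univ _) (fun y _ => trans0 y)]
  rfl

theorem card_C0 : Nat.card C0 = 20 * Nat.card C01 := by
  rw [card_of_orbit C0 C01 (ptOf 1) (un O20m) (fun g => mem_C01) ?_ ?_, card_un, popc_O20]
  · intro g hg
    obtain ⟨h1, h2⟩ := mem_C0.1 hg
    have hT : un T1m ∈ S0 := self_mem_K card_T1
    have h3 : g • un T1m ∈ S0 := by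
      rw [← smul_S0 h1]; exact Finset.smul_mem_smul_finset hT
    have h0 : ptOf 0 ∈ un T1m := by rw [mem_un, idx_ptOf (by decide)]; decide
    have h4 : g • un T1m = un T1m := by
      by_contra hne
      have hd := disj_of_sextet S0_mem h3 hT hne
      have h5 : ptOf 0 ∈ g • un T1m := by
        have := (mem_smul_finset_iff g (un T1m) (ptOf 0)).2 h0
        rwa [h2] at this
      exact Finset.disjoint_left.1 hd h5 h0
    rw [mem_un]
    apply O20_spec _ (idx_lt _)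
    by_contra hcon
    have h6 : g (ptOf 1) ∈ g • un T1m := by
      rw [h4, mem_un]
      simpa using hcon
    rw [mem_smul_finset_iff, mem_un, idx_ptOf (by decide)] at h6
    exact absurd h6 (by decide)
  · intro y hy
    rw [mem_un] at hy
    obtain ⟨c, hc, e⟩ := DT_cov _ (idx_lt y) hy
    obtain ⟨h1, h2, h3⟩ := DT_ok c hc
    refine ⟨permOf c, mem_C0.2 ⟨good_of_comm h1 h2, by rw [permOf_ptOf h1 (by decide), h3]⟩, ?_⟩
    rw [permOf_ptOf h1 (by decide), e, ptOf_idx]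

theorem card_C01 : Nat.card C01 = 16 := by
  have hR := isTbl_of_inM24 inM24_r2B
  rw [FusEnum2.card_eq_length (P := L16) ?_ ?_ L16_nodup]
  · rfl
  · intro g hg
    obtain ⟨h0, h1⟩ := mem_C01.1 hg
    obtain ⟨h2, h3⟩ := mem_C0.1 h0
    obtain ⟨h4, h5⟩ := mem_CC.1 h2
    have hap : ∀ p, g (permOf r2B p) = permOf r2B (g p) := fun p => by
      have := congrArg (fun f : Equiv.Perm GolayPt => f p) h5
      simpa using this
    have e23 : permOf r2B (ptOf 0) = ptOf 23 := by rw [permOf_ptOf inM24_r2B (by decide)]; rfl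
    have e2 : permOf r2B (ptOf 1) = ptOf 2 := by rw [permOf_ptOf inM24_r2B (by decide)]; rfl
    have hs : g ∈ stabL [23, 0, 1, 2] := by
      rw [mem_stabL]
      refine ⟨h4, ?_⟩
      intro i hi
      simp only [List.mem_cons, List.not_mem_nil, or_false] at hi
      rcases hi with rfl | rfl | rfl | rfl
      · rw [← e23, hap, h3]
      · exact h3
      · exact h1
      · rw [← e2, hap, h1]
    rw [← L16_eq, List.mem_filter]
    refine ⟨tblOf_mem_list960 hs, ?_⟩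
    rw [beq_iff_eq, ← tblOf_permOf hR, ← tblOf_mul, ← tblOf_mul, h5]
  · intro t ht
    obtain ⟨h1, h2, h3, h4⟩ := L16_ok t ht
    refine ⟨isTbl_of_inM24 h1, mem_C01.2 ⟨mem_C0.2 ⟨good_of_comm h1 h2, ?_⟩, ?_⟩⟩
    · rw [permOf_ptOf h1 (by decide), h3]
    · rw [permOf_ptOf h1 (by decide), h4]

theorem card_base : Nat.card (CC (permOf r2B)) = 7680 := by
  rw [card_CC, card_C0, card_C01]

theorem main (t : Equiv.Perm GolayPt) (ht : t ∈ M24) (h₂ : orderOf t = 2) (h₀ : ∀ p, t p ≠ p) :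
    Nat.card {c : Equiv.Perm GolayPt // c ∈ M24 ∧ c * t = t * c} = 7680 ∧
    (∀ p q : GolayPt, ∃ c ∈ M24, c * t = t * c ∧ c p = q) ∧
    ∃ S ∈ sextets, t • S = S ∧ ∀ c ∈ M24, c * t = t * c → c • S = S := by
  obtain ⟨k, hk, e⟩ : ∃ k ∈ M24, k * t * k⁻¹ = permOf r2B := by
    rcases invol_cases ht h₂ with ⟨k, hk, -, ho⟩ | ⟨k, hk, e, -⟩
    · exfalso
      have h8 : (fixSet t).card = 8 := by
        rw [card_eq_popc]; exact ((mem_octads_iff _).1 ho).2
      obtain ⟨p, hp⟩ := Finset.card_pos.1 (by omega : 0 < (fixSet t).card)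
      exact h₀ p (mem_fixSet.1 hp)
    · exact ⟨k, hk, e⟩
  have hconj : ∀ c, c ∈ CC t ↔ k * c * k⁻¹ ∈ CC (permOf r2B) := by
    intro c; rw [← e]; exact conj_CC hk
  have hS : ∀ c ∈ CC t, c • (k⁻¹ • S0) = k⁻¹ • S0 := by
    intro c hc
    have := smul_S0 ((hconj c).1 hc)
    rw [mul_smul, mul_smul] at this
    rw [← this, inv_smul_smul]
    conv_rhs => rw [← this]
    rw [inv_smul_smul]
  refine ⟨?_, ?_, k⁻¹ • S0, smul_mem_sextets (M24.inv_mem hk) S0_mem, ?_, ?_⟩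
  · rw [← card_base, ← card_conj (CC t) (CC (permOf r2B)) k hconj]
    exact Nat.card_congr (Equiv.subtypeEquivRight fun c => mem_CC.symm)
  · intro p q
    obtain ⟨a, ha, ea⟩ := trans0 (k p)
    obtain ⟨b, hb, eb⟩ := trans0 (k q)
    have hc : k⁻¹ * (b * a⁻¹) * k ∈ CC t := by
      rw [hconj]
      have e2 : k * (k⁻¹ * (b * a⁻¹) * k) * k⁻¹ = b * a⁻¹ := by group
      rw [e2]
      exact Subgroup.mul_mem _ hb (Subgroup.inv_mem _ ha)
    obtain ⟨h1, h2⟩ := mem_CC.1 hc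
    refine ⟨_, h1, h2, ?_⟩
    simp only [Equiv.Perm.mul_apply]
    have e3 : a⁻¹ (k p) = ptOf 0 := by rw [Equiv.Perm.inv_eq_iff_eq, ea]
    rw [e3, eb]
    simp
  · exact hS t (mem_CC.2 ⟨ht, rfl⟩)
  · intro c hc1 hc2
    exact hS c (mem_CC.2 ⟨hc1, hc2⟩)

end Cfsg.Agent.Lib.Helper3.Cent2B
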