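import Mathlib
import Cfsg.Agent.Lib.Helper3.M11Compl
import Cfsg.Agent.Lib.Helper28.M24Trans

/-!
# The stabiliser of a word of the Golay code fixes no nonzero element of the cocode: the checks
-/

set_option autoImplicit false
set_option maxRecDepth 100000

namespace Cfsg.Agent.Lib.Helper3.CocodeFix

open MulAction Subgroup Cfsg Cfsg.Agent.Lib.Helper28 Cfsg.Agent.Lib.Helper3.M24T
open Cfsg.Agent.Lib.Helper3.Dod Cfsg.Agent.Lib.Helper3.M11C
open scoped Pointwise

/-- two elements stabilising the base octad. -/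
def GO : List (List ℕ) :=
  [[5, 2, 23, 17, 11, 1, 9, 7, 20, 15, 21, 13, 8, 6, 3, 16, 10, 14, 19, 22, 18, 12, 4, 0],
   [17, 5, 14, 0, 12, 1, 7, 19, 4, 20, 9, 22, 13, 11, 23, 15, 18, 2, 16, 6, 10, 21, 8, 3]]

/-- two elements stabilising the base dodecad. -/
def GD : List (List ℕ) :=
  [[2, 16, 4, 18, 17, 8, 13, 15, 10, 5, 22, 20, 19, 14, 7, 9, 23, 1, 0, 12, 11, 3, 6, 21],
   [19, 3, 21, 0, 1, 14, 6, 9, 11, 22, 10, 8, 17, 7, 13, 5, 12, 23, 4, 2, 15, 18, 20, 16]]

/-- no nonzero class of words modulo the code is fixed by all the tables of `L`. -/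
def Chk (L : List (List ℕ)) : Prop :=
  ∀ j < 4096, (j == 0 || L.any fun t => !isCode (img t (4096 * j) ^^^ (4096 * j))) = true

theorem GO_ok : ∀ t ∈ GO, inM24 t = true ∧ img t O5 = O5 := by decide +kernel
theorem GD_ok : ∀ t ∈ GD, inM24 t = true ∧ img t D0 = D0 := by decide +kernel
theorem chkO : Chk GO := by unfold Chk; decide +kernel
theorem chkD : Chk GD := by unfold Chk; decide +kernel
theorem wts : ∀ a < 4096, popc (enc B12 a) = 0 ∨ popc (enc B12 a) = 8 ∨ popc (enc B12 a) = 12 ∨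
    popc (enc B12 a) = 16 ∨ popc (enc B12 a) = 24 := by decide +kernel
theorem syst : ∀ a < 4096, enc B12 a % 4096 = a ∧ enc B12 a < 2 ^ 24 := by decide +kernel

end Cfsg.Agent.Lib.Helper3.CocodeFix
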