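import Mathlib
import Cfsg.Agent.Lib.Helper3.CocodeFixA

/-!
# The stabiliser of a word of the Golay code fixes no nonzero element of the cocode
-/

set_option autoImplicit false
set_option maxRecDepth 100000

namespace Cfsg.Agent.Lib.Helper3.CocodeFix

open MulAction Subgroup Cfsg Cfsg.Agent.Lib.Helper28 Cfsg.Agent.Lib.Helper3.M24T
open Cfsg.Agent.Lib.Helper3.Dod Cfsg.Agent.Lib.Helper3.M11C
open scoped Pointwise

theorem core (L : List (List ℕ)) (hL : ∀ t ∈ L, inM24 t = true) (hchk : Chk L)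
    (v : Finset GolayPt) (hv : isCode (mk v) ≠ true) :
    ∃ t ∈ L, isCode (mk (symmDiff (permOf t • v) v)) ≠ true := by
  obtain ⟨hc1, hc2⟩ := syst (mk v % 4096) (Nat.mod_lt _ (by decide))
  set c := enc B12 (mk v % 4096) with hc
  have hcode : isCode c = true := by
    rw [isCode_iff, hc1]
  have hlow : (mk v ^^^ c) % 4096 = 0 := by
    have : (4096 : ℕ) = 2 ^ 12 := by norm_num
    rw [this, Nat.xor_mod_two_pow, ← this, hc1, Nat.xor_self]
  have hlt : mk v ^^^ c < 2 ^ 24 := Nat.xor_lt_two_pow (mk_lt v) hc2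
  have hj : 4096 * ((mk v ^^^ c) / 4096) = mk v ^^^ c := Nat.mul_div_cancel' (Nat.dvd_of_mod_eq_zero hlow)
  have hj0 : (mk v ^^^ c) / 4096 ≠ 0 := by
    intro h0
    rw [h0, mul_zero] at hj
    have : mk v = c := Nat.xor_eq_zero_iff.1 hj.symm
    exact hv (by rw [this]; exact hcode)
  have h1 := hchk _ (show (mk v ^^^ c) / 4096 < 4096 by omega)
  rw [hj] at h1
  simp only [Bool.or_eq_true, beq_iff_eq, hj0, false_or, List.any_eq_true, Bool.not_eq_true'] at h1
  obtain ⟨t, ht, h2⟩ := h1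
  refine ⟨t, ht, fun h3 => ?_⟩
  have hT := isTbl_of_inM24 (hL t ht)
  have h4 : isCode (mk (permOf t • un c)) = true :=
    (mem_M24_iff_forall _).1 (permOf_mem_M24 (hL t ht)) (un c) (by rw [mk_un hc2]; exact hcode)
  have h5 : img t (mk v ^^^ c) = mk (permOf t • v) ^^^ mk (permOf t • un c) := by
    rw [← mk_symmDiff, ← smul_symmDiff, mk_permOf_smul hT, mk_symmDiff, mk_un hc2]
  rw [mk_symmDiff] at h3
  have h6 := isCode_xor (isCode_xor h3 h4) hcode
  have e : img t (mk v ^^^ c) ^^^ (mk v ^^^ c) =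
      mk (permOf t • v) ^^^ mk v ^^^ mk (permOf t • un c) ^^^ c := by
    rw [h5]; ac_rfl
  rw [e, h6] at h2
  exact absurd h2 (by simp)

theorem O5_lt : O5 < 2 ^ 24 := by decide
theorem D0_lt : D0 < 2 ^ 24 := by decide

/-- the tables to use for the set `s`. -/
theorem key (s : Finset GolayPt) (hs : isCode (mk s) = true) :
    ∃ k ∈ M24, ∃ L : List (List ℕ), (∀ t ∈ L, inM24 t = true) ∧ Chk L ∧
      ∀ t ∈ L, permOf t • (k • s) = k • s := by
  have hO : ∀ t ∈ GO, permOf t • un O5 = un O5 := by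
    intro t ht
    rw [permOf_smul_un (isTbl_of_inM24 (GO_ok t ht).1) O5_lt, (GO_ok t ht).2]
  have hD : ∀ t ∈ GD, permOf t • un D0 = un D0 := by
    intro t ht
    rw [permOf_smul_un (isTbl_of_inM24 (GD_ok t ht).1) D0_lt, (GD_ok t ht).2]
  rcases forall_isCode (P := fun m => popc m = 0 ∨ popc m = 8 ∨ popc m = 12 ∨ popc m = 16 ∨ popc m = 24)
    wts _ hs with h | h | h | h | h
  · have : s = ∅ := by rw [← Finset.card_eq_zero, card_eq_popc, h]
    subst this
    exact ⟨1, M24.one_mem, GO, fun t ht => (GO_ok t ht).1, chkO, fun t _ => by simp⟩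
  · obtain ⟨k, hk, e⟩ := exists_M24_smul_octad ((mem_octads_iff s).2 ⟨hs, h⟩)
    exact ⟨k, hk, GO, fun t ht => (GO_ok t ht).1, chkO, fun t ht => by rw [e]; exact hO t ht⟩
  · obtain ⟨k, hk, e⟩ := exists_smul_eq ((mem_dodecads_iff s).2 ⟨hs, h⟩) D0_dod
    exact ⟨k, hk, GD, fun t ht => (GD_ok t ht).1, chkD, fun t ht => by rw [e]; exact hD t ht⟩
  · have ho : sᶜ ∈ octads := by
      rw [mem_octads_iff]
      have h1 : sᶜ = symmDiff s Finset.univ := by
        ext p; simp [Finset.mem_symmDiff]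
      constructor
      · rw [h1, mk_symmDiff, mk_univ]
        exact isCode_xor hs isCode_full
      · rw [← card_eq_popc, Finset.card_compl, card_eq_popc s, h]; rfl
    obtain ⟨k, hk, e⟩ := exists_M24_smul_octad ho
    refine ⟨k, hk, GO, fun t ht => (GO_ok t ht).1, chkO, fun t ht => ?_⟩
    have e2 : (k • s)ᶜ = un O5 := by
      rw [← e]; ext p
      have h1 := mem_smul_finset_iff k s (k.symm p)
      have h2 := mem_smul_finset_iff k sᶜ (k.symm p)
      rw [Equiv.apply_symm_apply] at h1 h2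
      rw [Finset.mem_compl, h1, h2, Finset.mem_compl]
    rw [← smul_compl_eq_iff, e2]
    exact hO t ht
  · have : s = Finset.univ := by
      rw [← Finset.card_eq_iff_eq_univ, card_eq_popc, h]; rfl
    subst this
    exact ⟨1, M24.one_mem, GO, fun t ht => (GO_ok t ht).1, chkO, fun t _ => by simp⟩

theorem main_fin (s v : Finset GolayPt) (hs : isCode (mk s) = true) (hv : isCode (mk v) ≠ true) :
    ∃ σ ∈ M24, σ • s = s ∧ isCode (mk (symmDiff (σ • v) v)) ≠ true := by
  obtain ⟨k, hk, L, hL, hchk, hfix⟩ := key s hs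
  have hv0 : isCode (mk (k • v)) ≠ true := by
    intro h
    have := (mem_M24_iff_forall _).1 (M24.inv_mem hk) _ h
    rw [inv_smul_smul] at this
    exact hv this
  obtain ⟨t, ht, h1⟩ := core L hL hchk _ hv0
  refine ⟨k⁻¹ * permOf t * k, M24.mul_mem (M24.mul_mem (M24.inv_mem hk) (permOf_mem_M24 (hL t ht))) hk,
    ?_, fun h2 => h1 ?_⟩
  · rw [mul_smul, mul_smul, hfix t ht, inv_smul_smul]
  · have := (mem_M24_iff_forall _).1 hk _ h2
    rwa [smul_symmDiff, mul_smul, mul_smul, smul_inv_smul] at this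

theorem wordOf_smul (σ : Equiv.Perm GolayPt) (s : Finset GolayPt) :
    (fun p => wordOf s (σ.symm p)) = wordOf (σ • s) := by
  funext p
  unfold wordOf
  have : σ.symm p ∈ s ↔ p ∈ σ • s := by
    rw [← mem_smul_finset_iff σ s (σ.symm p), Equiv.apply_symm_apply]
  simp only [this]

theorem main (u : GolayPt → ZMod 2) (hu : u ∈ golayCode) (w : GolayPt → ZMod 2) (hw : w ∉ golayCode) :
    ∃ σ ∈ M24, (fun p => u (σ.symm p)) = u ∧ (fun p => w (σ.symm p)) - w ∉ golayCode := by
  rw [mem_golayCode_iff] at hu hw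
  obtain ⟨σ, hσ, h1, h2⟩ := main_fin _ _ hu hw
  refine ⟨σ, hσ, ?_, ?_⟩
  · conv_lhs => rw [← wordOf_support₂ u]
    rw [wordOf_smul, h1, wordOf_support₂]
  · have e : (fun p => w (σ.symm p)) - w = wordOf (symmDiff (σ • support₂ w) (support₂ w)) := by
      rw [wordOf_symmDiff, ← wordOf_smul, wordOf_support₂]
      funext p
      simp only [Pi.sub_apply, Pi.add_apply]
      generalize w (σ.symm p) = a
      generalize w p = b
      revert a b
      decide
    rw [e, wordOf_mem_iff]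
    exact h2

end Cfsg.Agent.Lib.Helper3.CocodeFix
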