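import Mathlib
import Cfsg.Agent.Lib.Helper3.DuadsA

/-!
# The pairs of points under the stabiliser of two points and a pair
-/

set_option autoImplicit false

namespace Cfsg.Agent.Lib.Helper3.Duads

open MulAction Cfsg Cfsg.Agent.Lib.Helper28 Cfsg.Agent.Lib.Helper3.M24T Cfsg.Agent.Lib.Helper3.M24Gen
open scoped Pointwise

def D (p q : GolayPt) (t : Finset GolayPt) : Prop := t.card = 2 ∧ p ∉ t ∧ q ∉ t

def Oc (p q : GolayPt) (s t : Finset GolayPt) : Prop := ∃ o ∈ octads, p ∈ o ∧ q ∈ o ∧ s ∪ t ⊆ o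

theorem D_smul (k : Equiv.Perm GolayPt) {p q : GolayPt} {t : Finset GolayPt} :
    D (k p) (k q) (k • t) ↔ D p q t := by
  unfold D
  rw [card_smul, mem_smul_finset_iff, mem_smul_finset_iff]

theorem Oc_smul' {k : Equiv.Perm GolayPt} (hk : k ∈ M24) {p q : GolayPt} {s t : Finset GolayPt}
    (h : Oc p q s t) : Oc (k p) (k q) (k • s) (k • t) := by
  obtain ⟨o, ho, hp, hq, hs⟩ := h
  refine ⟨k • o, smul_mem_octads hk ho, (mem_smul_finset_iff k o p).2 hp,
    (mem_smul_finset_iff k o q).2 hq, ?_⟩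
  rw [← Finset.smul_finset_union]
  exact Finset.smul_finset_subset_smul_finset hs

theorem Oc_smul {k : Equiv.Perm GolayPt} (hk : k ∈ M24) {p q : GolayPt} {s t : Finset GolayPt} :
    Oc (k p) (k q) (k • s) (k • t) ↔ Oc p q s t := by
  refine ⟨fun h => ?_, Oc_smul' hk⟩
  have := Oc_smul' (M24.inv_mem hk) h
  simpa using this

theorem disj_smul {k : Equiv.Perm GolayPt} {a b : Finset GolayPt} :
    Disjoint (k • a) (k • b) ↔ Disjoint a b := by
  rw [Finset.disjoint_iff_inter_eq_empty, Finset.disjoint_iff_inter_eq_empty, ← Orb.smul_inter,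
    ← Finset.card_eq_zero, card_smul, Finset.card_eq_zero]

/-! ### the base -/

theorem D_base (t : Finset GolayPt) : D (ptOf 23) (ptOf 0) t ↔ isD (mk t) = true := by
  unfold D isD
  rw [card_eq_popc, mem_iff_testBit, mem_iff_testBit, idx_ptOf (by decide), idx_ptOf (by decide)]
  simp [and_assoc]

theorem disj_base (t : Finset GolayPt) : Disjoint (un 6) t ↔ 6 &&& mk t = 0 := by
  rw [disjoint_iff_land, mk_un (by decide)]

theorem F4_eq : un F4 = {ptOf 23, ptOf 0} ∪ un 6 := by decide +kernel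

theorem Oc_base (t : Finset GolayPt) : Oc (ptOf 23) (ptOf 0) (un 6) t ↔ oc (mk t) = true := by
  unfold oc
  rw [List.any_eq_true]
  constructor
  · rintro ⟨o, ho, hp, hq, hs⟩
    obtain ⟨hc, hpop⟩ := (mem_octads_iff o).1 ho
    have h1 := forall_isCode (P := fun m => (!(popc m == 8 && m &&& F4 == F4) || O5L.contains m) = true)
      O5L_all _ hc
    have h2 : un F4 ⊆ o := by
      rw [F4_eq]
      apply Finset.union_subset
      · intro x hx
        simp only [Finset.mem_insert, Finset.mem_singleton] at hx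
        rcases hx with rfl | rfl
        · exact hp
        · exact hq
      · exact Finset.subset_union_left.trans hs
    have h3 : mk o &&& F4 = F4 := by
      have := subset_iff_land.1 h2
      rw [mk_un (by decide)] at this
      rw [Nat.land_comm]; exact this
    have h4 : mk o ∈ O5L := by simpa [hpop, h3] using h1
    exact ⟨mk o, h4, by rw [beq_iff_eq]; exact subset_iff_land.1 (Finset.subset_union_right.trans hs)⟩
  · rintro ⟨m, hm, e⟩
    rw [beq_iff_eq] at e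
    obtain ⟨h1, h2, h3, h4, h5⟩ := O5L_ok m hm
    refine ⟨un m, un_mem_octads h1, ?_, ?_, Finset.union_subset ?_ ?_⟩
    · rw [mem_un, idx_ptOf (by decide)]; exact h3
    · rw [mem_un, idx_ptOf (by decide)]; exact h4
    · rw [subset_iff_land, mk_un (by decide), mk_un h2]; exact h5
    · rw [subset_iff_land, mk_un h2]; exact e

theorem card_of_isD {t : Finset GolayPt} (h : isD (mk t) = true) : t.card = 2 := ((D_base t).2 h).1

theorem cntA' : {t | D (ptOf 23) (ptOf 0) t ∧ Disjoint (un 6) t ∧ Oc (ptOf 23) (ptOf 0) (un 6) t}.ncard = 30 := by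
  have : {t | D (ptOf 23) (ptOf 0) t ∧ Disjoint (un 6) t ∧ Oc (ptOf 23) (ptOf 0) (un 6) t} =
      ↑((Finset.powersetCard 2 (Finset.univ : Finset GolayPt)).filter fun t =>
        (isD (mkF t) && (6 &&& mkF t == 0) && oc (mkF t)) = true) := by
    ext t
    simp only [Set.mem_setOf_eq, Finset.coe_filter, Finset.mem_powersetCard, Finset.subset_univ, true_and,
      mkF_eq, Bool.and_eq_true, beq_iff_eq]
    rw [D_base, Oc_base, disj_base]
    constructor
    · rintro ⟨h1, h2, h3⟩; exact ⟨card_of_isD h1, ⟨h1, h2⟩, h3⟩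
    · rintro ⟨_, ⟨h1, h2⟩, h3⟩; exact ⟨h1, h2, h3⟩
  rw [this, Set.ncard_coe_finset]; exact cntA

theorem cntB' : {t | D (ptOf 23) (ptOf 0) t ∧ Disjoint (un 6) t ∧ ¬ Oc (ptOf 23) (ptOf 0) (un 6) t}.ncard = 160 := by
  have : {t | D (ptOf 23) (ptOf 0) t ∧ Disjoint (un 6) t ∧ ¬ Oc (ptOf 23) (ptOf 0) (un 6) t} =
      ↑((Finset.powersetCard 2 (Finset.univ : Finset GolayPt)).filter fun t =>
        (isD (mkF t) && (6 &&& mkF t == 0) && !oc (mkF t)) = true) := by
    ext t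
    simp only [Set.mem_setOf_eq, Finset.coe_filter, Finset.mem_powersetCard, Finset.subset_univ, true_and,
      mkF_eq, Bool.and_eq_true, beq_iff_eq, Bool.not_eq_true']
    rw [D_base, Oc_base, disj_base, Bool.not_eq_true]
    constructor
    · rintro ⟨h1, h2, h3⟩; exact ⟨card_of_isD h1, ⟨h1, h2⟩, h3⟩
    · rintro ⟨_, ⟨h1, h2⟩, h3⟩; exact ⟨h1, h2, h3⟩
  rw [this, Set.ncard_coe_finset]; exact cntB

theorem cert_base {t : Finset GolayPt} (hD : D (ptOf 23) (ptOf 0) t) (hne : t ≠ un 6) :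
    ∃ c, good c = true ∧ img c (mk t) = repOf (mk t) := by
  obtain ⟨x, y, -, rfl⟩ := Finset.card_eq_two.1 hD.1
  have e : mk ({x, y} : Finset GolayPt) = 2 ^ idx x ||| 2 ^ idx y := by
    rw [Finset.insert_eq, mk_union, mk_singleton, mk_singleton]
  have h1 := certs_cov _ (idx_lt x) _ (idx_lt y)
  rw [← e] at h1
  have h2 : mk ({x, y} : Finset GolayPt) ≠ 6 := by
    intro h
    apply hne
    rw [← h, un_mk]
  simp only [(D_base _).1 hD, Bool.not_true, Bool.false_or, Bool.or_eq_true, beq_iff_eq, h2, false_or,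
    List.any_eq_true] at h1
  obtain ⟨c, hc, e2⟩ := h1
  obtain ⟨h3, h4⟩ := certs_ok c hc
  exact ⟨c.2, h3, by rw [← e2]; exact h4⟩

theorem trans_base {t t' : Finset GolayPt} (hD : D (ptOf 23) (ptOf 0) t) (hD' : D (ptOf 23) (ptOf 0) t')
    (hne : t ≠ un 6) (hne' : t' ≠ un 6) (hc : (un 6 ∩ t).card = (un 6 ∩ t').card)
    (ho : Oc (ptOf 23) (ptOf 0) (un 6) t ↔ Oc (ptOf 23) (ptOf 0) (un 6) t') :
    ∃ g : Equiv.Perm GolayPt, g ∈ M24 ∧ g (ptOf 23) = ptOf 23 ∧ g (ptOf 0) = ptOf 0 ∧ g • un 6 = un 6 ∧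
      g • t = t' := by
  obtain ⟨c, hg, e⟩ := cert_base hD hne
  obtain ⟨c', hg', e'⟩ := cert_base hD' hne'
  have hrep : repOf (mk t) = repOf (mk t') := by
    rw [card_eq_popc, card_eq_popc, mk_inter, mk_inter, mk_un (by decide)] at hc
    rw [Oc_base, Oc_base] at ho
    have ho' : oc (mk t) = oc (mk t') := Bool.eq_iff_iff.2 ho
    unfold repOf
    rw [hc, ho']
  simp only [good, Bool.and_eq_true, beq_iff_eq] at hg hg'
  obtain ⟨⟨⟨a1, a2⟩, a3⟩, a4⟩ := hg
  obtain ⟨⟨⟨b1, b2⟩, b3⟩, b4⟩ := hg'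
  have hT := isTbl_of_inM24 a1
  have hT' := isTbl_of_inM24 b1
  have key : ∀ (x : GolayPt), permOf c x = permOf c' x → ((permOf c')⁻¹ * permOf c) x = x := by
    intro x hx
    rw [Equiv.Perm.mul_apply, Equiv.Perm.inv_eq_iff_eq, hx]
  have keyS : ∀ (u v : Finset GolayPt), permOf c • u = permOf c' • v → ((permOf c')⁻¹ * permOf c) • u = v := by
    intro u v hx
    rw [mul_smul, hx, inv_smul_smul]
  refine ⟨(permOf c')⁻¹ * permOf c, M24.mul_mem (M24.inv_mem (permOf_mem_M24 b1)) (permOf_mem_M24 a1),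
    key _ ?_, key _ ?_, keyS _ _ ?_, keyS _ _ ?_⟩
  · rw [permOf_apply hT, permOf_apply hT', idx_ptOf (by decide), a2, b2]
  · rw [permOf_apply hT, permOf_apply hT', idx_ptOf (by decide), a3, b3]
  · rw [permOf_smul_un hT (by decide), permOf_smul_un hT' (by decide), a4, b4]
  · apply mk_injective
    rw [mk_permOf_smul hT, mk_permOf_smul hT', e, e', hrep]

theorem s0_eq : ({ptOf 1, ptOf 2} : Finset GolayPt) = un 6 := by decide +kernel

theorem main (p q : GolayPt) (hpq : p ≠ q) (s : Finset GolayPt) (hs : (s.card = 2 ∧ p ∉ s ∧ q ∉ s)) :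
    {t : Finset GolayPt | (t.card = 2 ∧ p ∉ t ∧ q ∉ t) ∧ Disjoint s t ∧
      (∃ o ∈ octads, p ∈ o ∧ q ∈ o ∧ s ∪ t ⊆ o)}.ncard = 30 ∧
    {t : Finset GolayPt | (t.card = 2 ∧ p ∉ t ∧ q ∉ t) ∧ Disjoint s t ∧
      ¬ (∃ o ∈ octads, p ∈ o ∧ q ∈ o ∧ s ∪ t ⊆ o)}.ncard = 160 ∧
    ∀ t t' : Finset GolayPt, (t.card = 2 ∧ p ∉ t ∧ q ∉ t) → (t'.card = 2 ∧ p ∉ t' ∧ q ∉ t') → t ≠ s → t' ≠ s →
      (s ∩ t).card = (s ∩ t').card →
      ((∃ o ∈ octads, p ∈ o ∧ q ∈ o ∧ s ∪ t ⊆ o) ↔ (∃ o ∈ octads, p ∈ o ∧ q ∈ o ∧ s ∪ t' ⊆ o)) →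
      ∃ g : Equiv.Perm GolayPt, g ∈ M24 ∧ g p = p ∧ g q = q ∧ g • s = s ∧ g • t = t' := by
  obtain ⟨h2, hp, hq⟩ := hs
  obtain ⟨a, b, hab, rfl⟩ := Finset.card_eq_two.1 h2
  simp only [Finset.mem_insert, Finset.mem_singleton, not_or] at hp hq
  obtain ⟨k, hk, hmap⟩ := exists_M24_map_base [p, q, a, b] (by simp) (by
    simp only [List.nodup_cons, List.mem_cons, List.not_mem_nil, or_false, not_or, List.nodup_nil,
      not_false_eq_true, and_true]
    exact ⟨⟨hpq, hp.1, hp.2⟩, ⟨hq.1, hq.2⟩, hab⟩)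
  simp only [List.map_cons, List.map_nil, List.length_cons, List.length_nil, List.take, List.cons.injEq,
    and_true] at hmap
  obtain ⟨kp, kq, ka, kb⟩ := hmap
  have ks : k • ({a, b} : Finset GolayPt) = un 6 := by
    rw [← s0_eq, ← ka, ← kb, smul_finset_eq_image, Finset.image_insert, Finset.image_singleton]
  have tD : ∀ t, D p q t ↔ D (ptOf 23) (ptOf 0) (k • t) := by
    intro t; rw [← kp, ← kq, D_smul]
  have tO : ∀ t, Oc p q {a, b} t ↔ Oc (ptOf 23) (ptOf 0) (un 6) (k • t) := by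
    intro t; rw [← kp, ← kq, ← ks, Oc_smul hk]
  have tJ : ∀ t, Disjoint ({a, b} : Finset GolayPt) t ↔ Disjoint (un 6) (k • t) := by
    intro t; rw [← ks, disj_smul]
  refine ⟨?_, ?_, ?_⟩
  · rw [← cntA']
    exact Orb.ncard_transport k (fun t => D p q t ∧ Disjoint ({a, b} : Finset GolayPt) t ∧ Oc p q {a, b} t)
      (fun t => D (ptOf 23) (ptOf 0) t ∧ Disjoint (un 6) t ∧ Oc (ptOf 23) (ptOf 0) (un 6) t)
      (fun t => by rw [tD, tO, tJ])
  · rw [← cntB']
    exact Orb.ncard_transport k (fun t => D p q t ∧ Disjoint ({a, b} : Finset GolayPt) t ∧ ¬ Oc p q {a, b} t)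
      (fun t => D (ptOf 23) (ptOf 0) t ∧ Disjoint (un 6) t ∧ ¬ Oc (ptOf 23) (ptOf 0) (un 6) t)
      (fun t => by rw [tD, tO, tJ])
  · intro t t' hD hD' hne hne' hc ho
    have hne1 : k • t ≠ un 6 := by
      rw [← ks]; intro h; exact hne (smul_left_cancel k h)
    have hne2 : k • t' ≠ un 6 := by
      rw [← ks]; intro h; exact hne' (smul_left_cancel k h)
    have hc' : (un 6 ∩ k • t).card = (un 6 ∩ k • t').card := by
      rw [← ks, Orb.card_smul_inter, Orb.card_smul_inter]; exact hc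
    obtain ⟨g, g1, g2, g3, g4, g5⟩ := trans_base ((tD t).1 hD) ((tD t').1 hD') hne1 hne2 hc'
      (((tO t).symm.trans ho).trans (tO t'))
    refine ⟨k⁻¹ * g * k, M24.mul_mem (M24.mul_mem (M24.inv_mem hk) g1) hk, ?_, ?_, ?_, ?_⟩
    · simp only [Equiv.Perm.mul_apply]
      rw [kp, g2, ← kp]; simp
    · simp only [Equiv.Perm.mul_apply]
      rw [kq, g3, ← kq]; simp
    · rw [mul_smul, mul_smul, ks, g4, ← ks, inv_smul_smul]
    · rw [mul_smul, mul_smul, g5, inv_smul_smul]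

end Cfsg.Agent.Lib.Helper3.Duads
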