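import Mathlib
import Cfsg.Agent.Lib.Helper28.GolayFacts

/-!
# The punctured code of length 23
-/

set_option autoImplicit false
set_option maxRecDepth 100000

namespace Cfsg.Agent.Lib.Helper3.Golay23

open Cfsg Cfsg.Agent.Lib.Helper28

/-- the punctured word with information bits `a`. -/
def F (a : ℕ) : ZMod 23 → ZMod 2 := fun x => wordOf (un (enc B12 a)) (some x)

/-- the mask of the 23 points. -/
def M23 : ℕ := 8388607

theorem F_ne_zero (a : ℕ) (x : ZMod 23) : F a x ≠ 0 ↔ (enc B12 a).testBit x.val = true := by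
  unfold F wordOf
  have : (some x : GolayPt) ∈ un (enc B12 a) ↔ (enc B12 a).testBit x.val = true := by
    rw [mem_un]; rfl
  by_cases h : (some x : GolayPt) ∈ un (enc B12 a)
  · simp [h, this.1 h]
  · have h2 : ¬ (enc B12 a).testBit x.val = true := fun h3 => h (this.2 h3)
    simp [h, h2]

theorem M23_bit (i : ℕ) : M23.testBit i = decide (i < 23) := by
  have : M23 = 2 ^ 23 - 1 := by decide
  rw [this, Nat.testBit_two_pow_sub_one]

theorem norm_F (a : ℕ) : hammingNorm (F a) = popc (enc B12 a &&& M23) := by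
  rw [← card_un]
  unfold hammingNorm
  rw [← Finset.card_image_of_injective _ (Option.some_injective (ZMod 23))]
  congr 1
  ext p
  rw [Finset.mem_image, mem_un, Nat.testBit_land, M23_bit]
  cases p with
  | none =>
    constructor
    · rintro ⟨x, _, hx⟩
      exact absurd hx (by simp)
    · intro h
      have : idx (none : GolayPt) = 23 := rfl
      rw [this] at h
      simp at h
  | some x =>
    have hi : idx (some x : GolayPt) = x.val := rfl
    have hlt : x.val < 23 := ZMod.val_lt x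
    rw [hi]
    constructor
    · rintro ⟨y, hy, hxy⟩
      have : y = x := Option.some_injective _ hxy
      subst this
      rw [Finset.mem_filter] at hy
      rw [(F_ne_zero a y).1 hy.2]
      simp [hlt]
    · intro h
      refine ⟨x, ?_, rfl⟩
      rw [Finset.mem_filter]
      refine ⟨Finset.mem_univ _, (F_ne_zero a x).2 ?_⟩
      simp only [Bool.and_eq_true] at h
      exact h.1

theorem F_injOn {a b : ℕ} (ha : a < 4096) (hb : b < 4096) (h : F a = F b) : a = b := by
  rw [← (enc_facts a ha).1, ← (enc_facts b hb).1]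
  apply Nat.eq_of_testBit_eq
  intro i
  have h12 : (4096 : ℕ) = 2 ^ 12 := by norm_num
  rw [h12, Nat.testBit_mod_two_pow, Nat.testBit_mod_two_pow]
  by_cases hi : i < 12
  · have hv : ((i : ℕ) : ZMod 23).val = i := by
      rw [ZMod.val_natCast, Nat.mod_eq_of_lt (by omega)]
    have h1 := F_ne_zero a (i : ZMod 23)
    have h2 := F_ne_zero b (i : ZMod 23)
    rw [hv] at h1 h2
    rw [h] at h1
    have h3 : (enc B12 a).testBit i = true ↔ (enc B12 b).testBit i = true := h1.symm.trans h2
    rw [Bool.eq_iff_iff.2 h3]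
  · simp [hi]

theorem P_eq : {u : ZMod 23 → ZMod 2 | ∃ w ∈ golayCode, ∀ x : ZMod 23, u x = w (some x)} =
    ↑((Finset.range 4096).image F) := by
  ext u
  simp only [Set.mem_setOf_eq, Finset.coe_image, Finset.coe_range, Set.mem_image, Set.mem_Iio]
  constructor
  · rintro ⟨w, hw, h⟩
    have hc := (mem_golayCode_iff w).1 hw
    refine ⟨mk (support₂ w) % 4096, Nat.mod_lt _ (by decide), ?_⟩
    funext x
    unfold F
    rw [isCode_iff.1 hc, un_mk, wordOf_support₂, h]
  · rintro ⟨a, ha, rfl⟩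
    refine ⟨wordOf (un (enc B12 a)), ?_, fun x => rfl⟩
    rw [wordOf_mem_iff, mk_un (enc_facts a ha).2.1]
    exact isCode_enc ha

theorem count (k : ℕ) : {u : ZMod 23 → ZMod 2 | u ∈ (↑((Finset.range 4096).image F) : Set (ZMod 23 → ZMod 2)) ∧
    hammingNorm u = k}.ncard = ((Finset.range 4096).filter fun a => popc (enc B12 a &&& M23) = k).card := by
  have e : {u : ZMod 23 → ZMod 2 | u ∈ (↑((Finset.range 4096).image F) : Set (ZMod 23 → ZMod 2)) ∧
      hammingNorm u = k} =
      ↑(((Finset.range 4096).filter fun a => popc (enc B12 a &&& M23) = k).image F) := by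
    ext u
    simp only [Set.mem_setOf_eq, Finset.coe_image, Finset.coe_range, Set.mem_image, Set.mem_Iio,
      Finset.coe_filter, Finset.mem_range]
    constructor
    · rintro ⟨⟨a, ha, rfl⟩, h⟩
      exact ⟨a, ⟨ha, by rw [← norm_F]; exact h⟩, rfl⟩
    · rintro ⟨a, ⟨ha, h⟩, rfl⟩
      exact ⟨⟨a, ha, rfl⟩, by rw [norm_F]; exact h⟩
  rw [e, Set.ncard_coe_finset, Finset.card_image_of_injOn]
  intro a ha b hb h
  simp only [Finset.coe_filter, Finset.mem_range, Set.mem_setOf_eq] at ha hb
  exact F_injOn ha.1 hb.1 h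

theorem total : (↑((Finset.range 4096).image F) : Set (ZMod 23 → ZMod 2)).ncard = 4096 := by
  rw [Set.ncard_coe_finset, Finset.card_image_of_injOn, Finset.card_range]
  intro a ha b hb h
  simp only [Finset.coe_range, Set.mem_Iio] at ha hb
  exact F_injOn ha hb h

theorem c7 : ((Finset.range 4096).filter fun a => popc (enc B12 a &&& M23) = 7).card = 253 := by decide +kernel
theorem c8 : ((Finset.range 4096).filter fun a => popc (enc B12 a &&& M23) = 8).card = 506 := by decide +kernel
theorem c11 : ((Finset.range 4096).filter fun a => popc (enc B12 a &&& M23) = 11).card = 1288 := by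
  decide +kernel
theorem c12 : ((Finset.range 4096).filter fun a => popc (enc B12 a &&& M23) = 12).card = 1288 := by
  decide +kernel
theorem c15 : ((Finset.range 4096).filter fun a => popc (enc B12 a &&& M23) = 15).card = 506 := by
  decide +kernel
theorem c16 : ((Finset.range 4096).filter fun a => popc (enc B12 a &&& M23) = 16).card = 253 := by
  decide +kernel
theorem cmin : ∀ a < 4096, a ≠ 0 → 7 ≤ popc (enc B12 a &&& M23) := by decide +kernel

theorem F_zero : F 0 = 0 := by
  funext x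
  by_contra h
  have := (F_ne_zero 0 x).1 h
  have e : enc B12 0 = 0 := by decide +kernel
  rw [e] at this
  simp at this

theorem main : {u : ZMod 23 → ZMod 2 | ∃ w ∈ Cfsg.golayCode, ∀ x : ZMod 23, u x = w (some x)}.ncard = 4096 ∧ {u : ZMod 23 → ZMod 2 | u ∈ {u : ZMod 23 → ZMod 2 | ∃ w ∈ Cfsg.golayCode, ∀ x : ZMod 23, u x = w (some x)} ∧ hammingNorm u = 7}.ncard = 253 ∧ {u : ZMod 23 → ZMod 2 | u ∈ {u : ZMod 23 → ZMod 2 | ∃ w ∈ Cfsg.golayCode, ∀ x : ZMod 23, u x = w (some x)} ∧ hammingNorm u = 8}.ncard = 506 ∧ {u : ZMod 23 → ZMod 2 | u ∈ {u : ZMod 23 → ZMod 2 | ∃ w ∈ Cfsg.golayCode, ∀ x : ZMod 23, u x = w (some x)} ∧ hammingNorm u = 11}.ncard = 1288 ∧ {u : ZMod 23 → ZMod 2 | u ∈ {u : ZMod 23 → ZMod 2 | ∃ w ∈ Cfsg.golayCode, ∀ x : ZMod 23, u x = w (some x)} ∧ hammingNorm u = 12}.ncard = 1288 ∧ {u : ZMod 23 → ZMod 2 | u ∈ {u : ZMod 23 → ZMod 2 | ∃ w ∈ Cfsg.golayCode, ∀ x : ZMod 23, u x = w (some x)} ∧ hammingNorm u = 15}.ncard = 506 ∧ {u : ZMod 23 → ZMod 2 | u ∈ {u : ZMod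 23 → ZMod 2 | ∃ w ∈ Cfsg.golayCode, ∀ x : ZMod 23, u x = w (some x)} ∧ hammingNorm u = 16}.ncard = 253 ∧ ∀ u ∈ {u : ZMod 23 → ZMod 2 | ∃ w ∈ Cfsg.golayCode, ∀ x : ZMod 23, u x = w (some x)}, u ≠ 0 → 7 ≤ hammingNorm u := by
  rw [P_eq]
  refine ⟨total, (count 7).trans c7, (count 8).trans c8, (count 11).trans c11, (count 12).trans c12,
    (count 15).trans c15, (count 16).trans c16, ?_⟩
  intro u hu hne
  simp only [Finset.coe_image, Finset.coe_range, Set.mem_image, Set.mem_Iio] at hu
  obtain ⟨a, ha, rfl⟩ := hu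
  rw [norm_F]
  apply cmin a ha
  rintro rfl
  exact hne F_zero

end Cfsg.Agent.Lib.Helper3.Golay23
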