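import Mathlib
import Cfsg.Agent.Lib.Helper3.InvSubA
import Cfsg.Agent.Lib.Helper3.Trios

/-!
# The invariant subspaces of the binary permutation module of `M24`
-/

set_option autoImplicit false

namespace Cfsg.Agent.Lib.Helper3.InvSub

open MulAction Cfsg Cfsg.Agent.Lib.Helper28 Cfsg.Agent.Lib.Helper3.M24T Cfsg.Agent.Lib.Helper3.Dod
  Cfsg.Agent.Lib.Helper3.Sext Cfsg.Agent.Lib.Helper3.Trio
open scoped Pointwise

/-- an invariant family of sets. -/
structure Inv (P : Finset GolayPt → Prop) : Prop where
  empty : P ∅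
  add : ∀ {s t : Finset GolayPt}, P s → P t → P (symmDiff s t)
  smul : ∀ {g : Equiv.Perm GolayPt}, g ∈ M24 → ∀ {s : Finset GolayPt}, P s → P (g • s)

variable {P : Finset GolayPt → Prop}

theorem B12_oct : ∀ b ∈ B12, isOct b = true := by decide +kernel

theorem O5lt2 : O5 < 2 ^ 24 := by decide

theorem enc_mem (h : Inv P) (bs : List ℕ) (hb : ∀ b ∈ bs, P (un b)) (a : ℕ) : P (un (enc bs a)) := by
  induction bs generalizing a with
  | nil =>
    simp only [enc]
    rw [un_zero]; exact h.empty
  | cons b bs ih =>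
    simp only [enc]
    rw [un_xor]
    apply h.add
    · split_ifs
      · exact hb b List.mem_cons_self
      · rw [un_zero]; exact h.empty
    · exact ih (fun c hc => hb c (List.mem_cons_of_mem _ hc)) _

theorem code_of_octad (h : Inv P) {o : Finset GolayPt} (ho : o ∈ octads) (hP : P o) : ∀ c, inC c → P c := by
  have hall : ∀ o' ∈ octads, P o' := by
    intro o' ho'
    obtain ⟨k, hk, e⟩ := exists_M24_smul_octad ho
    obtain ⟨k', hk', e'⟩ := exists_M24_smul_octad ho'
    have : o' = k'⁻¹ • (k • o) := by rw [e, ← e', inv_smul_smul]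
    rw [this]
    exact h.smul (M24.inv_mem hk') (h.smul hk hP)
  intro c hc
  have e := isCode_iff.1 hc
  rw [← un_mk c, ← e]
  exact enc_mem h B12 (fun b hb => hall _ (un_mem_octads (B12_oct b hb))) _

theorem lemmaA (h : Inv P) {x : Finset GolayPt} (hx : inC x) (hP : P x) (h0 : x ≠ ∅)
    (h1 : x ≠ Finset.univ) : ∀ c, inC c → P c := by
  rcases card_cases hx with c0 | c8 | c12 | c16 | c24
  · exact absurd (Finset.card_eq_zero.1 c0) h0
  · exact code_of_octad h (mem_octads_iff'.2 ⟨hx, c8⟩) hP
  · have hd : x ∈ dodecads := (mem_dodecads_iff x).2 ⟨hx, by rw [← card_eq_popc]; exact c12⟩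
    obtain ⟨k, hk, e⟩ := exists_smul_eq hd D0_dod
    have p1 : P (un D0) := e ▸ h.smul hk hP
    have p2 := h.add p1 (h.smul (permOf_mem_M24 tB_ok.1) p1)
    rw [permOf_smul_un (isTbl_of_inM24 tB_ok.1) Dod.D0_lt, ← un_xor] at p2
    exact code_of_octad h (un_mem_octads tB_ok.2) p2
  · have ho : symmDiff x Finset.univ ∈ octads := mem_octads_iff'.2 ⟨inC_symmDiff hx inC_univ, by
      have := card_symmDiff_add x Finset.univ
      rw [Finset.inter_univ, Finset.card_univ, card_pts] at this
      omega⟩
    obtain ⟨k, hk, e⟩ := exists_M24_smul_octad ho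
    have e2 : k • x = un O5c := by
      apply mk_injective
      have := congrArg mk e
      rw [smul_symmDiff, mk_symmDiff, Finset.smul_finset_univ, mk_univ, mk_un O5lt2] at this
      rw [mk_un tA_ok.2.2.2, tA_ok.2.2.1, ← this, Nat.xor_assoc, Nat.xor_self, Nat.xor_zero]
    have p1 : P (un O5c) := e2 ▸ h.smul hk hP
    have p2 := h.add p1 (h.smul (permOf_mem_M24 tA_ok.1) p1)
    rw [permOf_smul_un (isTbl_of_inM24 tA_ok.1) tA_ok.2.2.2, ← un_xor] at p2
    exact code_of_octad h (un_mem_octads tA_ok.2.1) p2
  · exact absurd ((Finset.card_eq_iff_eq_univ _).1 (by rw [c24, card_pts])) h1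

theorem xor4 (v c E : ℕ) : v = (c ^^^ E) ^^^ ((v ^^^ c) ^^^ E) := by
  apply Nat.eq_of_testBit_eq
  intro i
  simp only [Nat.testBit_xor]
  cases v.testBit i <;> cases c.testBit i <;> cases E.testBit i <;> rfl

theorem cover_fin (s : Finset GolayPt) : ∃ c e, inC c ∧ e.card ≤ 4 ∧ s = symmDiff c e := by
  have hvlt : mk s < 2 ^ 24 := mk_lt s
  have hlt : mk s % 4096 < 4096 := Nat.mod_lt _ (by norm_num)
  obtain ⟨f1, f2, _⟩ := enc_facts (mk s % 4096) hlt
  have hcw : isCode (enc B12 (mk s % 4096)) = true := isCode_enc hlt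
  set cw := enc B12 (mk s % 4096) with hcwdef
  set r := mk s ^^^ cw with hr
  have hr1 : r % 4096 = 0 := by
    have : (4096 : ℕ) = 2 ^ 12 := by norm_num
    rw [hr, this, Nat.xor_mod_two_pow, ← this, f1, Nat.xor_self]
  have hr2 : r < 2 ^ 24 := Nat.xor_lt_two_pow hvlt (by norm_num; exact f2)
  have hrj : r = 4096 * (r / 4096) := by omega
  have hj : r / 4096 < 2 ^ 12 := by norm_num at hr2 ⊢; omega
  have hchk := forall_lt_of_allRange 12 _ cover _ hj
  rw [← hrj] at hchk
  simp only [Bool.and_eq_true, decide_eq_true_eq] at hchk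
  obtain ⟨k1, k2⟩ := hchk
  have hc2 := isCode_enc k2
  refine ⟨un (cw ^^^ enc B12 ((certLL.getD (r / 4096 / 64) []).getD (r / 4096 % 64) 0)),
    un (r ^^^ enc B12 ((certLL.getD (r / 4096 / 64) []).getD (r / 4096 % 64) 0)), ?_, ?_, ?_⟩
  · unfold inC; rw [mk_un (isCode_lt (isCode_xor hcw hc2))]; exact isCode_xor hcw hc2
  · rw [card_un]; exact k1
  · rw [← un_xor, hr, ← xor4, un_mk]

theorem two_of_small (h : Inv P) {e v : Finset GolayPt} (he1 : e ≠ ∅) (he4 : e.card ≤ 4)
    (hv : v = e ∨ v = symmDiff Finset.univ e) (hP : P v) : ∃ d : Finset GolayPt, d.card = 2 ∧ P d := by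
  obtain ⟨a, ha⟩ := Finset.nonempty_iff_ne_empty.2 he1
  obtain ⟨b, hb⟩ : ∃ b, b ∉ e := by
    by_contra hcon
    push_neg at hcon
    have : e = Finset.univ := Finset.eq_univ_iff_forall.2 hcon
    rw [this, Finset.card_univ, card_pts] at he4
    omega
  have hab : a ≠ b := fun e' => hb (e' ▸ ha)
  have hzc : (insert b (e.erase a)).card = e.card := by
    rw [Finset.card_insert_of_notMem (fun hh => hb (Finset.mem_of_mem_erase hh)), Finset.card_erase_of_mem ha]
    have := Finset.card_pos.2 ⟨a, ha⟩
    omega
  obtain ⟨g, hg, -, hgz⟩ := Small.exists_map_pair ∅ e (insert b (e.erase a)) hzc.symm (by simp)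
    (by rw [Finset.empty_union]; omega)
  refine ⟨symmDiff e (insert b (e.erase a)), ?_, ?_⟩
  · have : symmDiff e (insert b (e.erase a)) = {a, b} := by
      ext p
      simp only [Finset.mem_symmDiff, Finset.mem_insert, Finset.mem_erase, Finset.mem_singleton]
      by_cases h1 : p = a
      · subst h1; simp [ha, hab]
      · by_cases h2 : p = b
        · subst h2; simp [hb]
        · simp [h1, h2]
    rw [this, Finset.card_pair hab]
  · have p2 := h.add hP (h.smul hg hP)
    rcases hv with rfl | rfl
    · rwa [hgz] at p2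
    · rw [smul_symmDiff, Finset.smul_finset_univ, hgz] at p2
      have e3 : symmDiff (symmDiff Finset.univ e) (symmDiff Finset.univ (insert b (e.erase a))) =
          symmDiff e (insert b (e.erase a)) := by
        rw [symmDiff_comm Finset.univ e, symmDiff_assoc, symmDiff_symmDiff_cancel_left]
      rwa [e3] at p2

theorem even_of_two (h : Inv P) {d : Finset GolayPt} (hd : d.card = 2) (hP : P d) :
    ∀ t : Finset GolayPt, Even t.card → P t := by
  have hall : ∀ d' : Finset GolayPt, d'.card = 2 → P d' := by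
    intro d' hd'
    obtain ⟨g, hg, -, e⟩ := Small.exists_map_pair ∅ d d' (hd.trans hd'.symm) (by simp)
      (by rw [Finset.empty_union]; omega)
    exact e ▸ h.smul hg hP
  have key : ∀ n, ∀ t : Finset GolayPt, t.card = n → Even n → P t := by
    intro n
    induction n using Nat.strong_induction_on with
    | _ n ih =>
      intro t hn hev
      by_cases h0 : t = ∅
      · rw [h0]; exact h.empty
      · have h2 : 2 ≤ t.card := by
          have := Finset.card_pos.2 (Finset.nonempty_iff_ne_empty.2 h0)
          rcases hev with ⟨k, hk⟩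
          omega
        obtain ⟨d', hd't, hd'c⟩ := Finset.exists_subset_card_eq h2
        have e : t = symmDiff (t \ d') d' := by
          ext p
          simp only [Finset.mem_symmDiff, Finset.mem_sdiff]
          have := @hd't p
          tauto
        have hc : (t \ d').card = n - 2 := by
          rw [Finset.card_sdiff_of_subset hd't, hd'c, hn]
        rw [e]
        apply h.add _ (hall d' hd'c)
        apply ih (n - 2) (by omega) _ hc
        rcases hev with ⟨k, hk⟩
        exact ⟨k - 1, by omega⟩
  exact fun t ht => key _ t rfl ht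

theorem lemmaB (h : Inv P) {s : Finset GolayPt} (hP : P s) (hs : ¬ inC s) :
    ∀ t : Finset GolayPt, Even t.card → P t := by
  obtain ⟨c, e, hc, he4, rfl⟩ := cover_fin s
  have he0 : e ≠ ∅ := by
    intro h0
    apply hs
    rw [h0]
    show inC (symmDiff c ⊥)
    rw [symmDiff_bot]; exact hc
  obtain ⟨f, hef, hf4⟩ := Finset.exists_superset_card_eq he4 (by rw [card_pts]; norm_num)
  obtain ⟨k, hk, -, hkf⟩ := Small.exists_map_pair ∅ f (un F4) (by rw [hf4, card_un]; decide +kernel)
    (by simp) (by rw [Finset.empty_union]; omega)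
  have hP' : P (symmDiff (k • c) (k • e)) := by rw [← smul_symmDiff]; exact h.smul hk hP
  have hc' : inC (k • c) := (mem_M24_iff_forall k).1 hk c hc
  have he' : k • e ⊆ un F4 := by rw [← hkf]; exact Finset.smul_finset_subset_smul_finset hef
  have he0' : k • e ≠ ∅ := fun h0 => he0 (Finset.smul_finset_eq_empty.1 h0)
  have he4' : (k • e).card ≤ 4 := by rw [Finset.card_smul_finset]; exact he4
  generalize k • c = c' at *
  generalize k • e = e' at *
  have hv : ∃ v, (v = e' ∨ v = symmDiff Finset.univ e') ∧ P v := by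
    have chk := forall_isCode (P := fun x => (x == 0 || x == 16777215 || G4.any fun t =>
      (x ^^^ img t x != 0) && (x ^^^ img t x != 16777215)) = true) G4_move _ hc'
    simp only [Bool.or_eq_true, beq_iff_eq, List.any_eq_true, Bool.and_eq_true, bne_iff_ne, ne_eq] at chk
    rcases chk with (c0 | c1) | ⟨t, ht, n0, n1⟩
    · have e1 : c' = ∅ := by apply mk_injective; rw [c0, mk_empty]
      refine ⟨e', Or.inl rfl, ?_⟩
      rw [e1] at hP'
      have e2 : symmDiff (∅ : Finset GolayPt) e' = e' := bot_symmDiff e'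
      rwa [e2] at hP'
    · have e1 : c' = Finset.univ := by apply mk_injective; rw [c1, mk_univ]
      exact ⟨_, Or.inr rfl, e1 ▸ hP'⟩
    · obtain ⟨t1, t2⟩ := G4_ok t ht
      have hfix : permOf t • e' = e' := by
        rw [smul_finset_eq_image]
        conv_rhs => rw [← Finset.image_id (s := e')]
        apply Finset.image_congr
        intro p hp
        have hp' := mem_un.1 (he' hp)
        simp only [id]
        rw [permOf_apply (isTbl_of_inM24 t1), t2 _ (idx_lt p) hp', ptOf_idx]
      have p2 := h.add hP' (h.smul (permOf_mem_M24 t1) hP')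
      rw [smul_symmDiff, hfix] at p2
      have e3 : symmDiff (symmDiff c' e') (symmDiff (permOf t • c') e') = symmDiff c' (permOf t • c') := by
        rw [symmDiff_comm (permOf t • c') e', symmDiff_assoc, symmDiff_symmDiff_cancel_left]
      rw [e3] at p2
      have hx : inC (symmDiff c' (permOf t • c')) :=
        inC_symmDiff hc' ((mem_M24_iff_forall _).1 (permOf_mem_M24 t1) _ hc')
      have hmk : mk (symmDiff c' (permOf t • c')) = mk c' ^^^ img t (mk c') := by
        rw [mk_symmDiff, mk_permOf_smul (isTbl_of_inM24 t1)]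
      have hall := lemmaA h hx p2 (fun h0 => n0 (by rw [← hmk, h0, mk_empty]))
        (fun h0 => n1 (by rw [← hmk, h0, mk_univ]))
      refine ⟨e', Or.inl rfl, ?_⟩
      have p3 := h.add (hall c' hc') hP'
      rwa [symmDiff_symmDiff_cancel_left] at p3
  obtain ⟨v, hv1, hv2⟩ := hv
  obtain ⟨d, hd, hPd⟩ := two_of_small h he0' he4' hv1 hv2
  exact even_of_two h hd hPd

theorem classify (h : Inv P) :
    (∀ s, P s ↔ s = ∅) ∨ (∀ s, P s ↔ s = ∅ ∨ s = Finset.univ) ∨ (∀ s, P s ↔ inC s) ∨
      (∀ s, P s ↔ Even s.card) ∨ ∀ s, P s := by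
  by_cases h1 : ∃ s, P s ∧ ¬ inC s
  · obtain ⟨s, hs, hn⟩ := h1
    have hev := lemmaB h hs hn
    by_cases h2 : ∃ u, P u ∧ ¬ Even u.card
    · obtain ⟨u, hu, hodd⟩ := h2
      right; right; right; right
      intro t
      by_cases ht : Even t.card
      · exact hev t ht
      · have h3 : Even (symmDiff t u).card := by
          have := card_symmDiff_add t u
          rw [Nat.not_even_iff_odd] at ht hodd
          obtain ⟨a, ha⟩ := ht
          obtain ⟨b, hb⟩ := hodd
          exact ⟨a + b + 1 - (t ∩ u).card, by omega⟩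
        have p := h.add (hev _ h3) hu
        rwa [symmDiff_symmDiff_cancel_right] at p
    · push_neg at h2
      right; right; right; left
      exact fun s => ⟨h2 s, hev s⟩
  · push_neg at h1
    by_cases h2 : ∃ x, P x ∧ x ≠ ∅ ∧ x ≠ Finset.univ
    · obtain ⟨x, hx, x0, x1⟩ := h2
      right; right; left
      exact fun s => ⟨h1 s, lemmaA h (h1 x hx) hx x0 x1 s⟩
    · push_neg at h2
      by_cases h3 : P Finset.univ
      · right; left
        intro s
        constructor
        · intro hs
          by_cases h0 : s = ∅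
          · exact Or.inl h0
          · exact Or.inr (h2 s hs (Finset.nonempty_iff_ne_empty.2 h0))
        · rintro (rfl | rfl)
          · exact h.empty
          · exact h3
      · left
        intro s
        constructor
        · intro hs
          by_contra h0
          exact h3 (h2 s hs (Finset.nonempty_iff_ne_empty.2 h0) ▸ hs)
        · rintro rfl
          exact h.empty

theorem sum_wordOf (s : Finset GolayPt) : ∑ p, wordOf s p = (s.card : ZMod 2) := by
  unfold wordOf
  rw [Finset.sum_boole, Finset.filter_mem_eq_inter, Finset.univ_inter]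

theorem main (W : Submodule (ZMod 2) (GolayPt → ZMod 2))
    (hW : ∀ σ ∈ M24, ∀ w ∈ W, (fun p => w (σ.symm p)) ∈ W) :
    W = ⊥ ∨ W = Submodule.span (ZMod 2) {fun _ => (1 : ZMod 2)} ∨ W = golayCode ∨
      (W : Set (GolayPt → ZMod 2)) = {w | ∑ p, w p = 0} ∨ W = ⊤ := by
  have h : Inv (fun s => wordOf s ∈ W) :=
    ⟨by rw [wordOf_empty]; exact W.zero_mem, fun hs ht => by rw [wordOf_symmDiff]; exact W.add_mem hs ht,
     fun {g} hg {s} hs => by rw [← CocodeFix.wordOf_smul]; exact hW g hg _ hs⟩
  have hmem : ∀ w, w ∈ W ↔ wordOf (support₂ w) ∈ W := fun w => by rw [wordOf_support₂]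
  rcases classify h with h1 | h1 | h1 | h1 | h1
  · left
    rw [eq_bot_iff]
    intro w hw
    have := (h1 _).1 ((hmem w).1 hw)
    rw [Submodule.mem_bot, ← wordOf_support₂ w, this, wordOf_empty]
  · right; left
    ext w
    rw [hmem, h1, Submodule.mem_span_singleton]
    constructor
    · rintro (h0 | h0)
      · exact ⟨0, by rw [zero_smul, ← wordOf_support₂ w, h0, wordOf_empty]⟩
      · refine ⟨1, ?_⟩
        rw [one_smul, ← wordOf_support₂ w, h0, wordOf_univ]; rfl
    · rintro ⟨a, rfl⟩
      have ha : a = 0 ∨ a = 1 := by revert a; decide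
      rcases ha with rfl | rfl
      · left; rw [zero_smul, support₂_zero]
      · right
        rw [one_smul]
        have : (fun _ => 1 : GolayPt → ZMod 2) = wordOf Finset.univ := by rw [wordOf_univ]; rfl
        rw [this, support₂_wordOf]
  · right; right; left
    ext w
    rw [hmem, h1]
    unfold inC
    rw [← wordOf_mem_iff, wordOf_support₂]
  · right; right; right; left
    ext w
    rw [SetLike.mem_coe, hmem, h1, Set.mem_setOf_eq]
    conv_rhs => rw [← wordOf_support₂ w, sum_wordOf]
    exact (ZMod.natCast_eq_zero_iff_even).symm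
  · right; right; right; right
    rw [eq_top_iff]
    intro w _
    rw [hmem]; exact h1 _

end Cfsg.Agent.Lib.Helper3.InvSub
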