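import Mathlib

/-!
# A numerical criterion for maximality of a point stabiliser

If the suborbits of `G` on the orbit of `x` are known (class function `c`, sizes `sz`) and no
proper partial sum of the sizes containing the trivial suborbit divides the degree, then the
stabiliser of `x` is a maximal subgroup.
-/

namespace Cfsg.Agent.Lib.Helper3.Maximal

open MulAction

theorem ncard_classes {X : Type*} (Ω : Set X) (hfin : Ω.Finite) (c : X → ℕ) (sz : ℕ → ℕ)
    (S : Finset ℕ) (hsz : ∀ i ∈ S, {y | y ∈ Ω ∧ c y = i}.ncard = sz i) :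
    {y | y ∈ Ω ∧ c y ∈ S}.ncard = ∑ i ∈ S, sz i := by
  classical
  have hfin' : {y | y ∈ Ω ∧ c y ∈ S}.Finite := hfin.subset (fun y hy => hy.1)
  rw [Set.ncard_eq_toFinset_card _ hfin']
  rw [Finset.card_eq_sum_card_fiberwise (f := c) (t := S)]
  · apply Finset.sum_congr rfl
    intro i hi
    rw [← hsz i hi, ← Set.ncard_coe_finset]
    congr 1
    ext y
    simp only [Finset.coe_filter, Set.Finite.mem_toFinset, Set.mem_ofPred_eq]
    constructor
    · rintro ⟨⟨h1, _⟩, h3⟩
      exact ⟨h1, h3⟩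
    · rintro ⟨h1, h3⟩
      exact ⟨⟨h1, h3 ▸ hi⟩, h3⟩
  · intro y hy
    have := (Set.Finite.mem_toFinset hfin').1 hy
    exact this.2

theorem isCoatom_stabilizer {G X : Type*} [Group G] [Finite G] [MulAction G X] (x : X)
    (Ω : Set X) (hΩ : ∀ y, y ∈ Ω ↔ ∃ g : G, g • x = y)
    (k : ℕ) (c : X → ℕ) (sz : ℕ → ℕ)
    (hc : ∀ y ∈ Ω, c y < k)
    (hsz : ∀ i < k, {y | y ∈ Ω ∧ c y = i}.ncard = sz i)
    (h0 : ∀ y ∈ Ω, c y = 0 → y = x)
    (hx0 : c x = 0)
    (htr : ∀ y ∈ Ω, ∀ z ∈ Ω, c y = c z → ∃ g : G, g • x = x ∧ g • y = z)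
    (hk : 1 < k) (hpos : 0 < sz 1)
    (hnum : ∀ S ∈ (Finset.range k).powerset, 0 ∈ S →
      (∑ i ∈ S, sz i) ∣ (∑ i ∈ Finset.range k, sz i) → S = {0} ∨ S = Finset.range k) :
    IsCoatom (stabilizer G x) := by
  classical
  have hΩo : Ω = orbit G x := by
    ext y
    rw [hΩ, mem_orbit_iff]
  have hfin : Ω.Finite := by
    rw [hΩo]
    exact Set.finite_range _
  have hxΩ : x ∈ Ω := (hΩ x).2 ⟨1, one_smul _ _⟩
  constructor
  · intro htop
    have h1 : {y | y ∈ Ω ∧ c y = 1}.ncard ≠ 0 := by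
      rw [hsz 1 hk]; omega
    have hne : {y | y ∈ Ω ∧ c y = 1}.Nonempty := by
      by_contra hcon
      rw [Set.not_nonempty_iff_eq_empty] at hcon
      rw [hcon] at h1
      simp at h1
    obtain ⟨y, hy, hcy⟩ := hne
    obtain ⟨g, rfl⟩ := (hΩ y).1 hy
    have hg : g ∈ stabilizer G x := by rw [htop]; trivial
    rw [mem_stabilizer_iff] at hg
    rw [hg, hx0] at hcy
    omega
  · intro H hH
    have hle : stabilizer G x ≤ H := hH.le
    set B : Set X := {y | ∃ h ∈ H, h • x = y} with hB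
    have hBΩ : B ⊆ Ω := by
      rintro y ⟨h, _, rfl⟩
      exact (hΩ _).2 ⟨h, rfl⟩
    set S : Finset ℕ := (Finset.range k).filter (fun i => ∃ y ∈ B, c y = i) with hS
    have hBS : B = {y | y ∈ Ω ∧ c y ∈ S} := by
      ext y
      constructor
      · intro hy
        refine ⟨hBΩ hy, ?_⟩
        rw [hS, Finset.mem_filter, Finset.mem_range]
        exact ⟨hc y (hBΩ hy), y, hy, rfl⟩
      · rintro ⟨hy, hcy⟩
        rw [hS, Finset.mem_filter] at hcy
        obtain ⟨_, y', hy', hcy'⟩ := hcy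
        obtain ⟨g, hgx, hgy⟩ := htr y' (hBΩ hy') y hy hcy'
        obtain ⟨h, hh, rfl⟩ := hy'
        refine ⟨g * h, H.mul_mem (hle (mem_stabilizer_iff.2 hgx)) hh, ?_⟩
        rw [mul_smul, hgy]
    have hSsub : S ⊆ Finset.range k := Finset.filter_subset _ _
    have hBcard : B.ncard = ∑ i ∈ S, sz i := by
      rw [hBS]
      exact ncard_classes Ω hfin c sz S (fun i hi => hsz i (Finset.mem_range.1 (hSsub hi)))
    have hΩcard : Ω.ncard = ∑ i ∈ Finset.range k, sz i := by
      have : Ω = {y | y ∈ Ω ∧ c y ∈ Finset.range k} := by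
        ext y
        constructor
        · intro hy
          exact ⟨hy, Finset.mem_range.2 (hc y hy)⟩
        · intro hy
          exact hy.1
      rw [this]
      exact ncard_classes Ω hfin c sz _ (fun i hi => hsz i (Finset.mem_range.1 hi))
    have hBorb : B = orbit H x := by
      ext y
      rw [mem_orbit_iff]
      constructor
      · rintro ⟨h, hh, rfl⟩
        exact ⟨⟨h, hh⟩, rfl⟩
      · rintro ⟨⟨h, hh⟩, rfl⟩
        exact ⟨h, hh, rfl⟩
    have hdvd : B.ncard ∣ Ω.ncard := by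
      rw [hBorb, hΩo, ← index_stabilizer, ← index_stabilizer]
      have h1 : stabilizer H x = (stabilizer G x).subgroupOf H := by
        ext h
        rw [mem_stabilizer_iff, Subgroup.mem_subgroupOf, mem_stabilizer_iff]
        rfl
      rw [h1]
      exact ⟨H.index, (Subgroup.relIndex_mul_index hle).symm⟩
    have h0S : 0 ∈ S := by
      rw [hS, Finset.mem_filter, Finset.mem_range]
      exact ⟨by omega, x, ⟨1, H.one_mem, one_smul _ _⟩, hx0⟩
    rw [hBcard, hΩcard] at hdvd
    rcases hnum S (Finset.mem_powerset.2 hSsub) h0S hdvd with hS0 | hSk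
    · exfalso
      apply hH.not_ge
      intro h hh
      have : h • x ∈ B := ⟨h, hh, rfl⟩
      rw [hBS] at this
      obtain ⟨h1, h2⟩ := this
      rw [hS0, Finset.mem_singleton] at h2
      exact mem_stabilizer_iff.2 (h0 _ h1 h2)
    · rw [eq_top_iff]
      intro g _
      have hg : g • x ∈ B := by
        rw [hBS]
        have h1 : g • x ∈ Ω := (hΩ _).2 ⟨g, rfl⟩
        exact ⟨h1, by rw [hSk]; exact Finset.mem_range.2 (hc _ h1)⟩
      obtain ⟨h, hh, hhx⟩ := hg
      have : h⁻¹ * g ∈ stabilizer G x := by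
        rw [mem_stabilizer_iff, mul_smul, ← hhx, inv_smul_smul]
      have h2 := H.mul_mem hh (hle this)
      rwa [mul_inv_cancel_left] at h2

end Cfsg.Agent.Lib.Helper3.Maximal
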