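import Mathlib
import Cfsg.Agent.Lib.Helper3.Maximal

/-!
# Maximality of a point stabiliser from a list of suborbits of pairwise distinct sizes
-/

namespace Cfsg.Agent.Lib.Helper3.Maximal

open MulAction

theorem isCoatom_of_suborbits {G X : Type*} [Group G] [Finite G] [MulAction G X] (x : X)
    (k : ℕ) (Y : ℕ → X) (sz : ℕ → ℕ)
    (hcover : ∀ g : G, ∃ i < k, g • x ∈ orbit ↥(stabilizer G x) (Y i))
    (hY : ∀ i < k, Y i ∈ orbit G x)
    (hsz : ∀ i < k, (orbit ↥(stabilizer G x) (Y i)).ncard = sz i)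
    (hinj : ∀ i < k, ∀ j < k, sz i = sz j → i = j)
    (h0 : Y 0 = x) (hk : 1 < k)
    (hnum : ∀ S ∈ (Finset.range k).powerset, 0 ∈ S →
      (∑ i ∈ S, sz i) ∣ (∑ i ∈ Finset.range k, sz i) → S = {0} ∨ S = Finset.range k) :
    IsCoatom (stabilizer G x) := by
  classical
  set O : ℕ → Set X := fun i => orbit ↥(stabilizer G x) (Y i) with hO
  have hA : ∀ i < k, ∀ j < k, ∀ y, y ∈ O i → y ∈ O j → i = j := by
    intro i hi j hj y hyi hyj
    apply hinj i hi j hj
    rw [← hsz i hi, ← hsz j hj]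
    have e1 : orbit ↥(stabilizer G x) y = orbit ↥(stabilizer G x) (Y i) := orbit_eq_iff.2 hyi
    have e2 : orbit ↥(stabilizer G x) y = orbit ↥(stabilizer G x) (Y j) := orbit_eq_iff.2 hyj
    rw [← e1, e2]
  set c : X → ℕ := fun y => if h : ∃ i, i < k ∧ y ∈ O i then Nat.find h else k with hc
  have hcy : ∀ i < k, ∀ y ∈ O i, c y = i := by
    intro i hi y hy
    have h : ∃ i, i < k ∧ y ∈ O i := ⟨i, hi, hy⟩
    have h1 : c y = Nat.find h := by rw [hc]; exact dif_pos h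
    rw [h1]
    exact hA _ (Nat.find_spec h).1 i hi y (Nat.find_spec h).2 hy
  have hOsub : ∀ i < k, ∀ y ∈ O i, y ∈ orbit G x := by
    rintro i hi _ ⟨a, rfl⟩
    obtain ⟨g, hg⟩ := hY i hi
    refine ⟨a.1 * g, ?_⟩
    change (a.1 * g) • x = a.1 • Y i
    have hg' : g • x = Y i := hg
    rw [mul_smul, hg']
  have hcov : ∀ y ∈ orbit G x, ∃ i < k, y ∈ O i := by
    rintro _ ⟨g, rfl⟩
    exact hcover g
  have hcls : ∀ i < k, {y | y ∈ orbit G x ∧ c y = i} = O i := by
    intro i hi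
    ext y
    constructor
    · rintro ⟨hy, hcyi⟩
      obtain ⟨j, hj, hyj⟩ := hcov y hy
      rw [hcy j hj y hyj] at hcyi
      rw [← hcyi]
      exact hyj
    · intro hy
      exact ⟨hOsub i hi y hy, hcy i hi y hy⟩
  have hxO : x ∈ O 0 := by
    have : x ∈ orbit ↥(stabilizer G x) x := mem_orbit_self x
    rw [hO]
    simp only
    rw [h0]
    exact this
  refine isCoatom_stabilizer x (orbit G x) (fun y => Iff.rfl) k c sz ?_ ?_ ?_ ?_ ?_ hk ?_ hnum
  · intro y hy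
    obtain ⟨i, hi, hyi⟩ := hcov y hy
    rw [hcy i hi y hyi]
    exact hi
  · intro i hi
    rw [hcls i hi]
    exact hsz i hi
  · intro y hy hcy0
    have : y ∈ O 0 := by
      rw [← hcls 0 (by omega)]
      exact ⟨hy, hcy0⟩
    rw [hO] at this
    simp only at this
    rw [h0] at this
    obtain ⟨a, rfl⟩ := this
    exact a.2
  · exact hcy 0 (by omega) x hxO
  · intro y hy z hz hyz
    obtain ⟨i, hi, hyi⟩ := hcov y hy
    obtain ⟨j, hj, hzj⟩ := hcov z hz
    rw [hcy i hi y hyi, hcy j hj z hzj] at hyz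
    subst hyz
    obtain ⟨a, rfl⟩ := hyi
    obtain ⟨b, rfl⟩ := hzj
    refine ⟨b.1 * a.1⁻¹, ?_, ?_⟩
    · have ha : a.1 • x = x := a.2
      have hb : b.1 • x = x := b.2
      rw [mul_smul, inv_smul_eq_iff.2 ha.symm, hb]
    · change (b.1 * a.1⁻¹) • (a.1 • Y i) = b.1 • Y i
      rw [mul_smul, inv_smul_smul]
  · rw [← hsz 1 hk]
    have hf : (orbit ↥(stabilizer G x) (Y 1)).Finite := Set.finite_range _
    rw [Set.ncard_pos hf]
    exact ⟨Y 1, mem_orbit_self _⟩

end Cfsg.Agent.Lib.Helper3.Maximal
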