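import Mathlib
import Cfsg.Agent.Lib.Helper3.Norm7A

/-!
# The normaliser of a subgroup of order seven of `M24`
-/

set_option autoImplicit false

namespace Cfsg.Agent.Lib.Helper3.Norm7

open MulAction Cfsg Cfsg.Agent.Lib.Helper28 Cfsg.Agent.Lib.Helper3.M24T Cfsg.Agent.Lib.Helper3.M24Gen
  Cfsg.Agent.Lib.Helper3.OctStab Cfsg.Agent.Lib.Helper3.Cent2B
open scoped Pointwise

/-! ### generalities -/

theorem conj_of_card_prime {G : Type*} [Group G] [Finite G] {p : ℕ} [hp : Fact p.Prime]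
    (hp2 : ¬ p ^ 2 ∣ Nat.card G) (A B : Subgroup G) (hA : Nat.card A = p) (hB : Nat.card B = p) :
    ∃ g : G, ∀ a, a ∈ A ↔ g * a * g⁻¹ ∈ B := by
  have hdvd : p ∣ Nat.card G := hA ▸ Subgroup.card_subgroup_dvd_card _
  have hfac : (Nat.card G).factorization p = 1 := by
    have h1 : 0 < (Nat.card G).factorization p :=
      hp.out.factorization_pos_of_dvd Nat.card_pos.ne' hdvd
    have h2 : ¬ 2 ≤ (Nat.card G).factorization p := by
      intro h
      exact hp2 ((hp.out.pow_dvd_iff_le_factorization Nat.card_pos.ne').2 h)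
    omega
  let P : Sylow p G := Sylow.ofCard A (by rw [hA, hfac, pow_one])
  let Q : Sylow p G := Sylow.ofCard B (by rw [hB, hfac, pow_one])
  have hP : (P : Subgroup G) = A := Sylow.coe_ofCard _ _
  have hQ : (Q : Subgroup G) = B := Sylow.coe_ofCard _ _
  obtain ⟨g, hg⟩ := MulAction.exists_smul_eq G P Q
  refine ⟨g, fun a => ?_⟩
  have h1 : g * a * g⁻¹ ∈ B ↔ g * a * g⁻¹ ∈ MulAut.conj g • (P : Subgroup G) := by
    rw [← hQ, ← hg, Sylow.smul_def]; rfl
  rw [h1, Subgroup.mem_pointwise_smul_iff_inv_smul_mem, hP]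
  have h4 : (MulAut.conj g)⁻¹ • (g * a * g⁻¹) = a := by
    rw [MulAut.smul_def, ← map_inv, MulAut.conj_apply, inv_inv]; group
  rw [h4]

theorem normalizer_conj {G : Type*} [Group G] {A B : Subgroup G} {k : G}
    (h : ∀ a, a ∈ A ↔ k * a * k⁻¹ ∈ B) (n : G) :
    n ∈ Subgroup.normalizer (A : Set G) ↔ k * n * k⁻¹ ∈ Subgroup.normalizer (B : Set G) := by
  rw [Subgroup.mem_normalizer_iff, Subgroup.mem_normalizer_iff]
  constructor
  · intro hn b
    have e1 : b = k * (k⁻¹ * b * k) * k⁻¹ := by group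
    have e2 : k * n * k⁻¹ * b * (k * n * k⁻¹)⁻¹ = k * (n * (k⁻¹ * b * k) * n⁻¹) * k⁻¹ := by group
    rw [e2]
    conv_lhs => rw [e1]
    exact ((h _).symm.trans (hn _)).trans (h _)
  · intro hn a
    have e2 : k * n * k⁻¹ * (k * a * k⁻¹) * (k * n * k⁻¹)⁻¹ = k * (n * a * n⁻¹) * k⁻¹ := by group
    have := hn (k * a * k⁻¹)
    rw [e2] at this
    exact ((h _).trans this).trans (h _).symm

theorem centralizer_conj {G : Type*} [Group G] {A B : Subgroup G} {k : G}
    (h : ∀ a, a ∈ A ↔ k * a * k⁻¹ ∈ B) (n : G) :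
    n ∈ Subgroup.centralizer (A : Set G) ↔ k * n * k⁻¹ ∈ Subgroup.centralizer (B : Set G) := by
  rw [Subgroup.mem_centralizer_iff, Subgroup.mem_centralizer_iff]
  constructor
  · intro hn b hb
    have e1 : b = k * (k⁻¹ * b * k) * k⁻¹ := by group
    have hb' : k⁻¹ * b * k ∈ A := by rw [h, ← e1]; exact hb
    have := hn _ hb'
    calc b * (k * n * k⁻¹) = k * ((k⁻¹ * b * k) * n) * k⁻¹ := by group
      _ = k * (n * (k⁻¹ * b * k)) * k⁻¹ := by rw [this]
      _ = _ := by group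
  · intro hn a ha
    have := hn _ ((h a).1 ha)
    have e : k * (a * n) * k⁻¹ = k * (n * a) * k⁻¹ := by
      calc k * (a * n) * k⁻¹ = k * a * k⁻¹ * (k * n * k⁻¹) := by group
        _ = k * n * k⁻¹ * (k * a * k⁻¹) := this
        _ = _ := by group
    exact mul_left_cancel (mul_right_cancel e)

/-! ### the group of order seven -/

/-- the group of order seven. -/
def P0 : Subgroup (Equiv.Perm GolayPt) where
  carrier := {p | tblOf p ∈ PW7}
  mul_mem' := by
    intro a b ha hb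
    show tblOf (a * b) ∈ PW7
    rw [tblOf_mul]
    exact PW7_mul _ ha _ hb
  one_mem' := by
    show tblOf 1 ∈ PW7
    rw [tblOf_one]; exact PW7_one
  inv_mem' := by
    intro a ha
    show tblOf a⁻¹ ∈ PW7
    obtain ⟨z, hz, e⟩ := PW7_inv _ ha
    have hzT := isTbl_of_inM24 (PW7_ok z hz)
    have h1 : a * permOf z = 1 := by
      apply tblOf_injective
      rw [tblOf_mul, tblOf_permOf hzT, e, tblOf_one]
    rw [inv_eq_of_mul_eq_one_right h1, tblOf_permOf hzT]
    exact hz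

theorem mem_P0 {p : Equiv.Perm GolayPt} : p ∈ P0 ↔ tblOf p ∈ PW7 := Iff.rfl

theorem permOf_mem_P0 {y : List ℕ} (hy : y ∈ PW7) : permOf y ∈ P0 := by
  rw [mem_P0, tblOf_permOf (isTbl_of_inM24 (PW7_ok y hy))]; exact hy

theorem P0_le : P0 ≤ M24 := by
  intro p hp
  rw [← permOf_tblOf p]
  exact permOf_mem_M24 (PW7_ok _ hp)

theorem card_P0 : Nat.card P0 = 7 := by
  rw [FusEnum2.card_eq_length (P := PW7) (fun _ h => h)
    (fun t ht => ⟨isTbl_of_inM24 (PW7_ok t ht), permOf_mem_P0 ht⟩) PW7_nodup]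
  rfl

/-- the normaliser in `M24`. -/
def NP : Subgroup (Equiv.Perm GolayPt) := M24 ⊓ Subgroup.normalizer (P0 : Set (Equiv.Perm GolayPt))

/-- the centraliser in `M24`. -/
def CP : Subgroup (Equiv.Perm GolayPt) := M24 ⊓ Subgroup.centralizer (P0 : Set (Equiv.Perm GolayPt))

theorem CP_le : CP ≤ NP := by
  intro c hc
  refine ⟨hc.1, ?_⟩
  apply Subgroup.mem_normalizer_fintype
  intro p hp
  have := (Subgroup.mem_centralizer_iff.1 hc.2) p hp
  have e : c * p * c⁻¹ = p := by rw [← this]; group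
  rw [e]; exact hp

theorem good_cen {c : List ℕ} (h : cen c = true) : isTbl c = true ∧ permOf c ∈ CP := by
  simp only [cen, Bool.and_eq_true, List.all_eq_true, beq_iff_eq] at h
  obtain ⟨h1, h2⟩ := h
  have hT := isTbl_of_inM24 h1
  refine ⟨hT, permOf_mem_M24 h1, ?_⟩
  change permOf c ∈ Subgroup.centralizer (P0 : Set (Equiv.Perm GolayPt))
  rw [Subgroup.mem_centralizer_iff]
  intro p hp
  apply tblOf_injective
  rw [tblOf_mul, tblOf_mul, tblOf_permOf hT]
  exact (h2 _ hp).symm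

theorem good_nor {c : List ℕ} (h : nor c = true) : isTbl c = true ∧ permOf c ∈ NP := by
  simp only [nor, Bool.and_eq_true, List.all_eq_true, List.any_eq_true, beq_iff_eq] at h
  obtain ⟨h1, h2⟩ := h
  have hT := isTbl_of_inM24 h1
  refine ⟨hT, permOf_mem_M24 h1, ?_⟩
  apply Subgroup.mem_normalizer_fintype
  intro p hp
  obtain ⟨z, hz, e⟩ := h2 _ hp
  have e2 : permOf c * p = permOf z * permOf c := by
    apply tblOf_injective
    rw [tblOf_mul, tblOf_mul, tblOf_permOf hT, tblOf_permOf (isTbl_of_inM24 (PW7_ok z hz))]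
    exact e
  have e3 : permOf c * p * (permOf c)⁻¹ = permOf z := by rw [e2]; group
  rw [e3]; exact permOf_mem_P0 hz

/-- the conjugate of the generator. -/
theorem conj_gen {n : Equiv.Perm GolayPt} (hn : n ∈ NP) :
    ∃ y ∈ PW7, y ≠ idT ∧ n * permOf X0 = permOf y * n := by
  have h1 := (Subgroup.mem_normalizer_iff.1 hn.2 (permOf X0)).1 (permOf_mem_P0 X0_mem)
  refine ⟨_, h1, ?_, ?_⟩
  · intro e
    have e1 : n * permOf X0 * n⁻¹ = 1 := by
      apply tblOf_injective; rw [e, tblOf_one]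
    have e2 : permOf X0 = 1 := by
      have : permOf X0 = n⁻¹ * (n * permOf X0 * n⁻¹) * n := by group
      rw [this, e1]; group
    apply X0_ne
    rw [← tblOf_permOf (isTbl_of_inM24 (PW7_ok _ X0_mem)), e2, tblOf_one]
  · rw [permOf_tblOf]; group

theorem fixSet_X0 : fixSet (permOf X0) = un mFix := by
  rw [fixSet_permOf (PW7_ok _ X0_mem)]
  rcases PW7_fix _ X0_mem with h | h
  · exact absurd h X0_ne
  · rw [h]

/-- the normaliser permutes the fixed points. -/
theorem map_fix {n : Equiv.Perm GolayPt} (hn : n ∈ NP) {p : GolayPt} (hp : p ∈ un mFix) : n p ∈ un mFix := by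
  obtain ⟨y, hy, hy1, e⟩ := conj_gen hn
  have h1 : fixSet (permOf y) = un mFix := by
    rw [fixSet_permOf (PW7_ok _ hy)]
    rcases PW7_fix _ hy with h | h
    · exact absurd h hy1
    · rw [h]
  rw [← h1, mem_fixSet]
  rw [← fixSet_X0, mem_fixSet] at hp
  have := congrArg (fun f : Equiv.Perm GolayPt => f p) e
  simp only [Equiv.Perm.mul_apply, hp] at this
  exact this.symm

/-! ### the trio -/

theorem smul_O3 {n : Equiv.Perm GolayPt} (hn : n ∈ NP) {m : ℕ} (hm : m ∈ O3) : mk (n • un m) ∈ O3 := by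
  obtain ⟨h1, h2, h3⟩ := O3_ok m hm
  have ho := smul_mem_octads hn.1 (un_mem_octads h1)
  obtain ⟨hc, hp⟩ := (mem_octads_iff _).1 ho
  have h4 := forall_isCode (P := fun m => (!(popc m == 8 && img X0 m == m) || O3.contains m) = true)
    O3_all _ hc
  have hX := isTbl_of_inM24 (PW7_ok _ X0_mem)
  have h5 : img X0 (mk (n • un m)) = mk (n • un m) := by
    rw [← mk_permOf_smul hX]
    congr 1
    obtain ⟨y, hy, -, e⟩ := conj_gen (NP.inv_mem hn)
    have e2 : permOf X0 * n = n * permOf y := by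
      have : n * (n⁻¹ * permOf X0) * n = n * (permOf y * n⁻¹) * n := by rw [e]
      simpa [mul_assoc] using this
    rw [← mul_smul, e2, mul_smul, permOf_smul_un (isTbl_of_inM24 (PW7_ok _ hy)) h2, h3 y hy]
  simpa [hp, h5] using h4

/-- the trio. -/
def T0 : Finset (Finset GolayPt) := (O3.map un).toFinset

theorem card_T0 : T0.card = 3 := by
  unfold T0
  rw [List.toFinset_card_of_nodup, List.length_map]
  · rfl
  · apply List.Nodup.map_on _ O3_nodup
    intro a ha b hb e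
    rw [← mk_un (O3_ok a ha).2.1, e, mk_un (O3_ok b hb).2.1]

theorem mem_T0 {o : Finset GolayPt} : o ∈ T0 ↔ ∃ m ∈ O3, un m = o := by
  unfold T0
  rw [List.mem_toFinset, List.mem_map]

theorem T0_mem : T0 ∈ trios := by
  refine ⟨card_T0, ?_, ?_⟩
  · intro o ho
    obtain ⟨m, hm, rfl⟩ := mem_T0.1 ho
    exact un_mem_octads (O3_ok m hm).1
  · intro o ho o' ho' hne
    obtain ⟨m, hm, rfl⟩ := mem_T0.1 ho
    obtain ⟨m', hm', rfl⟩ := mem_T0.1 ho'
    rw [disjoint_iff_land, mk_un (O3_ok m hm).2.1, mk_un (O3_ok m' hm').2.1]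
    exact O3_disj m hm m' hm' (fun e => hne (by rw [e]))

theorem smul_T0 {n : Equiv.Perm GolayPt} (hn : n ∈ NP) : n • T0 = T0 := by
  apply Finset.eq_of_subset_of_card_le
  · intro o ho
    obtain ⟨o', ho', rfl⟩ := Finset.mem_smul_finset.1 ho
    obtain ⟨m, hm, rfl⟩ := mem_T0.1 ho'
    exact mem_T0.2 ⟨_, smul_O3 hn hm, un_mk _⟩
  · rw [Finset.card_smul_finset]

/-! ### the orders -/

theorem pt_mem {m j : ℕ} (hj : j < 24) : ptOf j ∈ un m ↔ m.testBit j = true := by
  rw [mem_un, idx_ptOf hj]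

theorem chain (H : Subgroup (Equiv.Perm GolayPt)) (hle : H ≤ NP) (hge : CP ≤ H) :
    Nat.card H = 42 * Nat.card (H ⊓ stabilizer (Equiv.Perm GolayPt) (ptOf 23) ⊓
      stabilizer (Equiv.Perm GolayPt) (ptOf 0) ⊓ stabilizer (Equiv.Perm GolayPt) (ptOf 2) :
        Subgroup (Equiv.Perm GolayPt)) := by
  have hst : ∀ (K : Subgroup (Equiv.Perm GolayPt)) (x : GolayPt) (g : Equiv.Perm GolayPt),
      g ∈ K ⊓ stabilizer (Equiv.Perm GolayPt) x ↔ g ∈ K ∧ g x = x := by
    intro K x g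
    rw [Subgroup.mem_inf, mem_stabilizer_iff]; rfl
  have f23 : ptOf 23 ∈ un mFix := (pt_mem (by decide)).2 (by decide)
  have f0 : ptOf 0 ∈ un mFix := (pt_mem (by decide)).2 (by decide)
  rw [card_of_orbit H _ (ptOf 23) (un mFix) (hst H _) ?_ ?_,
    card_of_orbit (H ⊓ stabilizer (Equiv.Perm GolayPt) (ptOf 23)) _ (ptOf 0) (un mFix2) (hst _ _) ?_ ?_,
    card_of_orbit (H ⊓ stabilizer (Equiv.Perm GolayPt) (ptOf 23) ⊓ stabilizer (Equiv.Perm GolayPt) (ptOf 0))
      _ (ptOf 2) (un mCyc) (hst _ _) ?_ ?_, card_un, card_un, card_un, pops.1, pops.2.1, pops.2.2,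
      ← mul_assoc, ← mul_assoc]
  · norm_num
  · -- the orbit of the point 2
    intro g hg
    obtain ⟨hg1, h0⟩ := (hst _ _ _).1 hg
    obtain ⟨hg2, h23⟩ := (hst _ _ _).1 hg1
    have hn := hle hg2
    have h1 := smul_O3 hn m2_mem
    have h2 : (mk (g • un m2)).testBit 0 = true := by
      have : ptOf 0 ∈ g • un m2 := by
        have := (mem_smul_finset_iff g (un m2) (ptOf 0)).2 ((pt_mem (by decide)).2 m2_f.1)
        rwa [h0] at this
      rw [mem_iff_testBit, idx_ptOf (by decide)] at this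
      exact this
    have h3 := m2_uniq _ h1 h2
    have h4 : g (ptOf 2) ∈ un m2 := by
      have := (mem_smul_finset_iff g (un m2) (ptOf 2)).2 ((pt_mem (by decide)).2 m2_f.2)
      rwa [← un_mk (g • un m2), h3] at this
    rw [mem_un] at h4 ⊢
    apply m2_spec _ (idx_lt _) h4
    intro e
    have e1 : g (ptOf 2) = ptOf 0 := by rw [← ptOf_idx (g (ptOf 2)), e]
    rw [← h0] at e1
    have := congrArg idx (g.injective e1)
    rw [idx_ptOf (by decide), idx_ptOf (by decide)] at this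
    exact absurd this (by decide)
  · intro y hy
    rw [mem_un] at hy
    obtain ⟨c, hc, e⟩ := PW7_cov _ (idx_lt y) hy
    obtain ⟨h1, h2, h3⟩ := PW7_cen c hc
    obtain ⟨hT, hC⟩ := good_cen h1
    refine ⟨permOf c, (hst _ _ _).2 ⟨(hst _ _ _).2 ⟨hge hC, ?_⟩, ?_⟩, ?_⟩
    · rw [permOf_apply hT, idx_ptOf (by decide), h2]
    · rw [permOf_apply hT, idx_ptOf (by decide), h3]
    · rw [permOf_apply hT, idx_ptOf (by decide), e, ptOf_idx]
  · -- the orbit of the point 0
    intro g hg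
    obtain ⟨hg2, h23⟩ := (hst _ _ _).1 hg
    have h1 := map_fix (hle hg2) f0
    rw [mem_un] at h1 ⊢
    apply mFix2_spec _ (idx_lt _) h1
    intro e
    have e1 : g (ptOf 0) = ptOf 23 := by rw [← ptOf_idx (g (ptOf 0)), e]
    rw [← h23] at e1
    have := congrArg idx (g.injective e1)
    rw [idx_ptOf (by decide), idx_ptOf (by decide)] at this
    exact absurd this (by decide)
  · intro y hy
    rw [mem_un] at hy
    obtain ⟨c, hc, e⟩ := A2_cov _ (idx_lt y) hy
    obtain ⟨h1, h2⟩ := A2_ok c hc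
    obtain ⟨hT, hC⟩ := good_cen h1
    refine ⟨permOf c, (hst _ _ _).2 ⟨hge hC, ?_⟩, ?_⟩
    · rw [permOf_apply hT, idx_ptOf (by decide), h2]
    · rw [permOf_apply hT, idx_ptOf (by decide), e, ptOf_idx]
  · intro g hg
    exact map_fix (hle hg) f23
  · intro y hy
    rw [mem_un] at hy
    obtain ⟨c, hc, e⟩ := A3_cov _ (idx_lt y) hy
    obtain ⟨hT, hC⟩ := good_cen (A3_ok c hc)
    exact ⟨permOf c, hge hC, by rw [permOf_apply hT, idx_ptOf (by decide), e, ptOf_idx]⟩

/-- an element of the normaliser fixing the points `23`, `0`, `2` lies in the stabiliser of four points. -/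
theorem mem_stab4 {H : Subgroup (Equiv.Perm GolayPt)} (hle : H ≤ NP) {g : Equiv.Perm GolayPt}
    (hg : g ∈ (H ⊓ stabilizer (Equiv.Perm GolayPt) (ptOf 23) ⊓
      stabilizer (Equiv.Perm GolayPt) (ptOf 0) ⊓ stabilizer (Equiv.Perm GolayPt) (ptOf 2) :
        Subgroup (Equiv.Perm GolayPt))) : g ∈ H ∧ g ∈ stabL [23, 0, 1, 2] := by
  obtain ⟨⟨⟨h1, h23⟩, h0⟩, h2⟩ := hg
  replace h23 : g (ptOf 23) = ptOf 23 := h23
  replace h0 : g (ptOf 0) = ptOf 0 := h0
  replace h2 : g (ptOf 2) = ptOf 2 := h2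
  refine ⟨h1, ?_⟩
  have hn := hle h1
  have h1' : g (ptOf 1) = ptOf 1 := by
    have h3 := map_fix hn ((pt_mem (m := mFix) (by decide : 1 < 24)).2 (by decide))
    rw [mem_un] at h3
    have h4 := mFix3_spec _ (idx_lt _) h3 ?_ ?_
    · rw [← ptOf_idx (g (ptOf 1)), h4]
    · intro e
      have e1 : g (ptOf 1) = ptOf 23 := by rw [← ptOf_idx (g (ptOf 1)), e]
      rw [← h23] at e1
      have := congrArg idx (g.injective e1)
      rw [idx_ptOf (by decide), idx_ptOf (by decide)] at this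
      exact absurd this (by decide)
    · intro e
      have e1 : g (ptOf 1) = ptOf 0 := by rw [← ptOf_idx (g (ptOf 1)), e]
      rw [← h0] at e1
      have := congrArg idx (g.injective e1)
      rw [idx_ptOf (by decide), idx_ptOf (by decide)] at this
      exact absurd this (by decide)
  rw [mem_stabL]
  refine ⟨hn.1, ?_⟩
  intro i hi
  simp only [List.mem_cons, List.not_mem_nil, or_false] at hi
  rcases hi with rfl | rfl | rfl | rfl
  · exact h23
  · exact h0
  · exact h1'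
  · exact h2

theorem card_NP : Nat.card NP = 126 := by
  rw [chain NP le_rfl CP_le, FusEnum2.card_eq_length (P := L3N) ?_ ?_ L3N_nodup]
  · rfl
  · intro g hg
    obtain ⟨h1, h2⟩ := mem_stab4 le_rfl hg
    rw [← L3N_eq, List.mem_filter]
    refine ⟨tblOf_mem_list960 h2, ?_⟩
    obtain ⟨y, hy, -, e⟩ := conj_gen h1
    rw [List.any_eq_true]
    refine ⟨y, hy, ?_⟩
    rw [beq_iff_eq, ← tblOf_permOf (isTbl_of_inM24 (PW7_ok _ X0_mem)), ← tblOf_mul, e, tblOf_mul,
      tblOf_permOf (isTbl_of_inM24 (PW7_ok _ hy))]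
  · intro t ht
    obtain ⟨h1, h2, h3, h4⟩ := L3N_ok t ht
    obtain ⟨hT, hN⟩ := good_nor h1
    refine ⟨hT, ⟨⟨⟨hN, ?_⟩, ?_⟩, ?_⟩⟩
    · show permOf t (ptOf 23) = ptOf 23
      rw [permOf_apply hT, idx_ptOf (by decide), h2]
    · show permOf t (ptOf 0) = ptOf 0
      rw [permOf_apply hT, idx_ptOf (by decide), h3]
    · show permOf t (ptOf 2) = ptOf 2
      rw [permOf_apply hT, idx_ptOf (by decide), h4]

theorem card_CP : Nat.card CP = 42 := by
  rw [chain CP CP_le le_rfl, FusEnum2.card_eq_length (P := [idT]) ?_ ?_ (by simp)]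
  · rfl
  · intro g hg
    obtain ⟨h1, h2⟩ := mem_stab4 CP_le hg
    rw [← L1C_eq, List.mem_filter]
    refine ⟨tblOf_mem_list960 h2, ?_⟩
    have e := (Subgroup.mem_centralizer_iff.1 h1.2) _ (permOf_mem_P0 X0_mem)
    rw [beq_iff_eq, ← tblOf_permOf (isTbl_of_inM24 (PW7_ok _ X0_mem)), ← tblOf_mul, ← tblOf_mul, e]
  · intro t ht
    rw [List.mem_singleton] at ht
    subst ht
    exact FusEnum.good_idT _

/-! ### the statement -/

theorem main (S : Subgroup ↥M24) (hS : Nat.card S = 7) :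
    Nat.card ↥(Subgroup.normalizer (S : Set ↥M24)) = 126 ∧
    Nat.card ↥(Subgroup.centralizer (S : Set ↥M24)) = 42 ∧
    (∃ x ∈ Subgroup.centralizer (S : Set ↥M24), ∃ y ∈ Subgroup.centralizer (S : Set ↥M24), x * y ≠ y * x) ∧
    ∃ T ∈ trios, ∀ n ∈ Subgroup.normalizer (S : Set ↥M24),
      ((n : ↥M24) : Equiv.Perm GolayPt) • T = T := by
  haveI : Fact (Nat.Prime 7) := ⟨by norm_num⟩
  have hS0 : Nat.card (P0.subgroupOf M24) = 7 := by
    rw [Nat.card_congr (Subgroup.subgroupOfEquivOfLe P0_le).toEquiv, card_P0]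
  have hp2 : ¬ 7 ^ 2 ∣ Nat.card ↥M24 := by
    rw [card_M24]; decide
  obtain ⟨k, hk⟩ := conj_of_card_prime (p := 7) hp2 S (P0.subgroupOf M24) hS hS0
  have hN0 : ∀ n : ↥M24, n ∈ Subgroup.normalizer ((P0.subgroupOf M24 : Subgroup ↥M24) : Set ↥M24) ↔
      (n : Equiv.Perm GolayPt) ∈ NP := by
    intro n
    constructor
    · intro hn
      refine ⟨n.2, ?_⟩
      apply Subgroup.mem_normalizer_fintype
      intro p hp
      have hs : (⟨p, P0_le hp⟩ : ↥M24) ∈ P0.subgroupOf M24 := Subgroup.mem_subgroupOf.2 hp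
      exact Subgroup.mem_subgroupOf.1 ((Subgroup.mem_normalizer_iff.1 hn _).1 hs)
    · intro hn
      apply Subgroup.mem_normalizer_fintype
      intro s hs
      exact Subgroup.mem_subgroupOf.2 ((Subgroup.mem_normalizer_iff.1 hn.2 _).1 (Subgroup.mem_subgroupOf.1 hs))
  have hC0 : ∀ n : ↥M24, n ∈ Subgroup.centralizer ((P0.subgroupOf M24 : Subgroup ↥M24) : Set ↥M24) ↔
      (n : Equiv.Perm GolayPt) ∈ CP := by
    intro n
    constructor
    · intro hn
      refine ⟨n.2, ?_⟩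
      change (n : Equiv.Perm GolayPt) ∈ Subgroup.centralizer (P0 : Set (Equiv.Perm GolayPt))
      rw [Subgroup.mem_centralizer_iff]
      intro p hp
      have hs : (⟨p, P0_le hp⟩ : ↥M24) ∈ P0.subgroupOf M24 := Subgroup.mem_subgroupOf.2 hp
      exact congrArg Subtype.val ((Subgroup.mem_centralizer_iff.1 hn) _ hs)
    · intro hn
      rw [Subgroup.mem_centralizer_iff]
      intro s hs
      exact Subtype.ext ((Subgroup.mem_centralizer_iff.1 hn.2) _ (Subgroup.mem_subgroupOf.1 hs))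
  refine ⟨?_, ?_, ?_, ?_⟩
  · rw [card_conj _ _ k (normalizer_conj hk), ← card_NP]
    apply Nat.card_congr
    exact
      { toFun := fun n => ⟨n.1.1, (hN0 n.1).1 n.2⟩
        invFun := fun g => ⟨⟨g.1, g.2.1⟩, (hN0 _).2 g.2⟩
        left_inv := fun _ => rfl
        right_inv := fun _ => rfl }
  · rw [card_conj _ _ k (centralizer_conj hk), ← card_CP]
    apply Nat.card_congr
    exact
      { toFun := fun n => ⟨n.1.1, (hC0 n.1).1 n.2⟩
        invFun := fun g => ⟨⟨g.1, g.2.1⟩, (hC0 _).2 g.2⟩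
        left_inv := fun _ => rfl
        right_inv := fun _ => rfl }
  · obtain ⟨a1, a2, a3⟩ := c12
    obtain ⟨hT1, hC1⟩ := good_cen a1
    obtain ⟨hT2, hC2⟩ := good_cen a2
    have back : ∀ g : Equiv.Perm GolayPt, ∀ hg : g ∈ CP,
        k⁻¹ * (⟨g, hg.1⟩ : ↥M24) * k ∈ Subgroup.centralizer (S : Set ↥M24) := by
      intro g hg
      rw [centralizer_conj hk]
      have e : k * (k⁻¹ * (⟨g, hg.1⟩ : ↥M24) * k) * k⁻¹ = ⟨g, hg.1⟩ := by group
      rw [e, hC0]
      exact hg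
    refine ⟨_, back _ hC1, _, back _ hC2, ?_⟩
    intro e
    apply a3
    have e1 : (⟨permOf c1, hC1.1⟩ : ↥M24) * ⟨permOf c2, hC2.1⟩ = ⟨permOf c2, hC2.1⟩ * ⟨permOf c1, hC1.1⟩ := by
      have : k * (k⁻¹ * (⟨permOf c1, hC1.1⟩ : ↥M24) * k * (k⁻¹ * ⟨permOf c2, hC2.1⟩ * k)) * k⁻¹ =
          k * (k⁻¹ * (⟨permOf c2, hC2.1⟩ : ↥M24) * k * (k⁻¹ * ⟨permOf c1, hC1.1⟩ * k)) * k⁻¹ := by rw [e]
      simpa [mul_assoc] using this
    have e2 : permOf c1 * permOf c2 = permOf c2 * permOf c1 := congrArg Subtype.val e1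
    rw [← tblOf_permOf hT1, ← tblOf_permOf hT2, ← tblOf_mul, e2, tblOf_mul]
  · refine ⟨(k⁻¹ : ↥M24).1 • T0, Trio.smul_mem_trios (k⁻¹ : ↥M24).2 T0_mem, ?_⟩
    intro n hn
    have h1 := (hN0 _).1 ((normalizer_conj hk n).1 hn)
    have h2 := smul_T0 h1
    have e : ((k * n * k⁻¹ : ↥M24) : Equiv.Perm GolayPt) =
        (k : Equiv.Perm GolayPt) * (n : Equiv.Perm GolayPt) * ((k⁻¹ : ↥M24) : Equiv.Perm GolayPt) := rfl
    rw [e, mul_smul, mul_smul] at h2
    have e3 : ((k⁻¹ : ↥M24) : Equiv.Perm GolayPt) = (k : Equiv.Perm GolayPt)⁻¹ := rfl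
    rw [e3] at h2 ⊢
    have h3 := congrArg (fun X => (k : Equiv.Perm GolayPt)⁻¹ • X) h2
    simp only [inv_smul_smul] at h3
    exact h3

end Cfsg.Agent.Lib.Helper3.Norm7
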