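import Mathlib
import Cfsg.Agent.Lib.Helper28.M24Trans

/-!
# The graph of the disjoint octads: the checks
-/

set_option autoImplicit false
set_option maxRecDepth 100000

namespace Cfsg.Agent.Lib.Helper3.OctGraph

open Cfsg Cfsg.Agent.Lib.Helper28

/-- the octads disjoint from the base octad. -/
def L30 : List ℕ := [6889680, 4038912, 5538256, 832080, 6656640, 3216208, 5780352, 6100032, 3421328, 6337856,
  628112, 5350928, 3704512, 7079696, 337856, 7903248, 1161408, 4536592, 2890176, 7612992, 1903248, 4819776,
  2141072, 2460752, 5024896, 1584464, 7409024, 2702848, 4202192, 1351424]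

def chk (m : ℕ) : Bool :=
  !(popc m == 8) || m == O5 ||
    (popc (O5 &&& m) == 0 && L30.contains m) ||
    (popc (O5 &&& m) == 4 && L30.any fun x => x &&& m == 0) ||
    (popc (O5 &&& m) == 2 && (L30.all fun x => x &&& m != 0) && L30.any fun x => popc (x &&& m) == 4)

theorem chk_all : ∀ a < 4096, chk (enc B12 a) = true := by decide +kernel

theorem L30_ok : ∀ x ∈ L30, isOct x = true ∧ O5 &&& x = 0 ∧ x < 2 ^ 24 := by decide +kernel

end Cfsg.Agent.Lib.Helper3.OctGraph
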