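import Mathlib
import Cfsg.Agent.Lib.Helper3.OctGraphA

/-!
# The graph of the disjoint octads
-/

set_option autoImplicit false

namespace Cfsg.Agent.Lib.Helper3.OctGraph

open Cfsg Cfsg.Agent.Lib.Helper28
open scoped Pointwise

theorem O5_lt' : O5 < 2 ^ 24 := by decide

theorem smul_inter' (k : Equiv.Perm GolayPt) (a b : Finset GolayPt) : k • (a ∩ b) = k • a ∩ k • b := by
  rw [smul_finset_eq_image, smul_finset_eq_image, smul_finset_eq_image]
  exact Finset.image_inter a b k.injective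

theorem card_inter_smul (k : Equiv.Perm GolayPt) (a b : Finset GolayPt) :
    (k • a ∩ k • b).card = (a ∩ b).card := by
  rw [← smul_inter', card_smul]

theorem disjoint_iff_card {a b : Finset GolayPt} : Disjoint a b ↔ (a ∩ b).card = 0 := by
  rw [Finset.card_eq_zero, Finset.disjoint_iff_inter_eq_empty]

theorem disjoint_smul {k : Equiv.Perm GolayPt} {a b : Finset GolayPt} :
    Disjoint (k • a) (k • b) ↔ Disjoint a b := by
  rw [disjoint_iff_card, disjoint_iff_card, card_inter_smul]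

/-- the facts on the base octad. -/
theorem base {o' : Finset GolayPt} (ho' : o' ∈ octads) (hne : o' ≠ un O5) :
    ((un O5 ∩ o').card = 0) ∨
    ((un O5 ∩ o').card = 4 ∧ ∃ x ∈ octads, Disjoint (un O5) x ∧ Disjoint x o') ∨
    ((un O5 ∩ o').card = 2 ∧ (∀ x ∈ octads, Disjoint (un O5) x → ¬ Disjoint x o') ∧
      ∃ x ∈ octads, Disjoint (un O5) x ∧ (x ∩ o').card = 4) := by
  obtain ⟨hc, hp⟩ := (mem_octads_iff o').1 ho'
  have h := forall_isCode (P := fun m => chk m = true) chk_all _ hc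
  have hne' : mk o' ≠ O5 := by
    intro e
    apply hne
    rw [← e, un_mk]
  have hcard : (un O5 ∩ o').card = popc (O5 &&& mk o') := by
    rw [card_eq_popc, mk_inter, mk_un O5_lt']
  have hx : ∀ x ∈ L30, un x ∈ octads ∧ Disjoint (un O5) (un x) := by
    intro x hx
    obtain ⟨h1, h2, h3⟩ := L30_ok x hx
    exact ⟨un_mem_octads h1, by rw [disjoint_iff_land, mk_un O5_lt', mk_un h3, h2]⟩
  simp only [chk, Bool.or_eq_true, Bool.and_eq_true, Bool.not_eq_true', beq_iff_eq, hp, hne',
    List.any_eq_true, List.all_eq_true, bne_iff_ne, ne_eq, List.contains_iff_mem, false_or,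
    beq_eq_false_iff_ne, not_true_eq_false] at h
  rcases h with (h | h) | h
  · left; rw [hcard]; exact h.1
  · right; left
    obtain ⟨h1, x, hxl, h2⟩ := h
    refine ⟨by rw [hcard]; exact h1, un x, (hx x hxl).1, (hx x hxl).2, ?_⟩
    rw [disjoint_iff_land, mk_un (L30_ok x hxl).2.2, h2]
  · right; right
    obtain ⟨⟨h1, h2⟩, x, hxl, h3⟩ := h
    refine ⟨by rw [hcard]; exact h1, ?_, un x, (hx x hxl).1, (hx x hxl).2, ?_⟩
    · intro y hy hd hd'
      obtain ⟨hyc, hyp⟩ := (mem_octads_iff y).1 hy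
      have hy2 := forall_isCode (P := fun m => chk m = true) chk_all _ hyc
      have hy0 : O5 &&& mk y = 0 := by
        rw [disjoint_iff_land, mk_un O5_lt'] at hd; exact hd
      have hyne : mk y ≠ O5 := by
        intro e
        rw [e, Nat.and_self] at hy0
        exact absurd hy0 (by decide)
      have hp0 : popc 0 = 0 := by decide
      simp only [chk, Bool.or_eq_true, Bool.and_eq_true, Bool.not_eq_true', beq_iff_eq, hyp, hyne, hy0, hp0,
        List.contains_iff_mem, false_or, beq_eq_false_iff_ne, ne_eq, not_true_eq_false, true_and,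
        OfNat.zero_ne_ofNat, false_and, or_false] at hy2
      apply h2 _ hy2
      rw [disjoint_iff_land] at hd'
      exact hd'
    · rw [card_eq_popc, mk_inter, mk_un (L30_ok x hxl).2.2, h3]

/-- the facts on two distinct octads. -/
theorem facts {o o' : Finset GolayPt} (ho : o ∈ octads) (ho' : o' ∈ octads) (hne : o ≠ o') :
    ((o ∩ o').card = 0) ∨
    ((o ∩ o').card = 4 ∧ ∃ x ∈ octads, Disjoint o x ∧ Disjoint x o') ∨
    ((o ∩ o').card = 2 ∧ (∀ x ∈ octads, Disjoint o x → ¬ Disjoint x o') ∧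
      ∃ x ∈ octads, Disjoint o x ∧ (x ∩ o').card = 4) := by
  obtain ⟨k, hk, e⟩ := exists_M24_smul_octad ho
  have hki := M24.inv_mem hk
  have hne' : k • o' ≠ un O5 := by
    rw [← e]
    intro h
    exact hne (smul_left_cancel k h).symm
  have hc : (un O5 ∩ k • o').card = (o ∩ o').card := by rw [← e, card_inter_smul]
  have hd1 : ∀ x, Disjoint (un O5) x ↔ Disjoint o (k⁻¹ • x) := by
    intro x
    rw [← e, ← disjoint_smul (k := k⁻¹), inv_smul_smul]
  have hd2 : ∀ x, Disjoint x (k • o') ↔ Disjoint (k⁻¹ • x) o' := by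
    intro x
    rw [← disjoint_smul (k := k⁻¹), inv_smul_smul]
  rcases base (smul_mem_octads hk ho') hne' with h | ⟨h, x, hx, h1, h2⟩ | ⟨h, h1, x, hx, h2, h3⟩
  · left; rw [← hc]; exact h
  · right; left
    exact ⟨by rw [← hc]; exact h, k⁻¹ • x, smul_mem_octads hki hx, (hd1 x).1 h1, (hd2 x).1 h2⟩
  · right; right
    refine ⟨by rw [← hc]; exact h, ?_, k⁻¹ • x, smul_mem_octads hki hx, (hd1 x).1 h2, ?_⟩
    · intro y hy hdy hdy'
      apply h1 (k • y) (smul_mem_octads hk hy)
      · rw [hd1, inv_smul_smul]; exact hdy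
      · rw [hd2, inv_smul_smul]; exact hdy'
    · rw [← card_inter_smul k, smul_inv_smul]; exact h3

abbrev Gr : SimpleGraph octads := blockGraph octads

theorem adj_iff (a b : octads) : Gr.Adj a b ↔ Disjoint (a : Finset GolayPt) (b : Finset GolayPt) := by
  unfold Gr blockGraph
  rw [SimpleGraph.fromRel_adj]
  constructor
  · rintro ⟨-, h | h⟩
    · exact h
    · exact h.symm
  · intro h
    refine ⟨?_, Or.inl h⟩
    intro e
    rw [e] at h
    have h8 : (b : Finset GolayPt).card = 8 := by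
      have := ((mem_octads_iff _).1 b.2).2
      rw [card_eq_popc]; exact this
    rw [disjoint_self] at h
    rw [h] at h8
    simp at h8

theorem main (o o' : Finset GolayPt) (ho : o ∈ octads) (ho' : o' ∈ octads) (hne : o ≠ o') :
    (blockGraph octads).Connected ∧
    ((blockGraph octads).dist ⟨o, ho⟩ ⟨o', ho'⟩ = 1 ↔ (o ∩ o').card = 0) ∧
    ((blockGraph octads).dist ⟨o, ho⟩ ⟨o', ho'⟩ = 2 ↔ (o ∩ o').card = 4) ∧
    ((blockGraph octads).dist ⟨o, ho⟩ ⟨o', ho'⟩ = 3 ↔ (o ∩ o').card = 2) := by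
  -- the distance in the three cases
  have key : ∀ a b : octads, a ≠ b → Gr.Reachable a b ∧
      (((a : Finset GolayPt) ∩ b).card = 0 ∧ Gr.dist a b = 1 ∨
       ((a : Finset GolayPt) ∩ b).card = 4 ∧ Gr.dist a b = 2 ∨
       ((a : Finset GolayPt) ∩ b).card = 2 ∧ Gr.dist a b = 3) := by
    intro a b hab
    have hab' : (a : Finset GolayPt) ≠ b := fun h => hab (Subtype.ext h)
    have two : ∀ a b : octads, ((a : Finset GolayPt) ∩ b).card = 4 →
        (∃ x ∈ octads, Disjoint (a : Finset GolayPt) x ∧ Disjoint x (b : Finset GolayPt)) →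
        ∃ w : Gr.Walk a b, w.length = 2 := by
      rintro a b - ⟨x, hx, h1, h2⟩
      exact ⟨SimpleGraph.Walk.cons ((adj_iff a ⟨x, hx⟩).2 h1)
        (SimpleGraph.Walk.cons ((adj_iff ⟨x, hx⟩ b).2 h2) SimpleGraph.Walk.nil), rfl⟩
    rcases facts a.2 b.2 hab' with h | ⟨h, hx⟩ | ⟨h, h1, x, hx, h2, h3⟩
    · have hadj : Gr.Adj a b := (adj_iff a b).2 (disjoint_iff_card.2 h)
      exact ⟨hadj.reachable, Or.inl ⟨h, SimpleGraph.dist_eq_one_iff_adj.2 hadj⟩⟩
    · obtain ⟨w, hw⟩ := two a b h hx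
      have hr : Gr.Reachable a b := ⟨w⟩
      refine ⟨hr, Or.inr (Or.inl ⟨h, ?_⟩)⟩
      have h1 : Gr.dist a b ≤ 2 := hw ▸ SimpleGraph.dist_le w
      have h0 : Gr.dist a b ≠ 0 := fun e => hab (hr.dist_eq_zero_iff.1 e)
      have h1' : Gr.dist a b ≠ 1 := by
        intro e
        have := disjoint_iff_card.1 ((adj_iff a b).1 (SimpleGraph.dist_eq_one_iff_adj.1 e))
        omega
      omega
    · have hxb : (⟨x, hx⟩ : octads) ≠ b := by
        intro e
        have e' : x = (b : Finset GolayPt) := congrArg Subtype.val e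
        rw [e', Finset.inter_self] at h3
        have h8 : (b : Finset GolayPt).card = 8 := by
          have := ((mem_octads_iff _).1 b.2).2
          rw [card_eq_popc]; exact this
        omega
      have hx2 : ∃ y ∈ octads, Disjoint x y ∧ Disjoint y (b : Finset GolayPt) := by
        rcases facts hx b.2 (fun e => hxb (Subtype.ext e)) with g | ⟨-, g⟩ | ⟨g, -⟩
        · omega
        · exact g
        · omega
      obtain ⟨w, hw⟩ := two ⟨x, hx⟩ b h3 hx2
      have hr : Gr.Reachable a b := ⟨SimpleGraph.Walk.cons ((adj_iff a ⟨x, hx⟩).2 h2) w⟩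
      refine ⟨hr, Or.inr (Or.inr ⟨h, ?_⟩)⟩
      have h3' : Gr.dist a b ≤ 3 := by
        have := SimpleGraph.dist_le (SimpleGraph.Walk.cons ((adj_iff a ⟨x, hx⟩).2 h2) w)
        rw [SimpleGraph.Walk.length_cons, hw] at this
        exact this
      have h0 : Gr.dist a b ≠ 0 := fun e => hab (hr.dist_eq_zero_iff.1 e)
      have h1' : Gr.dist a b ≠ 1 := by
        intro e
        have := disjoint_iff_card.1 ((adj_iff a b).1 (SimpleGraph.dist_eq_one_iff_adj.1 e))
        omega
      have h2' : Gr.dist a b ≠ 2 := by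
        intro e
        obtain ⟨p, hp⟩ := hr.exists_walk_length_eq_dist
        rw [e] at hp
        cases p with
        | nil => simp at hp
        | cons hadj p =>
          cases p with
          | nil => simp at hp
          | cons hadj' p =>
            cases p with
            | nil => exact h1 _ (Subtype.coe_prop _) ((adj_iff _ _).1 hadj) ((adj_iff _ _).1 hadj')
            | cons _ _ => simp at hp
      omega
  have hk := (key ⟨o, ho⟩ ⟨o', ho'⟩ (fun e => hne (congrArg Subtype.val e))).2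
  change (o ∩ o').card = 0 ∧ Gr.dist ⟨o, ho⟩ ⟨o', ho'⟩ = 1 ∨ (o ∩ o').card = 4 ∧ Gr.dist ⟨o, ho⟩ ⟨o', ho'⟩ = 2 ∨
    (o ∩ o').card = 2 ∧ Gr.dist ⟨o, ho⟩ ⟨o', ho'⟩ = 3 at hk
  refine ⟨?_, ?_, ?_, ?_⟩
  · haveI : Nonempty octads := ⟨⟨o, ho⟩⟩
    refine ⟨fun a b => ?_⟩
    by_cases hab : a = b
    · rw [hab]
    · exact (key a b hab).1
  · change Gr.dist ⟨o, ho⟩ ⟨o', ho'⟩ = 1 ↔ _
    omega
  · change Gr.dist ⟨o, ho⟩ ⟨o', ho'⟩ = 2 ↔ _
    omega
  · change Gr.dist ⟨o, ho⟩ ⟨o', ho'⟩ = 3 ↔ _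
    omega

end Cfsg.Agent.Lib.Helper3.OctGraph
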