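import Mathlib
import Cfsg.Agent.Lib.Helper3.OctTrioA

/-!
# The trios containing an octad
-/

set_option autoImplicit false

namespace Cfsg.Agent.Lib.Helper3.OctTrio

open MulAction Cfsg Cfsg.Agent.Lib.Helper28 Cfsg.Agent.Lib.Helper3.M24T Cfsg.Agent.Lib.Helper3.M24Gen
  Cfsg.Agent.Lib.Helper3.OctGraph Cfsg.Agent.Lib.Helper3.Trio Cfsg.Agent.Lib.Helper3.OctStab
  Cfsg.Agent.Lib.Helper3.BlkOct
open scoped Pointwise

theorem O5lt : O5 < 2 ^ 24 := by decide

theorem B_oct : un O5 ∈ octads := un_mem_octads (by decide +kernel)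

theorem card8 {o : Finset GolayPt} (ho : o ∈ octads) : o.card = 8 := by
  rw [card_eq_popc]; exact ((mem_octads_iff o).1 ho).2

/-- the octads disjoint from the base octad. -/
theorem mem_L30 {o : Finset GolayPt} (ho : o ∈ octads) (hd : Disjoint (un O5) o) : mk o ∈ L30 := by
  obtain ⟨hyc, hyp⟩ := (mem_octads_iff o).1 ho
  have hy2 := forall_isCode (P := fun m => chk m = true) chk_all _ hyc
  have hy0 : O5 &&& mk o = 0 := by
    rw [disjoint_iff_land, mk_un O5lt] at hd; exact hd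
  have hyne : mk o ≠ O5 := by
    intro e
    rw [e, Nat.and_self] at hy0
    exact absurd hy0 (by decide)
  have hp0 : popc 0 = 0 := by decide
  simpa only [chk, Bool.or_eq_true, Bool.and_eq_true, Bool.not_eq_true', beq_iff_eq, hyp, hyne, hy0, hp0,
    List.contains_iff_mem, false_or, beq_eq_false_iff_ne, ne_eq, not_true_eq_false, true_and,
    OfNat.zero_ne_ofNat, false_and, or_false] using hy2

theorem L30_good {x : ℕ} (hx : x ∈ L30) : un x ∈ octads ∧ Disjoint (un O5) (un x) ∧ x < 2 ^ 24 := by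
  obtain ⟨h1, h2, h3⟩ := L30_ok x hx
  exact ⟨un_mem_octads h1, by rw [disjoint_iff_land, mk_un O5lt, mk_un h3, h2], h3⟩

theorem compl_eq {x : ℕ} (hx : x < 2 ^ 24) : (un O5 ∪ un x)ᶜ = un (par x) := by
  rw [← un_mk (un O5 ∪ un x)ᶜ, mk_compl, mk_union, mk_un O5lt, mk_un hx]
  rfl

theorem tr_good {x : ℕ} (hx : x ∈ L30) : tr (un O5, un x) ∈ trios ∧ un O5 ∈ tr (un O5, un x) := by
  obtain ⟨h1, h2, -⟩ := L30_good hx
  exact ⟨tr_mem_trios B_oct h1 h2, mem_tr.2 (Or.inl rfl)⟩

theorem ne_B {o : Finset GolayPt} (hd : Disjoint (un O5) o) : un O5 ≠ o :=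
  ne_of_disjoint (card8 B_oct) hd

/-- a trio containing the base octad. -/
theorem exists_L30 {T : Finset (Finset GolayPt)} (hT : T ∈ trios) (hB : un O5 ∈ T) :
    ∃ x ∈ L30, T = tr (un O5, un x) := by
  obtain ⟨o', ho', hne⟩ := Finset.exists_mem_ne (by rw [hT.1]; norm_num : 1 < T.card) (un O5)
  have hd := hT.2.2 _ hB _ ho' (Ne.symm hne)
  refine ⟨mk o', mem_L30 (hT.2.1 _ ho') hd, ?_⟩
  rw [un_mk]
  exact trio_eq hT hB ho' (Ne.symm hne)

theorem tr_par {x : ℕ} (hx : x ∈ L30) : tr (un O5, un (par x)) = tr (un O5, un x) := by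
  obtain ⟨h1, h2⟩ := tr_good hx
  have h3 : un (par x) ∈ tr (un O5, un x) := by
    rw [← compl_eq (L30_good hx).2.2]; exact mem_tr.2 (Or.inr (Or.inr rfl))
  have hne : un O5 ≠ un (par x) := by
    intro e
    have h4 := h1.2.2 _ h2 _ (mem_tr.2 (Or.inr (Or.inl rfl)) : un x ∈ tr (un O5, un x)) (ne_B (L30_good hx).2.1)
    have h5 : un O5 ⊆ (un O5 ∪ un x)ᶜ := by rw [compl_eq (L30_good hx).2.2, ← e]
    have h6 : (un O5).Nonempty := by rw [← Finset.card_pos, card8 B_oct]; norm_num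
    obtain ⟨a, ha⟩ := h6
    exact (Finset.mem_compl.1 (h5 ha)) (Finset.mem_union_left _ ha)
  exact (trio_eq h1 h2 h3 hne).symm

theorem exists_L15 {T : Finset (Finset GolayPt)} (hT : T ∈ trios) (hB : un O5 ∈ T) :
    ∃ x ∈ L15, T = tr (un O5, un x) := by
  obtain ⟨x, hx, rfl⟩ := exists_L30 hT hB
  rcases L30_par x hx with h | ⟨h, -⟩
  · exact ⟨x, h, rfl⟩
  · exact ⟨par x, h, (tr_par hx).symm⟩

theorem tr_inj {x y : ℕ} (hx : x ∈ L15) (hy : y ∈ L15) (e : tr (un O5, un x) = tr (un O5, un y)) : x = y := by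
  have hx' := (L15_sub x hx).1
  have hy' := (L15_sub y hy).1
  have h1 : un y ∈ tr (un O5, un x) := by rw [e]; exact mem_tr.2 (Or.inr (Or.inl rfl))
  rcases mem_tr.1 h1 with h | h | h
  · exact absurd h.symm (ne_B (L30_good hy').2.1)
  · rw [← mk_un (L30_good hx').2.2, ← h, mk_un (L30_good hy').2.2]
  · exfalso
    rw [compl_eq (L30_good hx').2.2] at h
    have h2 : y = par x := by
      have hlt : par x < 2 ^ 24 := by
        rcases L30_par x hx' with h3 | ⟨h3, -⟩
        · have := (mk_lt (un O5 ∪ un x)ᶜ)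
          rw [mk_compl, mk_union, mk_un O5lt, mk_un (L30_good hx').2.2] at this
          exact this
        · exact (L30_good (L15_sub _ h3).1).2.2
      rw [← mk_un (L30_good hy').2.2, h, mk_un hlt]
    exact L15_par x hx (h2 ▸ hy)

theorem count_base : {T : Finset (Finset GolayPt) | T ∈ trios ∧ un O5 ∈ T}.ncard = 15 := by
  have : {T : Finset (Finset GolayPt) | T ∈ trios ∧ un O5 ∈ T} =
      ↑((L15.map fun x => tr (un O5, un x)).toFinset) := by
    ext T
    simp only [Set.mem_setOf_eq, List.coe_toFinset, List.mem_map]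
    constructor
    · rintro ⟨h1, h2⟩
      obtain ⟨x, hx, rfl⟩ := exists_L15 h1 h2
      exact ⟨x, hx, rfl⟩
    · rintro ⟨x, hx, rfl⟩
      exact tr_good (L15_sub x hx).1
  rw [this, Set.ncard_coe_finset, List.toFinset_card_of_nodup, List.length_map]
  · rfl
  · exact List.Nodup.map_on (fun x hx y hy e => tr_inj hx hy e) L15_nodup

/-- the image of a trio. -/
theorem smul_tr {g : Equiv.Perm GolayPt} (hg : g ∈ M24) (hB : g • un O5 = un O5) {x : ℕ} (hx : x ∈ L30) :
    g • tr (un O5, un x) = tr (un O5, g • un x) := by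
  obtain ⟨h1, h2⟩ := tr_good hx
  apply trio_eq (smul_mem_trios hg h1)
  · have := Finset.smul_mem_smul_finset (a := g) h2
    rwa [hB] at this
  · exact Finset.smul_mem_smul_finset (mem_tr.2 (Or.inr (Or.inl rfl)))
  · rw [← hB]
    intro e
    exact ne_B (L30_good hx).2.1 (smul_left_cancel g e)

theorem to_base {x y : ℕ} (hx : x ∈ L15) (hy : y ∈ L15) (hne : x ≠ y) :
    ∃ g ∈ M24, g • un O5 = un O5 ∧ g • tr (un O5, un x) = tr (un O5, un X0) ∧
      g • tr (un O5, un y) = tr (un O5, un Y0) := by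
  obtain ⟨e, he, rfl, rfl⟩ := certs_cov x hx y hy hne
  obtain ⟨h1, h2, h3, h4⟩ := certs_ok e he
  have hT := isTbl_of_inM24 h1
  have hB : permOf e.2.2 • un O5 = un O5 := by rw [permOf_smul_un hT O5lt, h2]
  refine ⟨permOf e.2.2, permOf_mem_M24 h1, hB, ?_, ?_⟩
  · rw [smul_tr (permOf_mem_M24 h1) hB (L15_sub _ hx).1, permOf_smul_un hT (L30_good (L15_sub _ hx).1).2.2]
    rcases h3 with h | h
    · rw [h]
    · rw [h, tr_par (L15_sub _ XY_mem.1).1]
  · rw [smul_tr (permOf_mem_M24 h1) hB (L15_sub _ hy).1, permOf_smul_un hT (L30_good (L15_sub _ hy).1).2.2]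
    rcases h4 with h | h
    · rw [h]
    · rw [h, tr_par (L15_sub _ XY_mem.2).1]

theorem trans_base {T₁ T₂ T₁' T₂' : Finset (Finset GolayPt)} (h1 : T₁ ∈ trios) (h2 : T₂ ∈ trios)
    (h1' : T₁' ∈ trios) (h2' : T₂' ∈ trios) (b1 : un O5 ∈ T₁) (b2 : un O5 ∈ T₂) (b1' : un O5 ∈ T₁')
    (b2' : un O5 ∈ T₂') (hne : T₁ ≠ T₂) (hne' : T₁' ≠ T₂') :
    ∃ g ∈ M24, g • un O5 = un O5 ∧ g • T₁ = T₁' ∧ g • T₂ = T₂' := by
  obtain ⟨x, hx, rfl⟩ := exists_L15 h1 b1
  obtain ⟨y, hy, rfl⟩ := exists_L15 h2 b2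
  obtain ⟨x', hx', rfl⟩ := exists_L15 h1' b1'
  obtain ⟨y', hy', rfl⟩ := exists_L15 h2' b2'
  obtain ⟨g, g1, g2, g3, g4⟩ := to_base hx hy (fun e => hne (by rw [e]))
  obtain ⟨g', g1', g2', g3', g4'⟩ := to_base hx' hy' (fun e => hne' (by rw [e]))
  refine ⟨g'⁻¹ * g, M24.mul_mem (M24.inv_mem g1') g1, ?_, ?_, ?_⟩
  · rw [mul_smul, g2, ← g2', inv_smul_smul, g2']
  · rw [mul_smul, g3, ← g3', inv_smul_smul]
  · rw [mul_smul, g4, ← g4', inv_smul_smul]

theorem fix_of_pointwise {g : Equiv.Perm GolayPt} (hg : g ∈ fixO (un O5)) {T : Finset (Finset GolayPt)}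
    (hT : T ∈ trios) (hB : un O5 ∈ T) : g • T = T := by
  obtain ⟨u, hu, rfl⟩ := mem_base_iff.1 hg
  obtain ⟨x, hx, rfl⟩ := exists_L30 hT hB
  have hM := U7_in u hu
  have hTb := isTbl_of_inM24 hM
  have hBf : permOf u • un O5 = un O5 := by
    apply smul_of_mem_iff
    intro p
    constructor
    · intro hp
      have := (mem_fixO.1 hg).2 _ hp
      have h3 := (permOf u).injective this
      rw [← h3]; exact hp
    · intro hp
      rw [(mem_fixO.1 hg).2 _ hp]; exact hp
  rw [smul_tr (permOf_mem_M24 hM) hBf hx, permOf_smul_un hTb (L30_good hx).2.2]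
  rcases U7_par u hu x hx with h | h
  · rw [h]
  · rw [h, tr_par hx]

theorem kernel_base {g : Equiv.Perm GolayPt} (hg : g ∈ M24) (hB : g • un O5 = un O5) :
    (∀ T ∈ trios, un O5 ∈ T → g • T = T) ↔ ∀ p ∈ un O5, g p = p := by
  constructor
  · intro hfix
    have h4 : g (ptOf 4) ∈ un 8241104 := by
      rw [mem_un, ← out_spec _ (idx_lt _)]
      by_contra hcon
      have h5 : g (ptOf 4) ∈ g • un O5 := by
        rw [hB, mem_un]; simpa using hcon
      rw [mem_smul_finset_iff, mem_un, idx_ptOf (by decide)] at h5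
      exact absurd h5 (by decide)
    obtain ⟨u, hu, hu1, -, hu3⟩ := exists_of_lvlCheck lvl7 h4
    have huQ : permOf u ∈ fixO (un O5) := mem_base_iff.2 ⟨u, hu, rfl⟩
    have huQ' : (permOf u)⁻¹ ∈ fixO (un O5) := (fixO (un O5)).inv_mem huQ
    have hhM : (permOf u)⁻¹ * g ∈ M24 := M24.mul_mem (M24.inv_mem (permOf_mem_M24 hu1)) hg
    have hh4 : ((permOf u)⁻¹ * g) (ptOf 4) = ptOf 4 := by
      rw [Equiv.Perm.mul_apply, Equiv.Perm.inv_eq_iff_eq, hu3]
    have hhfix : ∀ T ∈ trios, un O5 ∈ T → ((permOf u)⁻¹ * g) • T = T := by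
      intro T hT hBT
      rw [mul_smul, hfix T hT hBT, fix_of_pointwise huQ' hT hBT]
    have hx : ∀ x ∈ L15, ((permOf u)⁻¹ * g) • un x = un x := by
      intro x hx
      obtain ⟨a1, a2, a3⟩ := L15_sub x hx
      obtain ⟨t1, t2⟩ := tr_good a1
      have h5 : ((permOf u)⁻¹ * g) • un x ∈ tr (un O5, un x) := by
        have := Finset.smul_mem_smul_finset (a := (permOf u)⁻¹ * g)
          (mem_tr.2 (Or.inr (Or.inl rfl)) : un x ∈ tr (un O5, un x))
        rwa [hhfix _ t1 t2] at this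
      have h6 : ptOf 4 ∈ ((permOf u)⁻¹ * g) • un x := by
        have := (mem_smul_finset_iff ((permOf u)⁻¹ * g) (un x) (ptOf 4)).2
          (by rw [mem_un, idx_ptOf (by decide)]; exact a2)
        rwa [hh4] at this
      rcases mem_tr.1 h5 with h | h | h
      · rw [h, mem_un, idx_ptOf (by decide)] at h6
        exact absurd h6 (by decide)
      · exact h
      · rw [h, compl_eq (L30_good a1).2.2, mem_un, idx_ptOf (by decide), a3] at h6
        exact absurd h6 (by simp)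
    have hone : (permOf u)⁻¹ * g = 1 := by
      apply AutFix.eq_one_of_nine hhM
      have hsub : un 8241104 ⊆ fixSet ((permOf u)⁻¹ * g) := by
        intro p hp
        rw [mem_un, ← out_spec _ (idx_lt _)] at hp
        rw [mem_fixSet]
        have h7 := lines _ (idx_lt p) _ (idx_lt (((permOf u)⁻¹ * g) p)) hp (by
          intro x hxl hxp
          have h8 : ((permOf u)⁻¹ * g) p ∈ ((permOf u)⁻¹ * g) • un x :=
            (mem_smul_finset_iff _ _ _).2 (mem_un.2 hxp)
          rw [hx x hxl, mem_un] at h8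
          exact h8)
        rcases h7 with h | h
        · have e1 : ((permOf u)⁻¹ * g) p = ptOf 4 := by rw [← ptOf_idx (((permOf u)⁻¹ * g) p), h]
          have e2 : p = ptOf 4 := by
            apply ((permOf u)⁻¹ * g).injective
            rw [e1, hh4]
          rw [e2, hh4]
        · exact idx_injective h
      have := Finset.card_le_card hsub
      rw [card_un] at this
      have e : popc 8241104 = 16 := by decide +kernel
      omega
    have e : g = permOf u := by
      have := congrArg (fun x => permOf u * x) hone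
      simpa using this
    rw [e]
    exact (mem_fixO.1 huQ).2
  · intro hp T hT hBT
    exact fix_of_pointwise (mem_fixO.2 ⟨hg, hp⟩) hT hBT

theorem trios_smul_iff {k : Equiv.Perm GolayPt} (hk : k ∈ M24) {T : Finset (Finset GolayPt)} :
    k • T ∈ trios ↔ T ∈ trios := by
  refine ⟨fun h => ?_, smul_mem_trios hk⟩
  have := smul_mem_trios (M24.inv_mem hk) h
  rwa [inv_smul_smul] at this

theorem main (o : Finset GolayPt) (ho : o ∈ octads) :
    {T : Finset (Finset GolayPt) | T ∈ trios ∧ o ∈ T}.ncard = 15 ∧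
    (∀ T₁ T₂ T₁' T₂' : Finset (Finset GolayPt), T₁ ∈ trios → T₂ ∈ trios → T₁' ∈ trios → T₂' ∈ trios →
      o ∈ T₁ → o ∈ T₂ → o ∈ T₁' → o ∈ T₂' → T₁ ≠ T₂ → T₁' ≠ T₂' →
      ∃ g ∈ M24, g • o = o ∧ g • T₁ = T₁' ∧ g • T₂ = T₂') ∧
    ∀ g ∈ M24, g • o = o → ((∀ T ∈ trios, o ∈ T → g • T = T) ↔ ∀ p ∈ o, g p = p) := by
  obtain ⟨k, hk, hko⟩ := exists_M24_smul_octad ho
  have hmem : ∀ T : Finset (Finset GolayPt), o ∈ T ↔ un O5 ∈ k • T := by
    intro T; rw [← hko, Finset.smul_mem_smul_finset_iff]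
  refine ⟨?_, ?_, ?_⟩
  · rw [← count_base]
    have : {T : Finset (Finset GolayPt) | T ∈ trios ∧ un O5 ∈ T} =
        (fun T : Finset (Finset GolayPt) => k • T) '' {T | T ∈ trios ∧ o ∈ T} := by
      ext T
      constructor
      · rintro ⟨h1, h2⟩
        refine ⟨k⁻¹ • T, ⟨smul_mem_trios (M24.inv_mem hk) h1, ?_⟩, smul_inv_smul k T⟩
        rw [hmem, smul_inv_smul]; exact h2
      · rintro ⟨T', ⟨h1, h2⟩, rfl⟩
        exact ⟨smul_mem_trios hk h1, (hmem T').1 h2⟩
    rw [this, Set.ncard_image_of_injective _ (MulAction.injective k)]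
  · intro T₁ T₂ T₁' T₂' h1 h2 h1' h2' b1 b2 b1' b2' hne hne'
    obtain ⟨g, g1, g2, g3, g4⟩ := trans_base (smul_mem_trios hk h1) (smul_mem_trios hk h2)
      (smul_mem_trios hk h1') (smul_mem_trios hk h2') ((hmem _).1 b1) ((hmem _).1 b2) ((hmem _).1 b1')
      ((hmem _).1 b2') (fun e => hne (smul_left_cancel k e)) (fun e => hne' (smul_left_cancel k e))
    refine ⟨k⁻¹ * g * k, M24.mul_mem (M24.mul_mem (M24.inv_mem hk) g1) hk, ?_, ?_, ?_⟩
    · rw [mul_smul, mul_smul, hko, g2, ← hko, inv_smul_smul]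
    · rw [mul_smul, mul_smul, g3, inv_smul_smul]
    · rw [mul_smul, mul_smul, g4, inv_smul_smul]
  · intro g hg hgo
    have hB : (k * g * k⁻¹) • un O5 = un O5 := by
      rw [mul_smul, mul_smul, ← hko, inv_smul_smul, hgo]
    have hb := kernel_base (conj_mem hk hg) hB
    constructor
    · intro h p hp
      have h1 : ∀ T ∈ trios, un O5 ∈ T → (k * g * k⁻¹) • T = T := by
        intro T hT hBT
        have h2 := h (k⁻¹ • T) (smul_mem_trios (M24.inv_mem hk) hT) (by rw [hmem, smul_inv_smul]; exact hBT)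
        rw [mul_smul, mul_smul, h2, smul_inv_smul]
      have h3 := hb.1 h1 (k p) (by rw [← hko]; exact (mem_smul_finset_iff k o p).2 hp)
      simp only [Equiv.Perm.mul_apply] at h3
      have e : k⁻¹ (k p) = p := by simp
      rw [e] at h3
      exact k.injective h3
    · intro h T hT hoT
      have h1 : ∀ p ∈ un O5, (k * g * k⁻¹) p = p := by
        intro p hp
        have h2 : k⁻¹ p ∈ o := by
          rw [← mem_smul_finset_iff k, hko]; simpa using hp
        simp only [Equiv.Perm.mul_apply]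
        rw [h _ h2]; simp
      have h3 := hb.2 h1 (k • T) (smul_mem_trios hk hT) ((hmem T).1 hoT)
      rw [mul_smul, mul_smul, inv_smul_smul] at h3
      exact smul_left_cancel k h3

end Cfsg.Agent.Lib.Helper3.OctTrio
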