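import Mathlib
import Cfsg.Agent.Lib.Helper3.Dodecad
import Cfsg.Agent.Lib.Helper28.M24Trans

/-!
# Quartets: the checks
-/

set_option autoImplicit false
set_option maxRecDepth 100000

namespace Cfsg.Agent.Lib.Helper3.Quartet

open Cfsg Cfsg.Agent.Lib.Helper28 Cfsg.Agent.Lib.Helper3.M24T Cfsg.Agent.Lib.Helper3.Dod

def t0 : ℕ := 8388611
def u0 : ℕ := 131084
def h0 : ℕ := 8519695

/-- the base quartet. -/
def QM : List ℕ := [8388611, 131084, 593920, 2359312]

def R1 : List ℕ := [65556, 131084, 135184, 266244, 327688, 524312, 593920, 917504, 2101256, 2293760, 2359312, 2621444]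
def R2 : List ℕ := [65554, 266241, 524305, 593920, 786434, 2101250, 2162689, 2359312, 8388611, 8392720, 8716288, 11010048]

/-- octads cutting out the hexads. -/
def W6 : List ℕ := [8536111, 8983587, 10765331, 742412, 2491452, 2969648]

theorem QM_ok : ∀ m ∈ QM, popc m = 3 ∧ m &&& D0 = m ∧ m < 2 ^ 24 := by decide +kernel
theorem QM_nodup : QM.Nodup := by decide +kernel
theorem QM_pair : ∀ m ∈ QM, ∀ n ∈ QM, m ≠ n → popc (m ||| n) = 6 ∧ ∃ o ∈ W6, isOct o = true ∧ o &&& D0 = m ||| n := by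
  decide +kernel
theorem t0_mem : t0 ∈ QM := by decide
theorem u0_mem : u0 ∈ QM := by decide
theorem chk1 : ∀ a < 4096, (popc (enc B12 a) = 8 ∧ popc (enc B12 a &&& D0) = 6 ∧ t0 &&& (enc B12 a &&& D0) = t0) →
    ((enc B12 a &&& D0) ^^^ t0) ∈ R1 := by decide +kernel
theorem chk2 : ∀ a < 4096, (popc (enc B12 a) = 8 ∧ popc (enc B12 a &&& D0) = 6 ∧ u0 &&& (enc B12 a &&& D0) = u0) →
    ((enc B12 a &&& D0) ^^^ u0) ∈ R2 := by decide +kernel
theorem inter : ∀ m ∈ R1, m ∈ R2 → m ∈ QM := by decide +kernel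
theorem h0_eq : O5 &&& D0 = h0 := by decide +kernel
theorem bits : ∀ i < 24, (u0.testBit i = true ↔ h0.testBit i = true ∧ ¬ t0.testBit i = true) := by decide +kernel
theorem t0_bits : t0.testBit 23 = true ∧ t0.testBit 0 = true ∧ t0.testBit 1 = true := by decide +kernel

end Cfsg.Agent.Lib.Helper3.Quartet
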