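import Mathlib
import Cfsg.Agent.Lib.Helper3.QuartetA
import Cfsg.Prelude.Def_SporadicCombinatorics

/-!
# Quartets of a dodecad
-/

set_option autoImplicit false

namespace Cfsg.Agent.Lib.Helper3.Quartet

open MulAction Cfsg Cfsg.Agent.Lib.Helper28 Cfsg.Agent.Lib.Helper3.M24T Cfsg.Agent.Lib.Helper3.Dod
open scoped Pointwise

theorem smul_hexads {g : Equiv.Perm GolayPt} (hg : g ∈ M24) {d h : Finset GolayPt} (hh : h ∈ hexadsOn d) :
    g • h ∈ hexadsOn (g • d) := by
  obtain ⟨h6, o, ho, e⟩ := hh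
  exact ⟨by rw [Finset.card_smul_finset, h6], g • o, smul_mem_octads hg ho, by
    rw [← Finset.smul_finset_inter, e]⟩

theorem smul_quartets {g : Equiv.Perm GolayPt} (hg : g ∈ M24) {d : Finset GolayPt}
    {Q : Finset (Finset GolayPt)} (hQ : Q ∈ quartets d) : g • Q ∈ quartets (g • d) := by
  obtain ⟨h4, h3, hp⟩ := hQ
  refine ⟨by rw [Finset.card_smul_finset, h4], ?_, ?_⟩
  · intro t ht
    obtain ⟨t', ht', rfl⟩ := Finset.mem_smul_finset.1 ht
    exact ⟨by rw [Finset.card_smul_finset]; exact (h3 t' ht').1,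
      Finset.smul_finset_subset_smul_finset (h3 t' ht').2⟩
  · intro t ht u hu hne
    obtain ⟨t', ht', rfl⟩ := Finset.mem_smul_finset.1 ht
    obtain ⟨u', hu', rfl⟩ := Finset.mem_smul_finset.1 hu
    rw [← Finset.smul_finset_union]
    exact smul_hexads hg (hp t' ht' u' hu' (fun e => hne (by rw [e])))

/-- the base quartet. -/
def Q0 : Finset (Finset GolayPt) := (QM.map un).toFinset

theorem mem_Q0 {t : Finset GolayPt} : t ∈ Q0 ↔ ∃ m ∈ QM, un m = t := by
  unfold Q0; rw [List.mem_toFinset, List.mem_map]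

theorem card_Q0 : Q0.card = 4 := by
  unfold Q0
  rw [List.toFinset_card_of_nodup, List.length_map]
  · rfl
  · apply List.Nodup.map_on _ QM_nodup
    intro a ha b hb e
    rw [← mk_un (QM_ok a ha).2.2, e, mk_un (QM_ok b hb).2.2]

theorem Q0_mem : Q0 ∈ quartets (un D0) := by
  refine ⟨card_Q0, ?_, ?_⟩
  · intro t ht
    obtain ⟨m, hm, rfl⟩ := mem_Q0.1 ht
    obtain ⟨h1, h2, h3⟩ := QM_ok m hm
    exact ⟨by rw [card_un]; exact h1, by rw [subset_iff_land, mk_un h3, mk_un D0_lt]; exact h2⟩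
  · intro t ht u hu hne
    obtain ⟨m, hm, rfl⟩ := mem_Q0.1 ht
    obtain ⟨n, hn, rfl⟩ := mem_Q0.1 hu
    obtain ⟨h6, o, _, ho, e⟩ := QM_pair m hm n hn (fun e => hne (by rw [e]))
    have lm := (QM_ok m hm).2.2
    have ln := (QM_ok n hn).2.2
    refine ⟨by rw [card_eq_popc, mk_union, mk_un lm, mk_un ln]; exact h6, un o, un_mem_octads ho, ?_⟩
    apply mk_injective
    rw [mk_inter, mk_union, mk_un lm, mk_un ln, mk_un D0_lt, mk_un (isCode_lt (isOct_iff.1 ho).1)]
    exact e

theorem cand {x : ℕ} (hx : x < 2 ^ 24) (hx3 : popc x = 3) {R : List ℕ}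
    (chk : ∀ a < 4096, (popc (enc B12 a) = 8 ∧ popc (enc B12 a &&& D0) = 6 ∧ x &&& (enc B12 a &&& D0) = x) →
      ((enc B12 a &&& D0) ^^^ x) ∈ R)
    {r : Finset GolayPt} (hr : r.card = 3) (hh : r ∪ un x ∈ hexadsOn (un D0)) : mk r ∈ R := by
  obtain ⟨h6, o, ho, e⟩ := hh
  obtain ⟨hc, hp⟩ := (mem_octads_iff _).1 ho
  have hdisj : Disjoint r (un x) := by
    rw [← Finset.card_union_eq_card_add_card, h6, hr, card_un, hx3]
  have e2 : r = symmDiff (o ∩ un D0) (un x) := by
    rw [e]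
    ext p
    have : p ∈ r → p ∉ un x := fun h => Finset.disjoint_left.1 hdisj h
    simp only [Finset.mem_symmDiff, Finset.mem_union]
    tauto
  have k := forall_isCode (P := fun c => (popc c = 8 ∧ popc (c &&& D0) = 6 ∧ x &&& (c &&& D0) = x) →
      ((c &&& D0) ^^^ x) ∈ R) chk _ hc
  have e3 : mk (o ∩ un D0) = mk o &&& D0 := by rw [mk_inter, mk_un D0_lt]
  have k1 : popc (mk o &&& D0) = 6 := by rw [← e3, ← card_eq_popc, e, h6]
  have k2 : x &&& (mk o &&& D0) = x := by
    have hs : un x ⊆ o ∩ un D0 := by rw [e]; exact Finset.subset_union_right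
    rw [subset_iff_land, mk_un hx, e3] at hs
    exact hs
  have k3 := k ⟨hp, k1, k2⟩
  rw [e2, mk_symmDiff, e3, mk_un hx]
  exact k3

theorem uniq0 {Q : Finset (Finset GolayPt)} (hQ : Q ∈ quartets (un D0)) (ht : un t0 ∈ Q) (hu : un u0 ∈ Q) :
    Q = Q0 := by
  apply Finset.eq_of_subset_of_card_le
  · intro r hr
    by_cases h1 : r = un t0
    · rw [h1]; exact mem_Q0.2 ⟨t0, t0_mem, rfl⟩
    · by_cases h2 : r = un u0
      · rw [h2]; exact mem_Q0.2 ⟨u0, u0_mem, rfl⟩
      · have c1 := cand (QM_ok t0 t0_mem).2.2 (QM_ok t0 t0_mem).1 chk1 (hQ.2.1 r hr).1 (hQ.2.2 r hr _ ht h1)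
        have c2 := cand (QM_ok u0 u0_mem).2.2 (QM_ok u0 u0_mem).1 chk2 (hQ.2.1 r hr).1 (hQ.2.2 r hr _ hu h2)
        exact mem_Q0.2 ⟨mk r, inter _ c1 c2, un_mk r⟩
  · rw [card_Q0, hQ.1]

/-- moving a dodecad and two triples to the base. -/
theorem to_base {d : Finset GolayPt} (hd : d ∈ dodecads) {t u : Finset GolayPt} (ht : t.card = 3)
    (hu : u.card = 3) (htu : Disjoint t u) (hh : t ∪ u ∈ hexadsOn d) :
    ∃ g ∈ M24, g • d = un D0 ∧ g • t = un t0 ∧ g • u = un u0 := by
  obtain ⟨a, b, c, hab, hac, hbc, rfl⟩ := Finset.card_eq_three.1 ht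
  obtain ⟨x, y, z, hxy, hxz, hyz, rfl⟩ := Finset.card_eq_three.1 hu
  obtain ⟨h6, o, ho, e⟩ := hh
  have hsub : ∀ p ∈ ({a, b, c} : Finset GolayPt) ∪ {x, y, z}, p ∈ d ∧ p ∈ o := by
    intro p hp
    rw [← e, Finset.mem_inter] at hp
    exact ⟨hp.2, hp.1⟩
  have hd' : ∀ p ∈ ({a, b, c} : Finset GolayPt), p ∉ ({x, y, z} : Finset GolayPt) :=
    fun p hp => Finset.disjoint_left.1 htu hp
  have hax : a ≠ x := fun h => hd' a (by simp) (by simp [h])
  have hay : a ≠ y := fun h => hd' a (by simp) (by simp [h])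
  have hbx : b ≠ x := fun h => hd' b (by simp) (by simp [h])
  have hby : b ≠ y := fun h => hd' b (by simp) (by simp [h])
  have hcx : c ≠ x := fun h => hd' c (by simp) (by simp [h])
  have hcy : c ≠ y := fun h => hd' c (by simp) (by simp [h])
  obtain ⟨g, hg, hgd, hmap⟩ := exists_map_dodecad hd [a, b, c, x, y] rfl
    (by simp [hab, hac, hbc, hax, hay, hbx, hby, hcx, hcy, hxy])
    (by
      intro p hp
      apply (hsub p _).1
      simp only [List.mem_cons, List.not_mem_nil, or_false] at hp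
      simp only [Finset.mem_union, Finset.mem_insert, Finset.mem_singleton]
      tauto)
  have hm : g a = ptOf 23 ∧ g b = ptOf 0 ∧ g c = ptOf 1 ∧ g x = ptOf 2 ∧ g y = ptOf 3 := by
    unfold base5 at hmap
    simp only [List.map_cons, List.map_nil, List.cons.injEq, and_true] at hmap
    exact hmap
  obtain ⟨ga, gb, gc, gx, gy⟩ := hm
  have e1 : g • ({a, b, c} : Finset GolayPt) = un t0 := by
    apply Finset.eq_of_subset_of_card_le
    · intro p hp
      obtain ⟨q, hq, rfl⟩ := Finset.mem_smul_finset.1 hp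
      simp only [Finset.mem_insert, Finset.mem_singleton] at hq
      rw [mem_un]
      rcases hq with rfl | rfl | rfl
      · show t0.testBit (idx (g q)) = true
        rw [ga, idx_ptOf (by decide)]; exact t0_bits.1
      · show t0.testBit (idx (g q)) = true
        rw [gb, idx_ptOf (by decide)]; exact t0_bits.2.1
      · show t0.testBit (idx (g q)) = true
        rw [gc, idx_ptOf (by decide)]; exact t0_bits.2.2
    · rw [Finset.card_smul_finset, ht, card_un, (QM_ok t0 t0_mem).1]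
  have eo : g • o = un O5 := by
    apply octad_eq_of_five (smul_mem_octads hg ho) (un_mem_octads isOct_O5)
    have hs : un F5 ⊆ g • o ∩ un O5 := by
      intro p hp
      have hp2 := hp
      rw [← mem_base5_iff, ← hmap, List.mem_map] at hp
      obtain ⟨q, hq, rfl⟩ := hp
      rw [Finset.mem_inter]
      constructor
      · rw [mem_smul_finset_iff]
        apply (hsub q _).2
        simp only [List.mem_cons, List.not_mem_nil, or_false] at hq
        simp only [Finset.mem_union, Finset.mem_insert, Finset.mem_singleton]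
        tauto
      · have hsub5 : un F5 ⊆ un O5 := by
          rw [subset_iff_land, mk_un (by decide), mk_un (by decide)]; decide +kernel
        exact hsub5 hp2
    calc 5 = (un F5).card := by rw [card_un]; decide +kernel
      _ ≤ _ := Finset.card_le_card hs
  have e2 : g • (({a, b, c} : Finset GolayPt) ∪ {x, y, z}) = un h0 := by
    rw [← e, Finset.smul_finset_inter, eo, hgd]
    apply mk_injective
    rw [mk_inter, mk_un (by decide), mk_un D0_lt, mk_un (by decide)]
    exact h0_eq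
  refine ⟨g, hg, hgd, e1, ?_⟩
  have e3 : ({x, y, z} : Finset GolayPt) = (({a, b, c} : Finset GolayPt) ∪ {x, y, z}) \ {a, b, c} :=
    (Finset.union_sdiff_cancel_left htu).symm
  rw [e3, Finset.smul_finset_sdiff, e2, e1]
  ext p
  rw [Finset.mem_sdiff, mem_un, mem_un, mem_un]
  exact (bits _ (idx_lt p)).symm

theorem main (d : Finset GolayPt) (hd : d ∈ dodecads) (t u : Finset GolayPt) (ht : t.card = 3)
    (hu : u.card = 3) (htu : Disjoint t u) (hh : t ∪ u ∈ hexadsOn d) :
    ∃! Q : Finset (Finset GolayPt), Q ∈ quartets d ∧ t ∈ Q ∧ u ∈ Q := by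
  obtain ⟨g, hg, e1, e2, e3⟩ := to_base hd ht hu htu hh
  refine ⟨g⁻¹ • Q0, ⟨?_, ?_, ?_⟩, ?_⟩
  · have := smul_quartets (M24.inv_mem hg) Q0_mem
    rwa [← e1, inv_smul_smul] at this
  · have : t = g⁻¹ • un t0 := by rw [← e2, inv_smul_smul]
    rw [this]
    exact Finset.smul_mem_smul_finset (mem_Q0.2 ⟨t0, t0_mem, rfl⟩)
  · have : u = g⁻¹ • un u0 := by rw [← e3, inv_smul_smul]
    rw [this]
    exact Finset.smul_mem_smul_finset (mem_Q0.2 ⟨u0, u0_mem, rfl⟩)
  · rintro Q' ⟨h1, h2, h3⟩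
    have k := smul_quartets hg h1
    rw [e1] at k
    have := uniq0 k (e2 ▸ Finset.smul_mem_smul_finset h2) (e3 ▸ Finset.smul_mem_smul_finset h3)
    rw [← this, inv_smul_smul]

end Cfsg.Agent.Lib.Helper3.Quartet
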