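import Mathlib
import Cfsg.Agent.Lib.Helper3.QuartetStabA
import Cfsg.Agent.Lib.Helper3.StabCard

/-!
# The stabiliser of a quartet
-/

set_option autoImplicit false

namespace Cfsg.Agent.Lib.Helper3.QuartetStab

open MulAction Cfsg Cfsg.Agent.Lib.Helper28 Cfsg.Agent.Lib.Helper3.M24T Cfsg.Agent.Lib.Helper3.M24Gen
  Cfsg.Agent.Lib.Helper3.Dod Cfsg.Agent.Lib.Helper3.Quartet
open scoped Pointwise

/-- the stabiliser of the base dodecad and the base quartet. -/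
def G0 : Subgroup (Equiv.Perm GolayPt) where
  carrier := {g | g ∈ M24 ∧ g • un D0 = un D0 ∧ g • Q0 = Q0}
  mul_mem' := fun {a b} ha hb => ⟨M24.mul_mem ha.1 hb.1, by rw [mul_smul, hb.2.1, ha.2.1],
    by rw [mul_smul, hb.2.2, ha.2.2]⟩
  one_mem' := ⟨M24.one_mem, one_smul _ _, one_smul _ _⟩
  inv_mem' := fun {a} ha => ⟨M24.inv_mem ha.1, by rw [inv_smul_eq_iff, ha.2.1],
    by rw [inv_smul_eq_iff, ha.2.2]⟩

theorem permOf_mem_G0 {c : List ℕ} (h1 : inM24 c = true) (h2 : pres c = true) : permOf c ∈ G0 := by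
  unfold pres at h2
  rw [Bool.and_eq_true, beq_iff_eq, List.all_eq_true] at h2
  have hT := isTbl_of_inM24 h1
  refine ⟨permOf_mem_M24 h1, by rw [permOf_smul_un hT D0_lt, h2.1], ?_⟩
  apply Finset.eq_of_subset_of_card_le
  · intro T hT'
    obtain ⟨T', hT'', rfl⟩ := Finset.mem_smul_finset.1 hT'
    obtain ⟨m, hm, rfl⟩ := mem_Q0.1 hT''
    rw [permOf_smul_un hT (QM_ok m hm).2.2]
    have := h2.2 m hm
    rw [List.contains_iff_mem] at this
    exact mem_Q0.2 ⟨_, this, rfl⟩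
  · rw [Finset.card_smul_finset]

theorem fixT {g : Equiv.Perm GolayPt} (hg : g ∈ G0) {m : ℕ} (hm : m ∈ QM) {p : GolayPt} (hp : p ∈ un m)
    (hgp : g p ∈ un m) : g • un m = un m := by
  have h1 : g • un m ∈ Q0 := by
    have := Finset.smul_mem_smul_finset (a := g) (mem_Q0.2 ⟨m, hm, rfl⟩)
    rwa [hg.2.2] at this
  obtain ⟨n, hn, e⟩ := mem_Q0.1 h1
  by_cases hnm : n = m
  · rw [← e, hnm]
  · exfalso
    have hd : Disjoint (un n) (un m) := by
      rw [disjoint_iff_land, mk_un (QM_ok n hn).2.2, mk_un (QM_ok m hm).2.2]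
      exact QM_disj n hn m hm hnm
    have h2 : g p ∈ un n := by rw [e]; exact (mem_smul_finset_iff g _ p).2 hp
    exact Finset.disjoint_left.1 hd h2 hgp

theorem permOf_ptOf' {t : List ℕ} (h : inM24 t = true) {i : ℕ} (hi : i < 24) :
    permOf t (ptOf i) = ptOf (t.getD i 0) := by
  rw [permOf_apply (isTbl_of_inM24 h), idx_ptOf hi]

theorem step {g : Equiv.Perm GolayPt} {c : List ℕ} (hc : inM24 c = true) {i : ℕ} (hi : i < 24)
    (e : c.getD i 0 = idx (g (ptOf i))) : ((permOf c)⁻¹ * g) (ptOf i) = ptOf i := by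
  rw [Equiv.Perm.mul_apply, Equiv.Perm.inv_eq_iff_eq, permOf_ptOf' hc hi, e, ptOf_idx]

theorem keep {g : Equiv.Perm GolayPt} {c : List ℕ} (hc : inM24 c = true) {j : ℕ} (hj : j < 24)
    (e : c.getD j 0 = j) (hg : g (ptOf j) = ptOf j) : ((permOf c)⁻¹ * g) (ptOf j) = ptOf j := by
  rw [Equiv.Perm.mul_apply, hg, Equiv.Perm.inv_eq_iff_eq, permOf_ptOf' hc hj, e]

theorem ne_of_fix {g : Equiv.Perm GolayPt} {i j : ℕ} (hi : i < 24) (hj : j < 24) (hne : i ≠ j)
    (hf : g (ptOf j) = ptOf j) : idx (g (ptOf i)) ≠ j := by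
  intro e
  have e2 : g (ptOf i) = g (ptOf j) := by rw [hf, ← e, ptOf_idx]
  have e3 := congrArg idx (g.injective e2)
  rw [idx_ptOf hi, idx_ptOf hj] at e3
  exact hne e3

theorem mem_pt {m i : ℕ} (hi : i < 24) (h : m.testBit i = true) : ptOf i ∈ un m := by
  rw [mem_un, idx_ptOf hi]; exact h

theorem map_of_fix {g : Equiv.Perm GolayPt} {s : Finset GolayPt} (h : g • s = s) {p : GolayPt} (hp : p ∈ s) :
    g p ∈ s := by
  have := (mem_smul_finset_iff g s p).2 hp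
  rwa [h] at this

theorem fix_t0 {g : Equiv.Perm GolayPt} (hg : g ∈ G0) (f23 : g (ptOf 23) = ptOf 23) : g • un t0 = un t0 :=
  fixT hg t0_mem (mem_pt (by decide) pt_bits.1) (by rw [f23]; exact mem_pt (by decide) pt_bits.1)

theorem fix_u0 {g : Equiv.Perm GolayPt} (hg : g ∈ G0) (f2 : g (ptOf 2) = ptOf 2) : g • un u0 = un u0 :=
  fixT hg u0_mem (mem_pt (by decide) pt_bits.2.2.2.1) (by rw [f2]; exact mem_pt (by decide) pt_bits.2.2.2.1)

theorem L5 {g : Equiv.Perm GolayPt} (hg : g ∈ G0) (f23 : g (ptOf 23) = ptOf 23) (f0 : g (ptOf 0) = ptOf 0)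
    (f2 : g (ptOf 2) = ptOf 2) (f3 : g (ptOf 3) = ptOf 3) : g = 1 := by
  have f1 : g (ptOf 1) = ptOf 1 := by
    have h1 := map_of_fix (fix_t0 hg f23) (mem_pt (by decide : 1 < 24) pt_bits.2.2.1)
    have h2 := t0_third _ (idx_lt _) (mem_un.1 h1) (ne_of_fix (by decide) (by decide) (by decide) f23)
      (ne_of_fix (by decide) (by decide) (by decide) f0)
    rw [← ptOf_idx (g (ptOf 1)), h2]
  have hs : g ∈ stabL [23, 0, 1, 2, 3] := by
    rw [mem_stabL]
    refine ⟨hg.1, ?_⟩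
    intro i hi
    simp only [List.mem_cons, List.not_mem_nil, or_false] at hi
    rcases hi with rfl | rfl | rfl | rfl | rfl
    · exact f23
    · exact f0
    · exact f1
    · exact f2
    · exact f3
  have h48 := tblOf_mem_list48 hs
  have hD : img (tblOf g) D0 = D0 := by
    have := mk_smul g (un D0)
    rw [hg.2.1, mk_un D0_lt] at this
    exact this.symm
  apply tblOf_injective
  rw [triv48 _ h48 hD, tblOf_one]

theorem L4 {g : Equiv.Perm GolayPt} (hg : g ∈ G0) (f23 : g (ptOf 23) = ptOf 23) (f0 : g (ptOf 0) = ptOf 0)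
    (f2 : g (ptOf 2) = ptOf 2) : ∃ d ∈ U4, g = permOf d := by
  have h1 := map_of_fix (fix_u0 hg f2) (mem_pt (by decide : 3 < 24) pt_bits.2.2.2.2.1)
  obtain ⟨d, hd, ed⟩ := U4_cov _ (idx_lt _) (mem_un.1 h1) (ne_of_fix (by decide) (by decide) (by decide) f2)
  obtain ⟨d1, d2, d3, d4, d5⟩ := U4_ok d hd
  have := L5 (G0.mul_mem (G0.inv_mem (permOf_mem_G0 d1 d2)) hg) (keep d1 (by decide) d3 f23)
    (keep d1 (by decide) d4 f0) (keep d1 (by decide) d5 f2) (step d1 (by decide) ed)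
  exact ⟨d, hd, by rw [← mul_one (permOf d), ← this, mul_inv_cancel_left]⟩

theorem L3 {g : Equiv.Perm GolayPt} (hg : g ∈ G0) (f23 : g (ptOf 23) = ptOf 23) (f0 : g (ptOf 0) = ptOf 0) :
    ∃ c ∈ U3, ∃ d ∈ U4, g = permOf c * permOf d := by
  have h1 := map_of_fix hg.2.1 (mem_pt (by decide : 2 < 24) pt_bits.2.2.2.2.2.2.2)
  have h2 : t0.testBit (idx (g (ptOf 2))) = false := by
    by_contra hcon
    have h3 : g (ptOf 2) ∈ g • un t0 := by
      rw [fix_t0 hg f23, mem_un]; simpa using hcon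
    rw [mem_smul_finset_iff, mem_un, idx_ptOf (by decide), pt_bits.2.2.2.2.2.1] at h3
    exact absurd h3 (by decide)
  obtain ⟨c, hc, ec⟩ := U3_cov _ (idx_lt _) (mem_un.1 h1) h2
  obtain ⟨c1, c2, c3, c4⟩ := U3_ok c hc
  obtain ⟨d, hd, e⟩ := L4 (G0.mul_mem (G0.inv_mem (permOf_mem_G0 c1 c2)) hg) (keep c1 (by decide) c3 f23)
    (keep c1 (by decide) c4 f0) (step c1 (by decide) ec)
  exact ⟨c, hc, d, hd, by rw [← e, mul_inv_cancel_left]⟩

theorem L2 {g : Equiv.Perm GolayPt} (hg : g ∈ G0) (f23 : g (ptOf 23) = ptOf 23) :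
    ∃ b ∈ U2, ∃ c ∈ U3, ∃ d ∈ U4, g = permOf b * (permOf c * permOf d) := by
  have h1 := map_of_fix (fix_t0 hg f23) (mem_pt (by decide : 0 < 24) pt_bits.2.1)
  obtain ⟨b, hb, eb⟩ := U2_cov _ (idx_lt _) (mem_un.1 h1) (ne_of_fix (by decide) (by decide) (by decide) f23)
  obtain ⟨b1, b2, b3⟩ := U2_ok b hb
  obtain ⟨c, hc, d, hd, e⟩ := L3 (G0.mul_mem (G0.inv_mem (permOf_mem_G0 b1 b2)) hg)
    (keep b1 (by decide) b3 f23) (step b1 (by decide) eb)
  exact ⟨b, hb, c, hc, d, hd, by rw [← e, mul_inv_cancel_left]⟩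

theorem sift {g : Equiv.Perm GolayPt} (hg : g ∈ G0) : tblOf g ∈ L432 := by
  obtain ⟨a, ha, ea⟩ := U1_cov _ (idx_lt _)
    (mem_un.1 (map_of_fix hg.2.1 (mem_pt (by decide : 23 < 24) pt_bits.2.2.2.2.2.2.1)))
  obtain ⟨a1, a2⟩ := U1_ok a ha
  obtain ⟨b, hb, c, hc, d, hd, e⟩ := L2 (G0.mul_mem (G0.inv_mem (permOf_mem_G0 a1 a2)) hg)
    (step a1 (by decide) ea)
  have e2 : g = permOf a * (permOf b * (permOf c * permOf d)) := by rw [← e, mul_inv_cancel_left]
  rw [e2, tblOf_mul, tblOf_mul, tblOf_mul, tblOf_permOf (isTbl_of_inM24 a1),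
    tblOf_permOf (isTbl_of_inM24 (U2_ok b hb).1), tblOf_permOf (isTbl_of_inM24 (U3_ok c hc).1),
    tblOf_permOf (isTbl_of_inM24 (U4_ok d hd).1)]
  exact List.mem_flatMap.2 ⟨a, ha, List.mem_flatMap.2 ⟨b, hb, List.mem_flatMap.2 ⟨c, hc,
    List.mem_map.2 ⟨d, hd, rfl⟩⟩⟩⟩

theorem card_G0 : Nat.card G0 = 432 := by
  rw [FusEnum2.card_eq_length (P := L432) (fun g hg => sift hg) ?_ L432_nodup, L432_len]
  intro t ht
  obtain ⟨h1, h2, _⟩ := L432_ok t ht
  exact ⟨isTbl_of_inM24 h1, permOf_mem_G0 h1 h2⟩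

/-! ### the matrices -/

theorem getD_mul (g h : Equiv.Perm GolayPt) {i : ℕ} (hi : i < 24) :
    (tblOf (g * h)).getD i 0 = (tblOf g).getD ((tblOf h).getD i 0) 0 := by
  rw [getD_tblOf _ hi, getD_tblOf h hi, getD_tblOf g (idx_lt _), ptOf_idx]; rfl

theorem chk_apply {c : List ℕ} (h : chkA c = true) {i j : ℕ} (hi : i < 24) (hj : j < 24)
    (hd : dom i j = true) :
    dom (c.getD i 0) (c.getD j 0) = true ∧ lam (c.getD i 0) (c.getD j 0) = act c (lam i j) := by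
  unfold chkA at h
  rw [List.all_eq_true] at h
  have h2 := dom_mem i hi j hj hd
  rw [List.any_eq_true] at h2
  obtain ⟨e, he, h3⟩ := h2
  simp only [Bool.and_eq_true, beq_iff_eq, decide_eq_true_eq] at h3
  obtain ⟨⟨e1, e2⟩, e3⟩ := h3
  have h4 := h e he
  simp only [Bool.and_eq_true, decide_eq_true_eq] at h4
  rw [e1, e2, e3] at h4
  exact h4

theorem chk_tbl {g : Equiv.Perm GolayPt} (hg : g ∈ G0) : chkA (tblOf g) = true := (L432_ok _ (sift hg)).2.2

theorem lt_tbl (g : Equiv.Perm GolayPt) {i : ℕ} (hi : i < 24) : (tblOf g).getD i 0 < 24 := by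
  rw [getD_tblOf g hi]; exact idx_lt _

theorem col1_mul {g h : Equiv.Perm GolayPt} (hg : g ∈ G0) (hh : h ∈ G0) :
    col1 (tblOf (g * h)) = act (tblOf g) (col1 (tblOf h)) := by
  unfold col1
  rw [getD_mul g h (by decide), getD_mul g h (by decide)]
  have k1 := chk_apply (chk_tbl hh) (by decide : 0 < 24) (by decide : 1 < 24) dom_base.1
  exact (chk_apply (chk_tbl hg) (lt_tbl h (by decide)) (lt_tbl h (by decide)) k1.1).2

theorem col2_mul {g h : Equiv.Perm GolayPt} (hg : g ∈ G0) (hh : h ∈ G0) :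
    col2 (tblOf (g * h)) = act (tblOf g) (col2 (tblOf h)) := by
  unfold col2
  rw [getD_mul g h (by decide), getD_mul g h (by decide)]
  have k1 := chk_apply (chk_tbl hh) (by decide : 2 < 24) (by decide : 3 < 24) dom_base.2.1
  exact (chk_apply (chk_tbl hg) (lt_tbl h (by decide)) (lt_tbl h (by decide)) k1.1).2

/-- the matrix of an element. -/
def MM (g : Equiv.Perm GolayPt) : Matrix (Fin 2) (Fin 2) (ZMod 3) :=
  !![(col1 (tblOf g)).1, (col2 (tblOf g)).1; (col1 (tblOf g)).2, (col2 (tblOf g)).2]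

theorem MM_mul {g h : Equiv.Perm GolayPt} (hg : g ∈ G0) (hh : h ∈ G0) : MM (g * h) = MM g * MM h := by
  unfold MM
  rw [col1_mul hg hh, col2_mul hg hh, Matrix.mul_fin_two]
  rfl

theorem MM_one : MM 1 = 1 := by
  unfold MM
  rw [tblOf_one]
  have e1 : col1 idT = (1, 0) := by decide +kernel
  have e2 : col2 idT = (0, 1) := by decide +kernel
  rw [e1, e2]
  exact Matrix.one_fin_two.symm

/-- the homomorphism. -/
def phi0 : ↥G0 →* Matrix (Fin 2) (Fin 2) (ZMod 3) where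
  toFun g := MM g.1
  map_one' := MM_one
  map_mul' a b := MM_mul a.2 b.2

/-- the homomorphism. -/
def phi : ↥G0 →* GL (Fin 2) (ZMod 3) := phi0.toHomUnits

theorem ker_mem {g : ↥G0} (hg : g ∈ phi.ker) : tblOf g.1 ∈ N9 := by
  rw [MonoidHom.mem_ker] at hg
  have h1 : MM g.1 = 1 := congrArg Units.val hg
  unfold MM at h1
  have a00 := congrFun (congrFun h1 0) 0
  have a01 := congrFun (congrFun h1 0) 1
  have a10 := congrFun (congrFun h1 1) 0
  have a11 := congrFun (congrFun h1 1) 1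
  simp at a00 a01 a10 a11
  exact ker_chk _ (sift g.2) (Prod.ext a00 a10) (Prod.ext a01 a11)

theorem card_ker_le : Nat.card phi.ker ≤ 9 := by
  have hf : ∀ g : phi.ker, tblOf g.1.1 ∈ N9.toFinset := fun g => List.mem_toFinset.2 (ker_mem g.2)
  have h1 : Nat.card phi.ker ≤ Nat.card ↥N9.toFinset := by
    apply Nat.card_le_card_of_injective (fun g : phi.ker => (⟨tblOf g.1.1, hf g⟩ : ↥N9.toFinset))
    intro x y e
    exact Subtype.ext (Subtype.ext (tblOf_injective (congrArg Subtype.val e)))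
  have h2 : Nat.card ↥N9.toFinset = N9.toFinset.card := by
    rw [Nat.card_eq_fintype_card, Fintype.card_coe]
  rw [h2] at h1
  exact h1.trans ((List.toFinset_card_le _).trans (by rw [N9_len]))

theorem card_target : Nat.card (GL (Fin 2) (ZMod 3)) = 48 := by
  rw [Matrix.card_GL_field, ZMod.card, Fin.prod_univ_two]
  rfl

theorem card_ker_mul {G H : Type*} [Group G] [Group H] (f : G →* H) :
    Nat.card f.ker * Nat.card f.range = Nat.card G := by
  rw [← Subgroup.index_ker, Subgroup.card_mul_index]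

theorem phi_surj : Function.Surjective phi := by
  rw [← MonoidHom.range_eq_top]
  have h1 := card_ker_mul phi
  rw [card_G0] at h1
  have h2 := card_ker_le
  have h3 : Nat.card phi.range ≤ 48 := by
    rw [← card_target]; exact Subgroup.card_le_card_group _
  apply Subgroup.eq_top_of_card_eq
  rw [card_target]
  nlinarith

theorem structure_of {G : Type*} [Group G] (e : G ≃* ↥G0) :
    ∃ (N : Subgroup G) (_ : N.Normal), Nat.card N = 9 ∧ Nonempty (G ⧸ N ≃* GL (Fin 2) (ZMod 3)) := by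
  have hs : Function.Surjective (phi.comp e.toMonoidHom) := phi_surj.comp e.surjective
  refine ⟨(phi.comp e.toMonoidHom).ker, MonoidHom.normal_ker _, ?_,
    ⟨QuotientGroup.quotientKerEquivOfSurjective _ hs⟩⟩
  have h1 := card_ker_mul (phi.comp e.toMonoidHom)
  rw [MonoidHom.range_eq_top.2 hs, Subgroup.card_top, card_target, Nat.card_congr e.toEquiv, card_G0] at h1
  omega

/-! ### transport -/

theorem to_base' {d : Finset GolayPt} (hd : d ∈ dodecads) {Q : Finset (Finset GolayPt)} (hQ : Q ∈ quartets d) :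
    ∃ k ∈ M24, k • d = un D0 ∧ k • Q = Q0 := by
  obtain ⟨t, ht, u, hu, hne⟩ := Finset.one_lt_card.1 (by rw [hQ.1]; norm_num : 1 < Q.card)
  have hh := hQ.2.2 t ht u hu hne
  have hdisj : Disjoint t u := by
    rw [← Finset.card_union_eq_card_add_card, hh.1, (hQ.2.1 t ht).1, (hQ.2.1 u hu).1]
  obtain ⟨k, hk, e1, e2, e3⟩ := to_base hd (hQ.2.1 t ht).1 (hQ.2.1 u hu).1 hdisj hh
  refine ⟨k, hk, e1, ?_⟩
  have h1 := smul_quartets hk hQ
  rw [e1] at h1
  exact uniq0 h1 (e2 ▸ Finset.smul_mem_smul_finset ht) (e3 ▸ Finset.smul_mem_smul_finset hu)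

/-- conjugation onto the base stabiliser. -/
def conjEquiv {d : Finset GolayPt} {Q : Finset (Finset GolayPt)} {k : Equiv.Perm GolayPt} (hk : k ∈ M24)
    (e1 : k • d = un D0) (e2 : k • Q = Q0) : ↥(stabilizer M24 d ⊓ stabilizer M24 Q) ≃* ↥G0 where
  toFun g := ⟨k * g.1.1 * k⁻¹, conj_mem hk g.1.2, by
    have h : g.1.1 • d = d := g.2.1
    rw [mul_smul, mul_smul, ← e1, inv_smul_smul, h], by
    have h : g.1.1 • Q = Q := g.2.2
    rw [mul_smul, mul_smul, ← e2, inv_smul_smul, h]⟩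
  invFun h := ⟨⟨k⁻¹ * h.1 * k, M24.mul_mem (M24.mul_mem (M24.inv_mem hk) h.2.1) hk⟩, by
    show (k⁻¹ * h.1 * k) • d = d
    rw [mul_smul, mul_smul, e1, h.2.2.1, ← e1, inv_smul_smul], by
    show (k⁻¹ * h.1 * k) • Q = Q
    rw [mul_smul, mul_smul, e2, h.2.2.2, ← e2, inv_smul_smul]⟩
  left_inv g := Subtype.ext (Subtype.ext (by
    show k⁻¹ * (k * g.1.1 * k⁻¹) * k = g.1.1
    group))
  right_inv h := Subtype.ext (by
    show k * (k⁻¹ * h.1 * k) * k⁻¹ = h.1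
    group)
  map_mul' a b := Subtype.ext (by
    show k * (a.1.1 * b.1.1) * k⁻¹ = k * a.1.1 * k⁻¹ * (k * b.1.1 * k⁻¹)
    group)

theorem trans0 {y : GolayPt} (hy : y ∈ un D0) : ∃ g ∈ G0, g (ptOf 23) = y := by
  obtain ⟨c, hc, e⟩ := U1_cov _ (idx_lt y) (mem_un.1 hy)
  obtain ⟨h1, h2⟩ := U1_ok c hc
  exact ⟨permOf c, permOf_mem_G0 h1 h2, by rw [permOf_ptOf' h1 (by decide), e, ptOf_idx]⟩

theorem main (d : Finset GolayPt) (hd : d ∈ dodecads) (Q : Finset (Finset GolayPt)) (hQ : Q ∈ quartets d) :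
    Nat.card ↥(stabilizer M24 d ⊓ stabilizer M24 Q) = 432 ∧
    (∃ (N : Subgroup ↥(stabilizer M24 d ⊓ stabilizer M24 Q)) (_ : N.Normal), Nat.card N = 9 ∧
      Nonempty (↥(stabilizer M24 d ⊓ stabilizer M24 Q) ⧸ N ≃* GL (Fin 2) (ZMod 3))) ∧
    ∀ p ∈ d, ∀ q ∈ d, ∃ g ∈ (stabilizer M24 d ⊓ stabilizer M24 Q),
      ((g : ↥M24) : Equiv.Perm GolayPt) p = q := by
  obtain ⟨k, hk, e1, e2⟩ := to_base' hd hQ
  refine ⟨by rw [Nat.card_congr (conjEquiv hk e1 e2).toEquiv, card_G0], structure_of (conjEquiv hk e1 e2), ?_⟩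
  intro p hp q hq
  have hin : ∀ x ∈ d, k x ∈ un D0 := fun x hx => by
    rw [← e1]; exact (mem_smul_finset_iff k d x).2 hx
  obtain ⟨a, ha, ea⟩ := trans0 (hin p hp)
  obtain ⟨b, hb, eb⟩ := trans0 (hin q hq)
  have hh : b * a⁻¹ ∈ G0 := G0.mul_mem hb (G0.inv_mem ha)
  refine ⟨((conjEquiv hk e1 e2).symm ⟨b * a⁻¹, hh⟩).1, ((conjEquiv hk e1 e2).symm ⟨b * a⁻¹, hh⟩).2, ?_⟩
  show (k⁻¹ * (b * a⁻¹) * k) p = q
  simp only [Equiv.Perm.mul_apply]
  have e3 : a⁻¹ (k p) = ptOf 23 := by rw [Equiv.Perm.inv_eq_iff_eq, ea]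
  rw [e3, eb]
  simp

theorem count (d : Finset GolayPt) (hd : d ∈ dodecads) :
    (quartets d).ncard = 220 ∧ ∀ Q ∈ quartets d, ∀ Q' ∈ quartets d,
      ∃ g : Equiv.Perm GolayPt, g ∈ M24 ∧ g • d = d ∧ g • Q = Q' := by
  have htr : ∀ Q ∈ quartets d, ∀ Q' ∈ quartets d,
      ∃ g : Equiv.Perm GolayPt, g ∈ M24 ∧ g • d = d ∧ g • Q = Q' := by
    intro Q hQ Q' hQ'
    obtain ⟨k, hk, e1, e2⟩ := to_base' hd hQ
    obtain ⟨k', hk', e1', e2'⟩ := to_base' hd hQ'
    exact ⟨k'⁻¹ * k, M24.mul_mem (M24.inv_mem hk') hk, by rw [mul_smul, e1, ← e1', inv_smul_smul],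
      by rw [mul_smul, e2, ← e2', inv_smul_smul]⟩
  refine ⟨?_, htr⟩
  obtain ⟨k, hk, e⟩ := exists_smul_eq hd D0_dod
  have hQ : k⁻¹ • Q0 ∈ quartets d := by
    have := smul_quartets (M24.inv_mem hk) Q0_mem
    rwa [← e, inv_smul_smul] at this
  have horb : orbit ↥(stabilizer M24 d) (k⁻¹ • Q0) = quartets d := by
    ext Y
    constructor
    · rintro ⟨g, rfl⟩
      have h1 := smul_quartets g.1.2 hQ
      have h2 : g.1.1 • d = d := g.2
      rw [h2] at h1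
      exact h1
    · intro hY
      obtain ⟨g, hg, h1, h2⟩ := htr _ hQ Y hY
      exact ⟨⟨⟨g, hg⟩, h1⟩, h2⟩
  have h1 := StabCard.card_inf_stabilizer_mul (stabilizer M24 d) (k⁻¹ • Q0)
  rw [horb, (main d hd _ hQ).1, M12.card_stab hd] at h1
  omega

end Cfsg.Agent.Lib.Helper3.QuartetStab
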