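import Mathlib
import Cfsg.Agent.Lib.Helper3.SetSys3
import Cfsg.Agent.Lib.Helper3.QuartetStab

/-!
# The orbits of the stabiliser of a quartet on the quartets
-/

set_option autoImplicit false
set_option maxRecDepth 1000000
open scoped Pointwise
open Cfsg

namespace Cfsg.Agent.Lib.Helper3.QuartetOrb

open MulAction Cfsg.Agent.Lib.Helper28 Cfsg.Agent.Lib.Helper3.M24T Cfsg.Agent.Lib.Helper3.Orb
open Cfsg.Agent.Lib.Helper3.SS Cfsg.Agent.Lib.Helper3.Dod Cfsg.Agent.Lib.Helper3.Quartet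
open Cfsg.Agent.Lib.Helper3.QuartetStab Cfsg.Agent.Lib.Helper3

theorem orbits_main2 {β γ : Type*} [MulAction (Equiv.Perm GolayPt) β]
    [MulAction (Equiv.Perm GolayPt) γ] (ι : γ → Finset (Finset GolayPt))
    (hι : ∀ (g : Equiv.Perm GolayPt) (x : γ), ι (g • x) = g • ι x) (B0 : β)
    (gens : List (List ℕ)) (hgens : ∀ t ∈ gens, isTbl t = true ∧ permOf t ∈ stabIn B0)
    (k : Equiv.Perm GolayPt) (hk : k ∈ M24) (B : β) (hB : k • B = B0)
    (Obj : Set γ) (hfin : Obj.Finite) (hObj : ∀ g ∈ stabIn B, ∀ x ∈ Obj, g • x ∈ Obj)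
    (P : ℕ) (data : List Entry) (hdata : certOkL gens (codeL P) data = true)
    (X0 : List ℕ → γ) (hX : ∀ e ∈ data, k⁻¹ • X0 e.1 ∈ Obj ∧ ι (X0 e.1) = unL e.1)
    (htot : Obj.ncard = ∑ i ∈ Finset.range data.length, (data.getD i default).2.2.length)
    (hpos : ∀ e ∈ data, e.2.2 ≠ [])
    (N : ℕ)
    (hnum : ∀ J ∈ (Finset.range data.length).powerset, ∀ i ∈ J,
      (∑ j ∈ J, (data.getD j default).2.2.length) ∣ N → J = {i})
    (hN : Nat.card ↥(stabIn B) = N) :
    (∀ i < data.length, k⁻¹ • X0 (data.getD i default).1 ∈ Obj) ∧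
    (∀ x ∈ Obj, ∃ i < data.length, x ∈ orbE B (k⁻¹ • X0 (data.getD i default).1)) ∧
    (∀ i < data.length, orbE B (k⁻¹ • X0 (data.getD i default).1) =
      {x | x ∈ Obj ∧ code P (k • ι x) ∈ (data.getD i default).2.2.toFinset}) ∧
    (∀ i < data.length, (orbE B (k⁻¹ • X0 (data.getD i default).1)).ncard =
      (data.getD i default).2.2.length) := by
  simp only [certOkL, Bool.and_eq_true, List.all_eq_true] at hdata
  obtain ⟨hent, hdis⟩ := hdata
  have hmem : ∀ i < data.length, data.getD i default ∈ data := by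
    intro i hi
    rw [List.getD_eq_getElem _ _ hi]
    exact List.getElem_mem hi
  have hes := fun i (hi : i < data.length) =>
    entry_sound (stabIn B0) gens hgens (codeL P) _ (hent _ (hmem i hi))
  have hcardD : ∀ i < data.length, ((data.getD i default).2.2.toFinset).card =
      (data.getD i default).2.2.length := fun i hi =>
    List.toFinset_card_of_nodup (hes i hi).2.1
  have hkinv : k⁻¹ ∈ M24 := M24.inv_mem hk
  have hBk : B = k⁻¹ • B0 := by rw [← hB, inv_smul_smul]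
  have key := OrbCert.orbits_of_cert (G := ↥(stabIn B)) Obj hfin
    (fun g x hx => hObj g.1 g.2 x hx) data.length
    (fun i => k⁻¹ • X0 (data.getD i default).1)
    (fun i hi => (hX _ (hmem i hi)).1)
    (fun x => code P (k • ι x)) (fun i => (data.getD i default).2.2.toFinset)
    (by
      intro i hi c hc
      rw [List.mem_toFinset] at hc
      obtain ⟨h, hh, l', hl', hgl, hcl⟩ := (hes i hi).2.2 c hc
      refine ⟨⟨k⁻¹ * h * k, M24.mul_mem (M24.mul_mem hkinv hh.1) hk, ?_⟩, ?_⟩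
      · change (k⁻¹ * h * k) • B = B
        rw [mul_smul, mul_smul, hB, (mem_stabIn.1 hh).2, hBk]
      · change code P (k • ι ((k⁻¹ * h * k) • (k⁻¹ • X0 (data.getD i default).1))) = c
        rw [mul_smul, mul_smul, smul_inv_smul, hι, smul_inv_smul, hι, (hX _ (hmem i hi)).2, hgl,
          code_unL P hl', hcl])
    (by
      intro i hi j hj hij
      have hp := disjOk_sound data hdis
      rw [List.getD_eq_getElem _ _ hi, List.getD_eq_getElem _ _ hj]
      rcases lt_or_gt_of_ne hij with h | h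
      · exact List.pairwise_iff_getElem.1 hp i j hi hj h
      · exact (List.pairwise_iff_getElem.1 hp j i hj hi h).symm)
    (by
      rw [htot]
      exact Finset.sum_congr rfl (fun i hi => (hcardD i (Finset.mem_range.1 hi)).symm))
    (by
      intro i hi
      have := hpos _ (hmem i hi)
      obtain ⟨c, hc⟩ := List.exists_mem_of_ne_nil _ this
      exact ⟨c, List.mem_toFinset.2 hc⟩)
    (by
      intro J hJ i hiJ hdvd
      apply hnum J hJ i hiJ
      rw [← hN]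
      have : ∑ j ∈ J, (data.getD j default).2.2.length =
          ∑ j ∈ J, ((data.getD j default).2.2.toFinset).card :=
        Finset.sum_congr rfl (fun j hj =>
          (hcardD j (Finset.mem_range.1 (Finset.mem_powerset.1 hJ hj))).symm)
      rw [this]
      exact hdvd)
  obtain ⟨_, k2, k3, k4⟩ := key
  refine ⟨fun i hi => (hX _ (hmem i hi)).1, ?_, ?_, ?_⟩
  · intro x hx
    obtain ⟨i, hi, hc⟩ := k2 x hx
    refine ⟨i, hi, ?_⟩
    rw [← orbit_stabIn, k3 i hi]
    exact ⟨hx, hc⟩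
  · intro i hi
    rw [← orbit_stabIn]
    exact k3 i hi
  · intro i hi
    rw [← orbit_stabIn, k4 i hi, hcardD i hi]


def gensA : List (List ℕ) :=
  [[1, 23, 2, 17, 19, 14, 11, 8, 22, 20, 10, 13, 4, 7, 5, 9, 21, 3, 16, 18, 15, 12, 6, 0],
   [23, 0, 2, 17, 12, 14, 22, 13, 7, 15, 10, 6, 21, 11, 5, 20, 18, 3, 19, 4, 9, 16, 8, 1],
   [12, 19, 0, 1, 3, 5, 15, 6, 13, 11, 14, 7, 18, 22, 10, 8, 4, 23, 2, 21, 20, 17, 9, 16],
   [2, 3, 18, 4, 16, 5, 7, 11, 15, 22, 14, 9, 0, 8, 10, 6, 23, 21, 12, 1, 20, 19, 13, 17]]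

def dataS : List Entry :=
  [([131084, 593920, 2359312, 8388611],
    [],
    [3174]),
   ([22, 593920, 2228225, 8650760],
    [0, 0, 0, 0, 0, 2, 2, 0, 0, 3, 0],
    [110, 203, 309, 345, 817, 1001, 1230, 1500, 1677, 1686, 2167, 2488]),
   ([7, 786448, 2166784, 8519688],
    [0, 0, 2, 0, 0, 0, 0, 0, 2, 0, 0, 0, 0, 0, 3, 0, 0, 0, 0, 0, 3, 0, 0, 0, 0, 0],
    [72, 108, 329, 359, 501, 511, 534, 633, 660, 734, 1233, 1246, 1758, 1848, 1908, 1973, 2053, 2170,
     2318, 2429, 2530, 2753, 2763, 2775, 2923, 2936, 3217]),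
   ([7, 589832, 2228240, 8654848],
    [0, 0, 2, 0, 0, 0, 0, 0, 2, 0, 0, 0, 0, 0, 3, 0, 0, 0, 0, 0, 3, 0, 0, 0, 0, 0, 1, 3, 0, 0, 0, 0, 0,
     2, 0, 0, 0, 0, 0, 2, 0, 0, 0, 0, 0, 3, 0, 0, 0, 0, 0, 1, 2, 0, 0, 3, 0, 0, 0, 0, 0, 1, 1, 1, 1, 3,
     0, 0, 0, 0, 0, 1, 3, 0, 0, 0, 0, 0],
    [10, 69, 114, 135, 174, 181, 193, 244, 288, 320, 348, 368, 406, 438, 440, 482, 513, 544, 546, 630,
     769, 824, 827, 882, 900, 1062, 1165, 1171, 1195, 1221, 1333, 1372, 1389, 1420, 1488, 1515, 1521,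
     1601, 1638, 1656, 1826, 1885, 1893, 1981, 2094, 2157, 2168, 2175, 2328, 2373, 2432, 2442, 2456,
     2509, 2536, 2675, 2704, 2760, 2774, 2782, 2792, 2875, 2887, 2988, 2999, 3002, 3011, 3047, 3069,
     3110, 3185, 3321]),
   ([7, 4120, 458752, 11010048],
    [0, 0, 2, 0, 0, 0, 0, 0, 2, 0, 0, 0, 0, 0, 3, 0, 0, 0, 0, 0, 2, 0, 0, 0, 0, 0, 3, 0, 0, 0, 0, 0, 2,
     0, 0, 0, 0, 0, 2, 0, 0, 0, 0, 0, 3, 0, 0, 0, 0, 0, 2, 0, 0, 0, 0, 0, 2, 0, 0, 0, 0, 0, 3, 0, 0, 0,
     0, 0, 3, 0, 0, 0, 0, 0, 1, 3, 0, 0, 0, 0, 0, 1, 2, 0, 0, 1, 1, 2, 0, 0, 0, 0, 0, 3, 0, 0, 0, 0, 0,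
     2, 0, 0, 0, 0, 0, 1, 2, 0, 0, 0, 0, 0],
    [92, 151, 155, 264, 275, 312, 316, 328, 347, 386, 402, 442, 443, 665, 666, 700, 741, 745, 751, 778,
     888, 890, 898, 930, 949, 991, 1047, 1056, 1073, 1089, 1091, 1119, 1179, 1238, 1244, 1247, 1254,
     1259, 1297, 1302, 1366, 1381, 1455, 1512, 1574, 1658, 1663, 1693, 1710, 1775, 1777, 1807, 1816,
     1832, 1853, 1870, 1890, 1935, 1947, 1967, 1976, 1979, 1987, 2016, 2055, 2058, 2073, 2082, 2120,
     2132, 2151, 2182, 2255, 2276, 2281, 2297, 2327, 2347, 2411, 2436, 2452, 2467, 2485, 2554, 2561,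
     2652, 2667, 2689, 2723, 2783, 2811, 2841, 2860, 2898, 2919, 2961, 3012, 3020, 3027, 3070, 3107,
     3109, 3125, 3133, 3135, 3172, 3249, 3288])]

def W132 : List ℕ := [13062145, 9347075, 10305542, 5902343, 7221256, 11100169, 2605066, 14716939, 12222476, 3416079, 10170384, 1413139, 5210132, 8966165, 421910, 12656663, 16056344, 3297305, 2207772, 6832158, 10846245, 2826278, 2031657, 4526126, 8536111, 2969648, 15335473, 11538486, 8663097, 692282, 2854977, 10825794, 13303882, 806987, 9506893, 4063314, 10698836, 6557781, 663645, 8683614, 9310308, 2162811, 864389, 8622214, 3739786, 10768524, 6488205, 13373586, 737427, 9830549, 2916505, 10625178, 2494627, 8978620, 11010247, 463064, 11731203, 15274244, 3031301, 8855820, 622863, 10916112, 2634003, 8474906, 4587803, 1839388, 11272490, 201013, 2232654, 9240913, 9048457, 2425238, 12325377, 15073798, 2183687, 430605, 8925710, 2564625, 11108882, 9323032, 4788761, 1245726, 10687016, 786999,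 2949708, 8524371, 8716939, 2757268, 987906, 10486557, 10630149, 2921478, 9835530, 742412, 13370381, 6493202, 10765331, 3736597, 8619033, 861210, 8983587, 2491452, 459847, 11015256, 11469952, 5279, 2430217, 9045270, 2754059, 8721940, 11163650, 7145475, 3610628, 9279496, 210955, 11282452, 2263063, 9963547, 12720156, 346141, 2627629, 8849458, 10881097, 596054, 919694, 10557585, 8657159, 2820376, 9112069, 2365978, 10554382, 924689]

theorem dataS_ok : certOkL gensA (codeL 3343) dataS = true := by decide +kernel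
theorem dataS_len : dataS.length = 5 := by decide +kernel
theorem gensA_ok : ∀ c ∈ gensA, inM24 c = true ∧ pres c = true := by decide +kernel
theorem dataS_obj : ∀ e ∈ dataS, (∀ m ∈ e.1, popc m = 3 ∧ m &&& D0 = m ∧ m < 2 ^ 24) ∧ e.1.Nodup ∧ e.1.length = 4 ∧
    ∀ m ∈ e.1, ∀ n ∈ e.1, m ≠ n → popc (m ||| n) = 6 ∧ ∃ o ∈ W132, isOct o = true ∧ o &&& D0 = m ||| n := by
  decide +kernel

theorem mem_quartets_of {l : List ℕ} (h1 : ∀ m ∈ l, popc m = 3 ∧ m &&& D0 = m ∧ m < 2 ^ 24) (h2 : l.Nodup)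
    (h3 : l.length = 4)
    (h4 : ∀ m ∈ l, ∀ n ∈ l, m ≠ n → popc (m ||| n) = 6 ∧ ∃ o ∈ W132, isOct o = true ∧ o &&& D0 = m ||| n) :
    unL l ∈ quartets (un D0) := by
  have hmem : ∀ t, t ∈ unL l ↔ ∃ m ∈ l, un m = t := fun t => by
    unfold unL; rw [List.mem_toFinset, List.mem_map]
  refine ⟨by rw [card_unL ⟨h2, fun m hm => (h1 m hm).2.2⟩, h3], ?_, ?_⟩
  · intro t ht
    obtain ⟨m, hm, rfl⟩ := (hmem t).1 ht
    obtain ⟨a1, a2, a3⟩ := h1 m hm
    exact ⟨by rw [card_un]; exact a1, by rw [subset_iff_land, mk_un a3, mk_un D0_lt]; exact a2⟩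
  · intro t ht u hu hne
    obtain ⟨m, hm, rfl⟩ := (hmem t).1 ht
    obtain ⟨n, hn, rfl⟩ := (hmem u).1 hu
    obtain ⟨h6, o, _, ho, e⟩ := h4 m hm n hn (fun e => hne (by rw [e]))
    have lm := (h1 m hm).2.2
    have ln := (h1 n hn).2.2
    refine ⟨by rw [card_eq_popc, mk_union, mk_un lm, mk_un ln]; exact h6, un o, un_mem_octads ho, ?_⟩
    apply mk_injective
    rw [mk_inter, mk_union, mk_un lm, mk_un ln, mk_un D0_lt, mk_un (isCode_lt (isOct_iff.1 ho).1)]
    exact e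

theorem main (d : Finset GolayPt) (hd : d ∈ dodecads) (Q : Finset (Finset GolayPt)) (hQ : Q ∈ quartets d) :
    ∃ X₁ ∈ quartets d, ∃ X₂ ∈ quartets d, ∃ X₃ ∈ quartets d, ∃ X₄ ∈ quartets d,
      (orbit ↥(stabilizer M24 d ⊓ stabilizer M24 Q) X₁).ncard = 12 ∧
      (orbit ↥(stabilizer M24 d ⊓ stabilizer M24 Q) X₂).ncard = 27 ∧
      (orbit ↥(stabilizer M24 d ⊓ stabilizer M24 Q) X₃).ncard = 72 ∧
      (orbit ↥(stabilizer M24 d ⊓ stabilizer M24 Q) X₄).ncard = 108 ∧
      quartets d = {Q} ∪ orbit ↥(stabilizer M24 d ⊓ stabilizer M24 Q) X₁ ∪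
        orbit ↥(stabilizer M24 d ⊓ stabilizer M24 Q) X₂ ∪ orbit ↥(stabilizer M24 d ⊓ stabilizer M24 Q) X₃ ∪
        orbit ↥(stabilizer M24 d ⊓ stabilizer M24 Q) X₄ := by
  obtain ⟨k, hk, e1, e2⟩ := to_base' hd hQ
  have hkB : k • (d, Q) = (un D0, Q0) := by rw [Prod.smul_mk, e1, e2]
  have hN : Nat.card ↥(stabIn (d, Q)) = 432 := by
    rw [← (QuartetStab.main d hd Q hQ).1]
    apply Nat.card_congr
    exact
      { toFun := fun g => ⟨⟨g.1, g.2.1⟩, congrArg Prod.fst g.2.2, congrArg Prod.snd g.2.2⟩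
        invFun := fun g => ⟨g.1.1, g.1.2, Prod.ext g.2.1 g.2.2⟩
        left_inv := fun _ => rfl
        right_inv := fun _ => rfl }
  have horb : ∀ X : Finset (Finset GolayPt),
      orbit ↥(stabilizer M24 d ⊓ stabilizer M24 Q) X = orbE (d, Q) X := by
    intro X
    ext Y
    constructor
    · rintro ⟨⟨⟨g, hg⟩, hgs⟩, rfl⟩
      exact ⟨g, hg, Prod.ext hgs.1 hgs.2, rfl⟩
    · rintro ⟨g, hg, hgs, rfl⟩
      exact ⟨⟨⟨g, hg⟩, congrArg Prod.fst hgs, congrArg Prod.snd hgs⟩, rfl⟩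
  simp only [horb]
  have hinv : ∀ x ∈ quartets (un D0), k⁻¹ • x ∈ quartets d := by
    intro x hx
    have := smul_quartets (M24.inv_mem hk) hx
    rwa [← e1, inv_smul_smul] at this
  obtain ⟨m1, m2, m3, m4⟩ := orbits_main2 id (fun _ _ => rfl) ((un D0, Q0) : Finset GolayPt × Finset (Finset GolayPt))
    gensA (fun t ht => ⟨isTbl_of_inM24 (gensA_ok t ht).1, by
      have := permOf_mem_G0 (gensA_ok t ht).1 (gensA_ok t ht).2
      exact ⟨this.1, Prod.ext this.2.1 this.2.2⟩⟩) k hk (d, Q) hkB (quartets d)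
    (Set.toFinite _) (fun g hg x hx => by
      have h1 := smul_quartets hg.1 hx
      have h2 : g • d = d := congrArg Prod.fst hg.2
      rwa [h2] at h1) 3343 dataS dataS_ok unL
    (fun e he => ⟨hinv _ (mem_quartets_of (dataS_obj e he).1 (dataS_obj e he).2.1 (dataS_obj e he).2.2.1
      (dataS_obj e he).2.2.2), rfl⟩)
    (by rw [(count d hd).1]; decide +kernel) (by decide +kernel) 432 (by decide +kernel) hN
  rw [dataS_len] at m1 m2 m3 m4
  have h00 : k⁻¹ • unL (dataS.getD 0 default).1 = Q := by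
    have h0 : unL (dataS.getD 0 default).1 = Q0 := by
      have h1 : unL (dataS.getD 0 default).1 ∈ quartets (un D0) := by
        have he : dataS.getD 0 default ∈ dataS := by decide +kernel
        exact mem_quartets_of (dataS_obj _ he).1 (dataS_obj _ he).2.1 (dataS_obj _ he).2.2.1 (dataS_obj _ he).2.2.2
      apply uniq0 h1
      · unfold unL; rw [List.mem_toFinset, List.mem_map]; exact ⟨t0, by decide +kernel, rfl⟩
      · unfold unL; rw [List.mem_toFinset, List.mem_map]; exact ⟨u0, by decide +kernel, rfl⟩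
    rw [h0, ← e2, inv_smul_smul]
  have hO0 : orbE (d, Q) Q = {Q} := by
    ext Y
    constructor
    · rintro ⟨g, _, hgS, rfl⟩
      exact congrArg Prod.snd hgS
    · intro hY
      exact ⟨1, M24.one_mem, one_smul _ _, by rw [one_smul]; exact (Set.mem_singleton_iff.1 hY).symm⟩
  have hU := union5 (O := fun i => orbE (d, Q) (k⁻¹ • unL (dataS.getD i default).1)) m2
    (fun i hi x hx => by rw [m3 i hi] at hx; exact hx.1)
  simp only [h00, hO0] at hU
  exact ⟨_, m1 1 (by norm_num), _, m1 2 (by norm_num), _, m1 3 (by norm_num), _, m1 4 (by norm_num),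
    (m4 1 (by norm_num)).trans (by decide +kernel),
    (m4 2 (by norm_num)).trans (by decide +kernel),
    (m4 3 (by norm_num)).trans (by decide +kernel),
    (m4 4 (by norm_num)).trans (by decide +kernel),
    hU⟩

end Cfsg.Agent.Lib.Helper3.QuartetOrb
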