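import Cfsg.Agent.Lib.Helper3.SchurExt

/-!
# Extending a splitting from a point stabiliser: the case where the two-point stabiliser has a
commutator subgroup of index at most two
-/

set_option autoImplicit false

namespace Cfsg.Agent.Lib.Helper3.SchurTriv

open Subgroup
open scoped Pointwise commutatorElement

universe u

structure ExtData2 {Ω : Type*} [Group Ω] (G G1 G2 : Subgroup Ω) (s t : Ω) : Prop where
  h21 : G2 ≤ G1
  h1 : G1 ≤ G
  hs : s ∈ G1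
  ht : t ∈ G
  ht1 : t ∉ G1
  hss : s * s = 1
  hbraid : t * s * t = s * t * s
  hG : ∀ g ∈ G, g ∈ G1 ∨ ∃ a ∈ G1, ∃ b ∈ G1, g = a * t * b
  hG1 : ∀ g ∈ G1, g ∈ G2 ∨ ∃ a ∈ G2, ∃ b ∈ G2, g = a * s * b
  htn : ∀ k ∈ G2, t * k * t⁻¹ ∈ G2
  hp1 : G1 ≤ ⁅G1, G1⁆
  hp2 : ∀ a ∈ G2, ∀ b ∈ G2, a ∉ ⁅G2, G2⁆ → b ∉ ⁅G2, G2⁆ → a * b⁻¹ ∈ ⁅G2, G2⁆

theorem ker_le_two_of_ext {Ω : Type u} [Group Ω] {G G1 G2 : Subgroup Ω} {s t : Ω}
    (E : ExtData2 G G1 G2 s t)
    (hspl : ∀ (Γ : Type u) [Group Γ] [Finite Γ] (τ : Γ →* Ω), Stem τ G1 → τ.ker = ⊥)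
    (Γ : Type u) [Group Γ] [Finite Γ] (τ : Γ →* Ω) (h : Stem τ G) :
    ∀ c1 c2, τ c1 = 1 → τ c2 = 1 → c1 ≠ 1 → c2 ≠ 1 → c1 = c2 := by
  -- the complement over `G1`
  have hmap1 : (G1.comap τ).map τ = G1 := by
    rw [Subgroup.map_comap_eq, h.range, inf_eq_right]
    exact E.h1
  obtain ⟨L, hLdef⟩ : ∃ L : Subgroup Γ, L = ⁅G1.comap τ, G1.comap τ⁆ := ⟨_, rfl⟩
  have hLmap : L.map τ = G1 := by
    rw [hLdef, Subgroup.map_commutator, hmap1]
    exact le_antisymm (Subgroup.commutator_le_self G1) E.hp1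
  have hLlift : ∀ g ∈ G1, ∃ l ∈ L, τ l = g := by
    intro g hg
    rw [← hLmap] at hg
    exact hg
  have hLG1 : ∀ l ∈ L, τ l ∈ G1 := by
    intro l hl
    rw [← hLmap]
    exact ⟨l, hl, rfl⟩
  have hLperf : L ≤ ⁅L, L⁆ := by
    conv_lhs => rw [hLdef]
    rw [Subgroup.commutator_le]
    intro x hx y hy
    obtain ⟨l, hl, e⟩ := hLlift _ hx
    obtain ⟨l', hl', e'⟩ := hLlift _ hy
    obtain ⟨c, hc, rfl⟩ := h.exists_eq_mul e.symm
    obtain ⟨d, hd, rfl⟩ := h.exists_eq_mul e'.symm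
    rw [comm_central (h.comm_of_ker hc) (h.comm_of_ker hd)]
    exact Subgroup.commutator_mem_commutator hl hl'
  have hstL : Stem (τ.comp L.subtype) G1 := by
    refine ⟨?_, ?_, ?_⟩
    · rw [MonoidHom.range_comp, Subgroup.range_subtype, hLmap]
    · intro x hx
      have hx1 : τ x.1 = 1 := hx
      rw [mem_center_iff]
      intro y
      exact Subtype.ext (h.comm_of_ker hx1 y.1).symm
    · intro x _
      have h1 : x.1 ∈ ⁅L, L⁆ := hLperf x.2
      have h2 : (commutator L).map L.subtype = ⁅L, L⁆ := by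
        rw [_root_.commutator_def, Subgroup.map_commutator, ← MonoidHom.range_eq_map,
          Subgroup.range_subtype]
      rw [← h2] at h1
      obtain ⟨y, hy, e⟩ := h1
      have : y = x := Subtype.ext e
      rwa [← this]
  have hLker : ∀ l ∈ L, τ l = 1 → l = 1 := by
    intro l hl e
    have := hspl L (τ.comp L.subtype) hstL
    have h1 : (⟨l, hl⟩ : L) ∈ (τ.comp L.subtype).ker := e
    rw [this, Subgroup.mem_bot] at h1
    exact congrArg Subtype.val h1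
  have hLinj : ∀ l ∈ L, ∀ l' ∈ L, τ l = τ l' → l = l' := by
    intro l hl l' hl' e
    have := hLker (l * l'⁻¹) (L.mul_mem hl (L.inv_mem hl')) (by rw [map_mul, map_inv, e, mul_inv_cancel])
    exact mul_inv_eq_one.1 this
  -- the lift of `s`
  obtain ⟨S, hSL, hS⟩ := hLlift s E.hs
  have hSS : S * S = 1 := hLker _ (L.mul_mem hSL hSL) (by rw [map_mul, hS, E.hss])
  -- the lift of `t`
  obtain ⟨T, hT, hbr⟩ : ∃ T, τ T = t ∧ T * S * T = S * T * S := by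
    obtain ⟨t0, ht0⟩ := h.lift E.ht
    obtain ⟨c, hc, ec⟩ := h.exists_eq_mul (x := t0 * S * t0) (y := S * t0 * S)
      (by simp only [map_mul, hS, ht0]; exact E.hbraid)
    have hci : τ c⁻¹ = 1 := by rw [map_inv, hc, inv_one]
    have cc := h.comm_of_ker hci
    refine ⟨t0 * c⁻¹, by rw [map_mul, hci, mul_one, ht0], ?_⟩
    calc t0 * c⁻¹ * S * (t0 * c⁻¹) = t0 * (c⁻¹ * S) * t0 * c⁻¹ := by group
      _ = t0 * (S * c⁻¹) * t0 * c⁻¹ := by rw [cc]
      _ = t0 * S * (c⁻¹ * t0) * c⁻¹ := by group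
      _ = t0 * S * (t0 * c⁻¹) * c⁻¹ := by rw [cc]
      _ = (t0 * S * t0) * c⁻¹ * c⁻¹ := by group
      _ = S * t0 * S * c * c⁻¹ * c⁻¹ := by rw [ec]
      _ = S * t0 * (S * c⁻¹) := by group
      _ = S * t0 * (c⁻¹ * S) := by rw [cc]
      _ = S * (t0 * c⁻¹) * S := by group
  have hTT : T * T = 1 := by
    have e : T = (S * T) * S * (S * T)⁻¹ := by
      calc T = (T * S * T) * T⁻¹ * S⁻¹ := by group
        _ = (S * T * S) * T⁻¹ * S⁻¹ := by rw [hbr]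
        _ = _ := by group
    calc T * T = ((S * T) * S * (S * T)⁻¹) * ((S * T) * S * (S * T)⁻¹) := by rw [← e]
      _ = (S * T) * (S * S) * (S * T)⁻¹ := by group
      _ = 1 := by rw [hSS]; group
  have hTi : T⁻¹ = T := inv_eq_of_mul_eq_one_left hTT
  -- the complement over `G2`
  obtain ⟨K, hKdef⟩ : ∃ K : Subgroup Γ, K = L ⊓ G2.comap τ := ⟨_, rfl⟩
  have hKL : K ≤ L := by rw [hKdef]; exact inf_le_left
  have hKmem : ∀ x, x ∈ K ↔ x ∈ L ∧ τ x ∈ G2 := by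
    intro x
    rw [hKdef]; exact Iff.rfl
  have hKlift : ∀ g ∈ G2, ∃ k ∈ K, τ k = g := by
    intro g hg
    obtain ⟨l, hl, e⟩ := hLlift g (E.h21 hg)
    exact ⟨l, (hKmem l).2 ⟨hl, by rw [e]; exact hg⟩, e⟩
  have hKmap : K.map τ = G2 := by
    apply le_antisymm
    · rintro _ ⟨k, hk, rfl⟩
      exact ((hKmem k).1 hk).2
    · intro g hg
      obtain ⟨k, hk, e⟩ := hKlift g hg
      exact ⟨k, hk, e⟩
  have hK'mem : ∀ k ∈ K, τ k ∈ ⁅G2, G2⁆ → k ∈ ⁅K, K⁆ := by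
    intro k hk h1
    rw [← hKmap, ← Subgroup.map_commutator] at h1
    obtain ⟨k', hk', e⟩ := h1
    have h2 : k' ∈ K := Subgroup.commutator_le_self K hk'
    rw [← hLinj k' (hKL h2) k (hKL hk) e]
    exact hk'
  have f : ∀ k ∈ K, ∃ k' ∈ K, ∃ c, τ c = 1 ∧ T * k * T⁻¹ = k' * c := by
    intro k hk
    obtain ⟨k', hk', e'⟩ := hKlift (t * τ k * t⁻¹) (E.htn _ ((hKmem k).1 hk).2)
    obtain ⟨c, hc, ec⟩ := h.exists_eq_mul (x := T * k * T⁻¹) (y := k')
      (by rw [e', map_mul, map_mul, map_inv, hT])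
    exact ⟨k', hk', c, hc, ec⟩
  have hTK' : ∀ k ∈ ⁅K, K⁆, T * k * T⁻¹ ∈ K := by
    have hle : ⁅K, K⁆ ≤ K.comap (MulAut.conj T).toMonoidHom := by
      rw [Subgroup.commutator_le]
      intro k1 hk1 k2 hk2
      show T * ⁅k1, k2⁆ * T⁻¹ ∈ K
      have e : T * ⁅k1, k2⁆ * T⁻¹ = ⁅T * k1 * T⁻¹, T * k2 * T⁻¹⁆ := by
        simp only [commutatorElement_def]; group
      rw [e]
      obtain ⟨k1', hk1', c1, hc1, e1⟩ := f k1 hk1
      obtain ⟨k2', hk2', c2, hc2, e2⟩ := f k2 hk2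
      rw [e1, e2, comm_central (h.comm_of_ker hc1) (h.comm_of_ker hc2)]
      exact Subgroup.commutator_le_self K (Subgroup.commutator_mem_commutator hk1' hk2')
    intro k hk
    exact hle hk
  let Z0 : Subgroup Γ :=
    { carrier := {c | τ c = 1 ∧ ∃ k ∈ K, ∃ k' ∈ K, T * k * T⁻¹ = k' * c}
      one_mem' := ⟨map_one τ, 1, K.one_mem, 1, K.one_mem, by group⟩
      mul_mem' := by
        rintro c d ⟨hc, k, hk, k', hk', e⟩ ⟨hd, m, hm, m', hm', e'⟩
        refine ⟨by rw [map_mul, hc, hd, one_mul], k * m, K.mul_mem hk hm, k' * m', K.mul_mem hk' hm', ?_⟩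
        calc T * (k * m) * T⁻¹ = (T * k * T⁻¹) * (T * m * T⁻¹) := by group
          _ = k' * (c * m') * d := by rw [e, e']; group
          _ = k' * (m' * c) * d := by rw [h.comm_of_ker hc]
          _ = _ := by group
      inv_mem' := by
        rintro c ⟨hc, k, hk, k', hk', e⟩
        have hci : τ c⁻¹ = 1 := by rw [map_inv, hc, inv_one]
        refine ⟨hci, k⁻¹, K.inv_mem hk, k'⁻¹, K.inv_mem hk', ?_⟩
        calc T * k⁻¹ * T⁻¹ = (T * k * T⁻¹)⁻¹ := by group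
          _ = c⁻¹ * k'⁻¹ := by rw [e]; group
          _ = _ := by rw [h.comm_of_ker hci] }
  have hZ0ker : ∀ c ∈ Z0, τ c = 1 := fun c hc => hc.1
  have hZ0 : ∀ c1 ∈ Z0, ∀ c2 ∈ Z0, c1 ≠ 1 → c2 ≠ 1 → c1 = c2 := by
    have aux : ∀ c k k', τ c = 1 → k ∈ ⁅K, K⁆ → k' ∈ K → T * k * T⁻¹ = k' * c → c = 1 := by
      intro c k k' hc hk hk' e
      have h1 := hTK' k hk
      rw [e] at h1
      have h2 : c ∈ K := by
        have := K.mul_mem (K.inv_mem hk') h1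
        rwa [inv_mul_cancel_left] at this
      exact hLker c (hKL h2) hc
    rintro c ⟨hc, k, hk, k', hk', e⟩ d ⟨hd, m, hm, m', hm', e'⟩ hc1 hd1
    have n1 : τ k ∉ ⁅G2, G2⁆ := fun hh => hc1 (aux c k k' hc (hK'mem k hk hh) hk' e)
    have n2 : τ m ∉ ⁅G2, G2⁆ := fun hh => hd1 (aux d m m' hd (hK'mem m hm hh) hm' e')
    have h3 := E.hp2 _ ((hKmem k).1 hk).2 _ ((hKmem m).1 hm).2 n1 n2
    have h4 : k * m⁻¹ ∈ ⁅K, K⁆ := hK'mem _ (K.mul_mem hk (K.inv_mem hm)) (by rw [map_mul, map_inv]; exact h3)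
    have hdi : τ d⁻¹ = 1 := by rw [map_inv, hd, inv_one]
    have h5 := aux (c * d⁻¹) (k * m⁻¹) (k' * m'⁻¹) (by rw [map_mul, hc, hdi, one_mul]) h4
      (K.mul_mem hk' (K.inv_mem hm')) (by
        calc T * (k * m⁻¹) * T⁻¹ = (T * k * T⁻¹) * (T * m * T⁻¹)⁻¹ := by group
          _ = k' * (c * (d⁻¹ * m'⁻¹)) := by rw [e, e']; group
          _ = k' * (c * (m'⁻¹ * d⁻¹)) := by rw [h.comm_of_ker hdi]
          _ = k' * (c * m'⁻¹) * d⁻¹ := by group
          _ = k' * (m'⁻¹ * c) * d⁻¹ := by rw [h.comm_of_ker hc]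
          _ = _ := by group)
    exact mul_inv_eq_one.1 h5
  let L0 : Subgroup Γ :=
    { carrier := {x | ∃ l ∈ L, ∃ c ∈ Z0, x = l * c}
      one_mem' := ⟨1, L.one_mem, 1, Z0.one_mem, by group⟩
      mul_mem' := by
        rintro _ _ ⟨l, hl, c, hc, rfl⟩ ⟨m, hm, d, hd, rfl⟩
        refine ⟨l * m, L.mul_mem hl hm, c * d, Z0.mul_mem hc hd, ?_⟩
        calc l * c * (m * d) = l * (c * m) * d := by group
          _ = l * (m * c) * d := by rw [h.comm_of_ker (hZ0ker c hc)]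
          _ = _ := by group
      inv_mem' := by
        rintro _ ⟨l, hl, c, hc, rfl⟩
        refine ⟨l⁻¹, L.inv_mem hl, c⁻¹, Z0.inv_mem hc, ?_⟩
        rw [mul_inv_rev, h.comm_of_ker (hZ0ker _ (Z0.inv_mem hc))] }
  have hLL0 : ∀ l ∈ L, l ∈ L0 := fun l hl => ⟨l, hl, 1, Z0.one_mem, by group⟩
  have hZL0 : ∀ c ∈ Z0, c ∈ L0 := fun c hc => ⟨1, L.one_mem, c, hc, by group⟩
  have hL0G1 : ∀ l ∈ L0, τ l ∈ G1 := by
    rintro _ ⟨l, hl, c, hc, rfl⟩
    rw [map_mul, hZ0ker c hc, mul_one]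
    exact hLG1 l hl
  have hTK0 : ∀ k ∈ K, T * k * T⁻¹ ∈ L0 := by
    intro k hk
    obtain ⟨k', hk', c, hc, e⟩ := f k hk
    exact ⟨k', hKL hk', c, ⟨hc, k, hk, k', hk', e⟩, e⟩
  have key0 : ∀ l ∈ L, T * l * T ∈ L0 ∨ ∃ a ∈ L0, ∃ b ∈ L0, T * l * T = a * T * b := by
    intro l hl
    rcases E.hG1 _ (hLG1 l hl) with h2 | ⟨a, ha, b, hb, e⟩
    · left
      have := hTK0 l ((hKmem l).2 ⟨hl, h2⟩)
      rwa [hTi] at this
    · right
      obtain ⟨ka, hka, ea⟩ := hKlift a ha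
      obtain ⟨kb, hkb, eb⟩ := hKlift b hb
      have el : l = ka * S * kb := by
        apply hLinj l hl _ (L.mul_mem (L.mul_mem (hKL hka) hSL) (hKL hkb))
        rw [e, map_mul, map_mul, ea, eb, hS]
      refine ⟨(T * ka * T⁻¹) * S, L0.mul_mem (hTK0 ka hka) (hLL0 S hSL), S * (T * kb * T⁻¹),
        L0.mul_mem (hLL0 S hSL) (hTK0 kb hkb), ?_⟩
      rw [el]
      calc T * (ka * S * kb) * T = (T * ka * T⁻¹) * (T * S * T) * (T⁻¹ * kb * T) := by group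
        _ = (T * ka * T⁻¹) * (S * T * S) * (T * kb * T⁻¹) := by rw [hbr, hTi]
        _ = _ := by group
  have key : ∀ l ∈ L0, T * l * T ∈ L0 ∨ ∃ a ∈ L0, ∃ b ∈ L0, T * l * T = a * T * b := by
    rintro _ ⟨l, hl, c, hc, rfl⟩
    have e : T * (l * c) * T = (T * l * T) * c := by
      calc T * (l * c) * T = T * l * (c * T) := by group
        _ = T * l * (T * c) := by rw [h.comm_of_ker (hZ0ker c hc)]
        _ = _ := by group
    rw [e]
    rcases key0 l hl with h1 | ⟨a, ha, b, hb, e1⟩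
    · exact Or.inl (L0.mul_mem h1 (hZL0 c hc))
    · exact Or.inr ⟨a, ha, b * c, L0.mul_mem hb (hZL0 c hc), by rw [e1]; group⟩
  let X : Subgroup Γ :=
    { carrier := {x | x ∈ L0 ∨ ∃ a ∈ L0, ∃ b ∈ L0, x = a * T * b}
      one_mem' := Or.inl L0.one_mem
      mul_mem' := by
        rintro x y (hx | ⟨a, ha, b, hb, rfl⟩) (hy | ⟨c, hc, d, hd, rfl⟩)
        · exact Or.inl (L0.mul_mem hx hy)
        · exact Or.inr ⟨x * c, L0.mul_mem hx hc, d, hd, by group⟩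
        · exact Or.inr ⟨a, ha, b * y, L0.mul_mem hb hy, by group⟩
        · rcases key (b * c) (L0.mul_mem hb hc) with h1 | ⟨m, hm, n, hn, e⟩
          · left
            have : a * T * b * (c * T * d) = a * (T * (b * c) * T) * d := by group
            rw [this]
            exact L0.mul_mem (L0.mul_mem ha h1) hd
          · right
            refine ⟨a * m, L0.mul_mem ha hm, n * d, L0.mul_mem hn hd, ?_⟩
            calc a * T * b * (c * T * d) = a * (T * (b * c) * T) * d := by group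
              _ = a * (m * T * n) * d := by rw [e]
              _ = _ := by group
      inv_mem' := by
        rintro x (hx | ⟨a, ha, b, hb, rfl⟩)
        · exact Or.inl (L0.inv_mem hx)
        · refine Or.inr ⟨b⁻¹, L0.inv_mem hb, a⁻¹, L0.inv_mem ha, ?_⟩
          calc (a * T * b)⁻¹ = b⁻¹ * T⁻¹ * a⁻¹ := by group
            _ = _ := by rw [hTi] }
  have hXker : ∀ x ∈ X, τ x = 1 → x ∈ Z0 := by
    rintro x (⟨l, hl, c, hc, rfl⟩ | ⟨a, ha, b, hb, rfl⟩) e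
    · rw [map_mul, hZ0ker c hc, mul_one] at e
      rw [hLker l hl e, one_mul]
      exact hc
    · exfalso
      apply E.ht1
      rw [map_mul, map_mul, hT] at e
      have : t = (τ a)⁻¹ * (τ b)⁻¹ := by
        calc t = (τ a)⁻¹ * (τ a * t * τ b) * (τ b)⁻¹ := by group
          _ = _ := by rw [e, mul_one]
      rw [this]
      exact G1.mul_mem (G1.inv_mem (hL0G1 a ha)) (G1.inv_mem (hL0G1 b hb))
  have hXlift : ∀ y : Γ, ∃ x ∈ X, τ x = τ y := by
    intro y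
    rcases E.hG _ (h.mem y) with h1 | ⟨a, ha, b, hb, e⟩
    · obtain ⟨l, hl, e⟩ := hLlift _ h1
      exact ⟨l, Or.inl (hLL0 l hl), e⟩
    · obtain ⟨la, hla, ea⟩ := hLlift a ha
      obtain ⟨lb, hlb, eb⟩ := hLlift b hb
      exact ⟨la * T * lb, Or.inr ⟨la, hLL0 la hla, lb, hLL0 lb hlb, rfl⟩,
        by rw [e, map_mul, map_mul, ea, eb, hT]⟩
  have hcomm : commutator Γ ≤ X := by
    rw [_root_.commutator_def, Subgroup.commutator_le]
    intro y _ y' _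
    obtain ⟨x, hx, e⟩ := hXlift y
    obtain ⟨x', hx', e'⟩ := hXlift y'
    obtain ⟨c, hc, rfl⟩ := h.exists_eq_mul e.symm
    obtain ⟨d, hd, rfl⟩ := h.exists_eq_mul e'.symm
    rw [comm_central (h.comm_of_ker hc) (h.comm_of_ker hd), commutatorElement_def]
    exact X.mul_mem (X.mul_mem (X.mul_mem hx hx') (X.inv_mem hx)) (X.inv_mem hx')
  intro c1 c2 h1 h2
  exact hZ0 c1 (hXker c1 (hcomm (h.comm h1)) h1) c2 (hXker c2 (hcomm (h.comm h2)) h2)

end Cfsg.Agent.Lib.Helper3.SchurTriv
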