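import Cfsg.Agent.Lib.Helper3.SchurTriv

/-!
# Semidihedral Sylow 2-subgroups
-/

set_option autoImplicit false

namespace Cfsg.Agent.Lib.Helper3.SchurTriv

open Subgroup
open scoped Pointwise

variable {Γ Ω : Type*} [Group Γ] [Group Ω] {τ : Γ →* Ω} {G : Subgroup Ω}

/-- a subgroup of `Γ` that is not larger than its image, which has index prime to `p` -/
theorem PStem.false_of_small [Finite Γ] [Finite G] {p : ℕ} (hp : p.Prime) (h : PStem p τ G)
    (K : Subgroup Γ) (n : ℕ) (hK : Nat.card K ≤ n) (hn : n ≤ Nat.card (K.map τ))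
    (hidx : ∃ m, Nat.card G = n * m ∧ ¬ p ∣ m) : False := by
  have hsurj : Function.Surjective (fun x : K => (⟨τ x.1, ⟨x.1, x.2, rfl⟩⟩ : K.map τ)) := by
    rintro ⟨_, x, hx, rfl⟩
    exact ⟨⟨x, hx⟩, rfl⟩
  have hbij := hsurj.bijective_of_nat_card_le (hK.trans hn)
  have hcP : Nat.card ↥(K.map τ) = n :=
    le_antisymm ((Nat.card_le_card_of_surjective _ hsurj).trans hK) hn
  have hPG : K.map τ ≤ G := by
    rintro _ ⟨x, _, rfl⟩
    exact h.mem x
  obtain ⟨m, hm, hm2⟩ := hidx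
  refine h.false_of_compl hp K ?_ (not_dvd_relIndex hPG (by rw [hcP]; exact hm) hm2)
  intro x hx e
  have := hbij.1 (a₁ := ⟨x, hx⟩) (a₂ := 1) (Subtype.ext (by simpa using e))
  exact congrArg Subtype.val this

/-- a semidihedral subgroup `⟨x, y⟩` of order 16 and odd index, with some fusion -/
structure SDLocal (G : Subgroup Ω) (x y g k : Ω) : Prop where
  hx : x ∈ G
  hy : y ∈ G
  hg : g ∈ G
  hk : k ∈ G
  hx8 : x ^ 8 = 1
  hyx : y * x * y⁻¹ = x ^ 3
  hg3 : g * g * g = 1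
  hg4 : g * x ^ 4 * g⁻¹ = x ^ 4
  hg2 : g * x ^ 2 * g⁻¹ = x * y
  hky : k * x ^ 4 = y * k
  hcard : 16 ≤ Nat.card (closure {x, y})
  hidx : ∃ m, Nat.card G = 16 * m ∧ ¬ 2 ∣ m

theorem PStem.false_of_SD [Finite Γ] [Finite G] (h : PStem 2 τ G) {x y g k : Ω}
    (L : SDLocal G x y g k) : False := by
  obtain ⟨X, hX⟩ := h.lift L.hx
  obtain ⟨Y, hY⟩ := h.lift L.hy
  obtain ⟨A, hA⟩ := h.lift L.hg
  obtain ⟨ε, hε, eε⟩ := h.exists_eq_mul (x := Y * X * Y⁻¹) (y := X ^ 3)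
    (by rw [map_mul, map_mul, map_inv, map_pow, hX, hY, L.hyx])
  have cε := h.comm_of_ker hε
  have ε2 := h.sq_ker hε
  have hyy : y * y = 1 := by
    have h1 : y = k * x ^ 4 * k⁻¹ := by rw [L.hky, mul_inv_cancel_right]
    have h2 : x ^ 4 * x ^ 4 = 1 := by rw [← pow_add]; exact L.hx8
    calc y * y = (k * x ^ 4 * k⁻¹) * (k * x ^ 4 * k⁻¹) := by rw [← h1]
      _ = k * (x ^ 4 * x ^ 4) * k⁻¹ := by group
      _ = 1 := by rw [h2]; group
  have hδ : τ (Y * Y) = 1 := by rw [map_mul, hY, hyy]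
  have cδ := h.comm_of_ker hδ
  -- `X ^ 8 = 1`
  have hX8 : X ^ 8 = 1 := by
    have e1 : Y * (Y * X * Y⁻¹) * Y⁻¹ = X := by
      calc Y * (Y * X * Y⁻¹) * Y⁻¹ = (Y * Y) * X * (Y * Y)⁻¹ := by group
        _ = X * (Y * Y) * (Y * Y)⁻¹ := by rw [cδ]
        _ = X := by group
    have e2 : Y * (Y * X * Y⁻¹) * Y⁻¹ = X ^ 9 := by
      have hc : Commute (X ^ 3) ε := (cε _).symm
      calc Y * (Y * X * Y⁻¹) * Y⁻¹ = Y * (X ^ 3 * ε) * Y⁻¹ := by rw [eε]
        _ = Y * X ^ 3 * (ε * Y⁻¹) := by group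
        _ = Y * X ^ 3 * (Y⁻¹ * ε) := by rw [cε]
        _ = (Y * X ^ 3 * Y⁻¹) * ε := by group
        _ = (Y * X * Y⁻¹) ^ 3 * ε := by rw [conj_pow]
        _ = (X ^ 3 * ε) ^ 3 * ε := by rw [eε]
        _ = (X ^ 3) ^ 3 * ε ^ 3 * ε := by rw [hc.mul_pow]
        _ = X ^ 9 * ((ε * ε) * (ε * ε)) := by
            rw [← pow_mul, pow_succ ε 2, pow_two]; simp only [mul_assoc]
        _ = X ^ 9 := by rw [ε2]; group
    rw [e1] at e2
    have : X * 1 = X * X ^ 8 := by rw [mul_one, ← pow_succ']; exact e2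
    exact (mul_left_cancel this).symm
  have hX44 : X ^ 4 * X ^ 4 = 1 := by rw [← pow_add]; exact hX8
  have hYY : Y * Y = 1 := by
    rw [h.sq_conj (x := Y) (x1 := X ^ 4) (by rw [hX44, map_one]) L.hk
      (by rw [map_pow, hX, hY]; exact L.hky), hX44]
  -- `ε = 1`
  have hε1 : ε = 1 := by
    obtain ⟨θ, hθ, eθ⟩ := h.exists_eq_mul (x := A * X ^ 4 * A⁻¹) (y := X ^ 4)
      (by rw [map_mul, map_mul, map_inv, map_pow, hX, hA, L.hg4])
    have cθ := h.comm_of_ker hθ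
    have θ2 := h.sq_ker hθ
    have hA3 : τ (A * A * A) = 1 := by rw [map_mul, map_mul, hA, L.hg3]
    have cA := h.comm_of_ker hA3
    have step : ∀ u, A * (X ^ 4 * u) * A⁻¹ = X ^ 4 * θ * (A * u * A⁻¹) := by
      intro u
      calc A * (X ^ 4 * u) * A⁻¹ = (A * X ^ 4 * A⁻¹) * (A * u * A⁻¹) := by group
        _ = _ := by rw [eθ]
    have conjθ : A * θ * A⁻¹ = θ := by rw [← cθ, mul_inv_cancel_right]
    have hθ1 : θ = 1 := by
      have e1 : (A * A * A) * X ^ 4 * (A * A * A)⁻¹ = X ^ 4 := by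
        rw [cA, mul_inv_cancel_right]
      have e2 : (A * A * A) * X ^ 4 * (A * A * A)⁻¹ = X ^ 4 * (θ * θ * θ) := by
        calc (A * A * A) * X ^ 4 * (A * A * A)⁻¹ = A * (A * (A * X ^ 4 * A⁻¹) * A⁻¹) * A⁻¹ := by
              group
          _ = A * (A * (X ^ 4 * θ) * A⁻¹) * A⁻¹ := by rw [eθ]
          _ = A * (X ^ 4 * θ * θ) * A⁻¹ := by rw [step, conjθ]
          _ = A * (X ^ 4 * (θ * θ)) * A⁻¹ := by group
          _ = X ^ 4 * θ * (A * (θ * θ) * A⁻¹) := by rw [step]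
          _ = X ^ 4 * θ * ((A * θ * A⁻¹) * (A * θ * A⁻¹)) := by group
          _ = X ^ 4 * (θ * θ * θ) := by rw [conjθ]; group
      rw [e1, θ2, one_mul] at e2
      exact (mul_eq_left.1 e2.symm)
    rw [hθ1, mul_one] at eθ
    have e3 : τ (A * X ^ 2 * A⁻¹) = τ (X * Y) := by
      rw [map_mul, map_mul, map_inv, map_pow, map_mul, hX, hA, hY, L.hg2]
    have e4 := h.sq_lift e3
    have e5 : A * X ^ 2 * A⁻¹ * (A * X ^ 2 * A⁻¹) = X ^ 4 := by
      calc A * X ^ 2 * A⁻¹ * (A * X ^ 2 * A⁻¹) = A * (X ^ 2 * X ^ 2) * A⁻¹ := by group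
        _ = A * X ^ 4 * A⁻¹ := by rw [← pow_add]
        _ = X ^ 4 := eθ
    have e6 : X * Y * (X * Y) = X ^ 4 * ε := by
      calc X * Y * (X * Y) = X * (Y * X * Y⁻¹) * (Y * Y) := by group
        _ = X * (X ^ 3 * ε) := by rw [eε, hYY, mul_one]
        _ = X ^ 4 * ε := by rw [← mul_assoc, ← pow_succ']
    rw [e5, e6] at e4
    exact (mul_eq_left.1 e4.symm)
  rw [hε1, mul_one] at eε
  -- the complement
  have hn : zpowers Y ≤ normalizer (zpowers X) := by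
    rw [zpowers_le]
    apply mem_normalizer_of_forall
    intro n hn
    obtain ⟨j, rfl⟩ := hn
    have : Y * X ^ j * Y⁻¹ = (Y * X * Y⁻¹) ^ j := (conj_zpow).symm
    rw [this, eε]
    exact (zpowers X).zpow_mem ((zpowers X).pow_mem (mem_zpowers _) 3) j
  have hle : closure {X, Y} ≤ zpowers X ⊔ zpowers Y := by
    rw [closure_le]
    rintro u (rfl | rfl)
    · exact (le_sup_left : zpowers u ≤ _) (mem_zpowers _)
    · exact (le_sup_right : zpowers u ≤ _) (mem_zpowers _)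
  have h1 : Nat.card (zpowers X) ≤ 8 := by
    rw [Nat.card_zpowers]
    exact orderOf_le_of_pow_eq_one (by norm_num) hX8
  have h2 : Nat.card (zpowers Y) ≤ 2 := by
    rw [Nat.card_zpowers]
    apply orderOf_le_of_pow_eq_one (by norm_num)
    rw [pow_two]; exact hYY
  have hK : Nat.card (closure {X, Y}) ≤ 16 :=
    calc Nat.card (closure {X, Y}) ≤ Nat.card ↥(zpowers X ⊔ zpowers Y) :=
          Nat.card_le_card_of_injective _ (Subgroup.inclusion_injective hle)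
      _ ≤ Nat.card (zpowers X) * Nat.card (zpowers Y) := card_sup_le _ _ hn
      _ ≤ 8 * 2 := Nat.mul_le_mul h1 h2
  refine h.false_of_small (by norm_num) (closure {X, Y}) 16 hK ?_ L.hidx
  rw [MonoidHom.map_closure, Set.image_pair, hX, hY]
  exact L.hcard

end Cfsg.Agent.Lib.Helper3.SchurTriv
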