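import Cfsg.Agent.Lib.Helper3.SchurM23
import Cfsg.Agent.Lib.Helper3.SchurSD
import Cfsg.Agent.Lib.Helper3.M12

/-!
# The Schur multiplier of `M11` is trivial
-/

set_option autoImplicit false
set_option maxRecDepth 1000000

namespace Cfsg.Agent.Lib.Helper3.SchurM11

open Cfsg Cfsg.Agent.Lib.Helper28 Cfsg.Agent.Lib.Helper3.M24T Cfsg.Agent.Lib.Helper3.M24Gen
  Cfsg.Agent.Lib.Helper3.FusEnum Cfsg.Agent.Lib.Helper3.FusGrp Cfsg.Agent.Lib.Helper3.SchurTriv
  Cfsg.Agent.Lib.Helper3.SchurTbl Subgroup
open Cfsg.Agent.Lib.Helper3.SchurM23 (tbl_conj ne_one_of_tbl)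

def tx : List ℕ := [0, 18, 12, 8, 9, 22, 2, 14, 3, 1, 7, 23, 4, 6, 15, 21, 16, 19, 13, 10, 17, 20, 11, 5]
def ty : List ℕ := [0, 2, 1, 8, 4, 5, 12, 20, 3, 18, 14, 11, 6, 13, 10, 15, 16, 21, 9, 19, 7, 17, 23, 22]
def tg : List ℕ := [0, 1, 2, 16, 18, 5, 13, 10, 3, 4, 17, 22, 6, 12, 20, 15, 8, 7, 9, 19, 21, 14, 23, 11]
def tk : List ℕ := [0, 6, 12, 16, 8, 19, 18, 7, 13, 9, 22, 5, 1, 3, 17, 14, 4, 21, 2, 10, 20, 23, 11, 15]
def ta : List ℕ := [0, 6, 1, 8, 13, 11, 2, 23, 12, 4, 10, 14, 3, 9, 5, 22, 16, 17, 18, 7, 15, 21, 20, 19]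
def tb : List ℕ := [0, 9, 13, 1, 8, 11, 4, 7, 6, 3, 17, 14, 2, 12, 5, 20, 16, 21, 18, 19, 22, 10, 15, 23]
def th : List ℕ := [0, 1, 2, 9, 8, 15, 6, 7, 4, 3, 17, 22, 13, 12, 20, 5, 18, 10, 16, 19, 14, 21, 11, 23]
def x5 : List ℕ := [0, 9, 3, 4, 1, 11, 8, 15, 12, 2, 14, 21, 13, 18, 5, 19, 16, 17, 6, 22, 20, 10, 23, 7]
def x11 : List ℕ := [0, 6, 18, 8, 1, 10, 3, 21, 12, 2, 15, 5, 9, 4, 14, 20, 13, 22, 16, 17, 19, 23, 7, 11]
def tgi : List ℕ := [0, 1, 2, 8, 9, 5, 12, 17, 16, 18, 7, 23, 13, 6, 21, 15, 3, 10, 4, 19, 14, 20, 11, 22]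

theorem card_M11 : Nat.card Spor.M11 = 7920 := by
  rw [← Cfsg.Agent.Lib.Helper3.M12.card_m11 AutM12.sq_dod (some 0) (by decide +kernel)]
  apply Nat.card_congr
  exact
    { toFun := fun g => ⟨⟨g.1, g.2.1.1⟩, ⟨g.2.1.2, g.2.2⟩⟩
      invFun := fun g => ⟨g.1.1, ⟨⟨g.1.2, g.2.1⟩, g.2.2⟩⟩
      left_inv := fun _ => rfl
      right_inv := fun _ => rfl }

theorem good_pow {H : Subgroup (Equiv.Perm GolayPt)} {t : List ℕ} (h : Good H t) (n : ℕ) :
    Good H (powT t n) := by
  induction n with
  | zero => exact good_idT H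
  | succ n ih => exact good_comp ih h

theorem ix : isTbl tx = true := by decide +kernel
theorem iy : isTbl ty = true := by decide +kernel
theorem ig : isTbl tg = true := by decide +kernel
theorem igi : isTbl tgi = true := by decide +kernel
theorem ik : isTbl tk = true := by decide +kernel
theorem ia : isTbl ta = true := by decide +kernel
theorem ib : isTbl tb = true := by decide +kernel
theorem ih : isTbl th = true := by decide +kernel

def L16 : List (List ℕ) := (List.range 8).flatMap fun i => [powT tx i, comp (powT tx i) ty]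

theorem sdLocal : SDLocal Spor.M11 (permOf tx) (permOf ty) (permOf tg) (permOf tk) where
  hx := (good11 tx (by decide +kernel)).2
  hy := (good11 ty (by decide +kernel)).2
  hg := (good11 tg (by decide +kernel)).2
  hk := (good11 tk (by decide +kernel)).2
  hx8 := by
    apply tblOf_injective
    rw [tblOf_pow, tblOf_permOf ix, tblOf_one]
    decide +kernel
  hyx := by
    apply tblOf_injective
    rw [tbl_conj iy iy (by decide +kernel), tblOf_pow, tblOf_permOf ix]
    decide +kernel
  hg3 := by
    apply tblOf_injective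
    rw [tblOf_mul, tblOf_mul, tblOf_permOf ig, tblOf_one]
    decide +kernel
  hg4 := by
    apply tblOf_injective
    rw [tbl_conj ig igi (by decide +kernel), tblOf_pow, tblOf_permOf ix]
    decide +kernel
  hg2 := by
    apply tblOf_injective
    rw [tbl_conj ig igi (by decide +kernel), tblOf_pow, tblOf_mul, tblOf_permOf ix, tblOf_permOf iy]
    decide +kernel
  hky := by
    apply tblOf_injective
    rw [tblOf_mul, tblOf_mul, tblOf_pow, tblOf_permOf ix, tblOf_permOf iy, tblOf_permOf ik]
    decide +kernel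
  hcard := by
    have hl : L16.length = 16 := by decide +kernel
    have hx : Good (closure {permOf tx, permOf ty}) tx := ⟨ix, subset_closure (by simp)⟩
    have hy : Good (closure {permOf tx, permOf ty}) ty := ⟨iy, subset_closure (by simp)⟩
    have := length_le_card (S := closure {permOf tx, permOf ty}) (P := L16) (by
      intro t ht
      obtain ⟨i, _, ht⟩ := List.mem_flatMap.1 ht
      simp only [List.mem_cons, List.not_mem_nil, or_false] at ht
      rcases ht with rfl | rfl
      · exact good_pow hx i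
      · exact good_comp (good_pow hx i) hy) (by decide +kernel)
    rw [hl] at this
    exact this
  hidx := ⟨495, by rw [card_M11], by norm_num⟩

theorem no_pstem (p : ℕ) (hp : p.Prime) (Γ : Type) [Group Γ] [Finite Γ]
    (τ : Γ →* Equiv.Perm GolayPt) (h : PStem p τ Spor.M11) : False := by
  by_cases h2 : p = 2
  · subst h2; exact h.false_of_SD sdLocal
  by_cases h3 : p = 3
  · subst h3
    refine h.false_of_E (by norm_num) (by norm_num) (permOf ta) (permOf tb) (permOf th)
      (good11 ta (by decide +kernel)).2 (good11 tb (by decide +kernel)).2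
      (good11 th (by decide +kernel)).2 ?_ ?_ ?_ ?_
    · apply tblOf_injective
      simp only [tblOf_mul, tblOf_permOf ia, tblOf_permOf ib]
      decide +kernel
    · apply tblOf_injective
      simp only [tblOf_mul, tblOf_permOf ia, tblOf_permOf ih]
      decide +kernel
    · apply tblOf_injective
      simp only [tblOf_mul, tblOf_permOf ib, tblOf_permOf ih]
      decide +kernel
    · refine not_dvd_relIndex' (k := 2) ?_ ?_ (by rw [card_M11]; norm_num)
      · rw [closure_le]
        rintro x (rfl | rfl)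
        · exact (good11 ta (by decide +kernel)).2
        · exact (good11 tb (by decide +kernel)).2
      · apply nine_dvd_card
        · apply tblOf_injective
          rw [tblOf_pow, tblOf_permOf ia, tblOf_one]
          decide +kernel
        · apply tblOf_injective
          rw [tblOf_pow, tblOf_permOf ib, tblOf_one]
          decide +kernel
        · apply tblOf_injective
          simp only [tblOf_mul, tblOf_permOf ia, tblOf_permOf ib]
          decide +kernel
        · apply ne_one_of_tbl
          rw [tblOf_permOf ia]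
          decide +kernel
        · intro hm
          have hle : zpowers (permOf ta) ≤ MulAction.stabilizer (Equiv.Perm GolayPt) (ptOf 10) := by
            rw [zpowers_le, MulAction.mem_stabilizer_iff]
            exact fix_of_getD ia (by norm_num) (by decide +kernel)
          have h1 : permOf tb (ptOf 10) = ptOf 10 := MulAction.mem_stabilizer_iff.1 (hle hm)
          rw [permOf_apply ib, idx_ptOf (by norm_num)] at h1
          have h2 := congrArg idx h1
          rw [idx_ptOf (by decide +kernel), idx_ptOf (by norm_num)] at h2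
          exact absurd h2 (by decide +kernel)
  by_cases h5 : p = 5
  · subst h5
    exact h.false_of_cyclic hp (permOf x5) (good11 x5 (by decide +kernel)).2 (m := 1584)
      (by rw [card_M11, orderOf_permOf (by decide +kernel) hp (by decide +kernel) (by decide +kernel)])
      (by norm_num)
  by_cases h11 : p = 11
  · subst h11
    exact h.false_of_cyclic hp (permOf x11) (good11 x11 (by decide +kernel)).2 (m := 720)
      (by rw [card_M11, orderOf_permOf (by decide +kernel) hp (by decide +kernel) (by decide +kernel)])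
      (by norm_num)
  refine h.false_of_cyclic hp 1 (one_mem _) (m := 7920)
    (by rw [orderOf_one, one_mul, card_M11]) ?_
  intro hd
  have e : 7920 = 2 ^ 4 * 3 ^ 2 * 5 * 11 := by norm_num
  rw [e] at hd
  have hq : ∀ q : ℕ, q.Prime → p ∣ q → p = q := fun q hq hd => (Nat.prime_dvd_prime_iff_eq hp hq).1 hd
  rcases (Nat.Prime.dvd_mul hp).1 hd with hd | hd
  · rcases (Nat.Prime.dvd_mul hp).1 hd with hd | hd
    · rcases (Nat.Prime.dvd_mul hp).1 hd with hd | hd
      · exact h2 (hq 2 (by norm_num) (hp.dvd_of_dvd_pow hd))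
      · exact h3 (hq 3 (by norm_num) (hp.dvd_of_dvd_pow hd))
    · exact h5 (hq 5 (by norm_num) hd)
  · exact h11 (hq 11 (by norm_num) hd)

/-- every stem extension of `M11` is trivial -/
theorem stem_trivial (Γ : Type) [Group Γ] [Finite Γ] (τ : Γ →* Equiv.Perm GolayPt)
    (h : Stem τ Spor.M11) : τ.ker = ⊥ :=
  ker_eq_bot_of_prime Spor.M11 no_pstem Γ τ h

end Cfsg.Agent.Lib.Helper3.SchurM11
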