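import Cfsg.Agent.Lib.Helper3.SchurM11
import Cfsg.Agent.Lib.Helper3.SchurExt2

/-!
# The Schur multiplier of `M12` has order at most two
-/

set_option autoImplicit false
set_option maxRecDepth 1000000

namespace Cfsg.Agent.Lib.Helper3.SchurM12

open Cfsg Cfsg.Agent.Lib.Helper28 Cfsg.Agent.Lib.Helper3.M24T Cfsg.Agent.Lib.Helper3.M24Gen
  Cfsg.Agent.Lib.Helper3.FusEnum Cfsg.Agent.Lib.Helper3.FusGrp Cfsg.Agent.Lib.Helper3.SchurTriv
  Cfsg.Agent.Lib.Helper3.SchurTbl Subgroup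
open scoped commutatorElement Pointwise

def ts : List ℕ := [0, 2, 1, 6, 4, 19, 3, 14, 12, 9, 20, 11, 8, 16, 7, 15, 13, 21, 18, 5, 10, 17, 22, 23]
def tt : List ℕ := [1, 0, 2, 9, 13, 20, 6, 7, 12, 3, 17, 11, 8, 4, 15, 14, 16, 10, 18, 21, 5, 19, 22, 23]
def U3 : List (List ℕ) :=
  [[0, 1, 2, 3, 4, 5, 6, 7, 8, 9, 10, 11, 12, 13, 14, 15, 16, 17, 18, 19, 20, 21, 22, 23],
   [0, 1, 3, 4, 12, 20, 18, 10, 6, 8, 7, 22, 2, 13, 19, 21, 16, 23, 9, 5, 14, 15, 17, 11],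
   [0, 1, 4, 2, 3, 15, 16, 7, 6, 13, 10, 23, 12, 18, 21, 20, 8, 11, 9, 14, 5, 19, 22, 17],
   [0, 1, 6, 4, 3, 22, 8, 5, 13, 2, 21, 20, 16, 12, 10, 7, 18, 15, 9, 11, 23, 17, 14, 19],
   [0, 1, 8, 2, 16, 10, 6, 19, 12, 4, 15, 20, 3, 13, 22, 23, 18, 21, 9, 11, 7, 17, 14, 5],
   [0, 1, 9, 8, 18, 23, 12, 15, 13, 3, 21, 20, 6, 4, 22, 17, 2, 14, 16, 7, 10, 11, 5, 19],
   [0, 1, 12, 8, 18, 15, 6, 11, 3, 16, 23, 7, 2, 13, 14, 5, 9, 17, 4, 20, 19, 21, 22, 10],
   [0, 1, 13, 3, 9, 22, 2, 14, 8, 18, 15, 21, 4, 16, 7, 23, 6, 5, 12, 10, 17, 11, 20, 19],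
   [0, 1, 16, 8, 4, 21, 12, 10, 18, 6, 11, 7, 9, 2, 20, 14, 13, 17, 3, 5, 15, 19, 22, 23],
   [0, 1, 18, 9, 4, 11, 8, 19, 3, 6, 5, 21, 2, 12, 17, 23, 16, 14, 13, 7, 22, 10, 15, 20]]
def U4 : List (List ℕ) :=
  [[0, 1, 2, 3, 4, 5, 6, 7, 8, 9, 10, 11, 12, 13, 14, 15, 16, 17, 18, 19, 20, 21, 22, 23],
   [0, 1, 2, 4, 12, 15, 16, 7, 9, 13, 10, 22, 3, 8, 21, 19, 18, 17, 6, 5, 14, 20, 23, 11],
   [0, 1, 2, 6, 8, 23, 13, 14, 9, 12, 20, 5, 4, 16, 7, 22, 3, 21, 18, 11, 17, 10, 15, 19],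
   [0, 1, 2, 8, 6, 22, 16, 20, 18, 3, 14, 19, 4, 13, 10, 23, 12, 21, 9, 11, 17, 7, 15, 5],
   [0, 1, 2, 9, 8, 15, 6, 7, 4, 3, 17, 22, 13, 12, 20, 5, 18, 10, 16, 19, 14, 21, 11, 23],
   [0, 1, 2, 12, 4, 19, 8, 10, 6, 18, 7, 11, 3, 16, 20, 15, 13, 17, 9, 5, 14, 21, 23, 22],
   [0, 1, 2, 13, 9, 19, 16, 7, 12, 4, 17, 23, 8, 3, 14, 15, 6, 10, 18, 5, 21, 20, 22, 11],
   [0, 1, 2, 16, 8, 7, 12, 19, 18, 9, 15, 21, 3, 4, 11, 10, 6, 5, 13, 17, 23, 22, 14, 20],
   [0, 1, 2, 18, 6, 15, 8, 10, 4, 12, 17, 23, 16, 3, 14, 19, 9, 7, 13, 5, 20, 21, 11, 22]]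
def U5 : List (List ℕ) :=
  [[0, 1, 2, 3, 4, 5, 6, 7, 8, 9, 10, 11, 12, 13, 14, 15, 16, 17, 18, 19, 20, 21, 22, 23],
   [0, 1, 2, 3, 6, 14, 12, 22, 13, 4, 11, 7, 9, 16, 5, 21, 18, 23, 8, 20, 15, 19, 10, 17],
   [0, 1, 2, 3, 8, 17, 18, 15, 12, 13, 19, 21, 16, 6, 23, 10, 4, 5, 9, 7, 11, 22, 20, 14],
   [0, 1, 2, 3, 9, 14, 4, 11, 18, 12, 22, 10, 6, 8, 5, 20, 13, 23, 16, 21, 19, 15, 7, 17],
   [0, 1, 2, 3, 12, 5, 9, 10, 16, 6, 7, 22, 4, 18, 14, 19, 8, 17, 13, 15, 21, 20, 11, 23],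
   [0, 1, 2, 3, 13, 23, 8, 21, 9, 16, 20, 19, 18, 12, 17, 11, 6, 14, 4, 22, 7, 10, 15, 5],
   [0, 1, 2, 3, 16, 17, 13, 19, 4, 18, 15, 20, 8, 9, 23, 7, 12, 5, 6, 10, 22, 11, 21, 14],
   [0, 1, 2, 3, 18, 23, 16, 20, 6, 8, 21, 15, 13, 4, 17, 22, 9, 14, 12, 11, 10, 7, 19, 5]]
def ca0 : List ℕ := [0, 1, 16, 3, 12, 14, 18, 11, 4, 9, 17, 23, 13, 8, 20, 5, 6, 10, 2, 21, 15, 19, 7, 22]
def cb0 : List ℕ := [0, 1, 3, 18, 9, 5, 4, 23, 13, 8, 7, 17, 16, 6, 15, 21, 2, 10, 12, 20, 14, 19, 22, 11]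
def cai0 : List ℕ := [0, 1, 18, 3, 8, 15, 16, 22, 13, 9, 17, 7, 4, 12, 5, 20, 2, 10, 6, 21, 14, 19, 23, 11]
def cbi0 : List ℕ := [0, 1, 16, 2, 6, 5, 13, 10, 9, 4, 17, 23, 18, 8, 20, 14, 12, 11, 3, 21, 19, 15, 22, 7]
def ca1 : List ℕ := [0, 1, 12, 18, 9, 21, 8, 10, 3, 2, 22, 11, 13, 4, 5, 19, 6, 7, 16, 14, 20, 15, 23, 17]
def cb1 : List ℕ := [0, 1, 13, 16, 12, 21, 2, 11, 6, 4, 17, 23, 3, 18, 15, 20, 9, 7, 8, 19, 5, 14, 22, 10]
def cai1 : List ℕ := [0, 1, 9, 8, 13, 14, 16, 17, 6, 4, 7, 11, 2, 12, 19, 21, 18, 23, 3, 15, 20, 5, 10, 22]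
def cbi1 : List ℕ := [0, 1, 6, 12, 9, 20, 8, 17, 18, 16, 23, 7, 4, 2, 21, 14, 3, 10, 13, 19, 15, 5, 22, 11]
def prog : List (ℕ × ℕ) :=
  [(0, 0), (1, 0), (0, 1), (1, 1), (0, 2), (1, 2), (0, 3), (1, 3), (0, 4), (1, 4), (0, 5), (1, 5),
   (0, 6), (1, 6), (0, 7), (1, 7), (0, 8), (1, 8), (0, 9), (1, 9), (0, 10), (1, 10), (0, 11), (1, 11),
   (0, 12), (1, 12), (0, 13), (0, 15), (1, 15), (0, 16), (1, 16), (0, 17), (1, 17), (0, 18), (1, 18), (0, 19),
   (1, 19), (0, 20), (1, 20), (0, 21), (1, 22), (0, 23), (1, 23), (0, 24), (1, 24), (0, 25), (1, 25), (0, 26),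
   (1, 26), (0, 27), (1, 27), (0, 28), (1, 28), (0, 29), (1, 29), (0, 30), (1, 30), (0, 31), (0, 32), (1, 32),
   (0, 33), (1, 33), (0, 34), (1, 35), (0, 36), (1, 36), (0, 37), (1, 37), (0, 38), (1, 38), (0, 39), (1, 39),
   (0, 40), (0, 41), (1, 41), (0, 42), (1, 42), (1, 43), (0, 44), (1, 44), (0, 45), (1, 45), (0, 46), (1, 46),
   (0, 47), (1, 47), (0, 48), (1, 49), (0, 50), (1, 50), (0, 51), (1, 51), (1, 52), (0, 53), (1, 53), (0, 54),
   (1, 54), (0, 55), (0, 56), (1, 56), (0, 57), (1, 57), (0, 58), (1, 59), (0, 60), (1, 60), (0, 61), (1, 61),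
   (0, 62), (1, 62), (0, 63), (1, 64), (0, 65), (1, 65), (1, 66), (0, 67), (1, 67), (0, 68), (1, 69), (0, 70),
   (1, 70), (0, 71), (1, 72), (0, 73), (1, 73), (0, 74), (0, 75), (1, 75), (0, 76), (1, 76), (0, 77), (1, 77),
   (0, 78), (1, 78), (0, 80), (1, 80), (0, 81), (1, 82), (0, 83), (1, 83), (0, 84), (1, 85), (0, 86), (1, 86),
   (0, 87), (0, 88), (1, 88), (0, 89), (1, 90), (0, 91), (1, 91), (0, 92), (0, 93), (1, 93), (0, 94), (1, 95),
   (0, 96), (1, 96), (0, 97), (1, 97), (1, 98), (1, 99), (0, 100), (1, 100), (0, 101), (1, 101), (1, 102), (0, 103),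
   (1, 104), (0, 105), (1, 105), (0, 106), (1, 107), (0, 108), (1, 108), (0, 109), (1, 110), (0, 111), (1, 111), (0, 112),
   (0, 113), (1, 113), (0, 114), (1, 114), (0, 115), (1, 115), (0, 117), (1, 117), (0, 118), (1, 119), (1, 120), (0, 121),
   (1, 121), (0, 122), (0, 123), (1, 123), (0, 124), (1, 125), (1, 126), (0, 127), (1, 128), (0, 129), (1, 129), (0, 130),
   (1, 130), (1, 131), (0, 132), (1, 133), (0, 134), (1, 134), (0, 136), (0, 137), (1, 138), (0, 139), (1, 139), (1, 140),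
   (0, 141), (1, 141), (0, 142), (1, 144), (0, 145), (0, 146), (1, 147), (0, 148), (1, 148), (0, 149), (1, 149), (0, 152),
   (1, 153), (1, 155), (0, 156), (1, 156), (1, 158), (0, 159), (0, 161), (1, 161), (0, 162), (1, 163), (0, 164), (0, 166),
   (0, 168), (0, 169), (0, 170), (1, 170), (0, 171), (1, 171), (0, 172), (1, 172), (1, 173), (0, 175), (1, 175), (0, 176),
   (0, 177), (1, 177), (0, 178), (1, 179), (0, 181), (0, 182), (1, 182), (1, 183), (1, 185), (0, 186), (1, 186), (0, 188),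
   (0, 189), (1, 190), (0, 191), (1, 191), (1, 193), (0, 194), (0, 195), (1, 197), (0, 198), (0, 200), (1, 201), (1, 203),
   (0, 204), (0, 206), (1, 206), (0, 207), (0, 209), (1, 210), (0, 211), (1, 212), (0, 213), (1, 214), (0, 215), (1, 216),
   (0, 218), (1, 218), (0, 219), (1, 220), (1, 222), (1, 224), (0, 225), (1, 225), (0, 227), (1, 228), (1, 229), (0, 230),
   (1, 230), (1, 232), (0, 233), (1, 233), (1, 237), (0, 238), (0, 239), (1, 239), (1, 240), (0, 241), (1, 241), (1, 242),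
   (0, 243), (0, 244), (1, 245), (1, 247), (1, 248), (1, 250), (1, 251), (0, 252), (0, 253), (1, 255), (1, 258), (0, 260),
   (1, 260), (1, 263), (0, 264), (0, 266), (1, 267), (0, 268), (1, 271), (0, 274), (1, 275), (1, 276), (1, 280), (0, 282),
   (0, 284), (0, 285), (0, 286), (1, 287), (0, 291), (1, 292), (0, 293), (1, 293), (0, 295), (0, 297), (0, 301), (1, 302),
   (0, 304), (1, 304), (1, 307), (1, 308), (1, 311), (0, 312), (1, 314), (0, 328), (0, 329), (1, 330)]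
def nx : List ℕ := [0, 4, 9, 2, 1, 10, 3, 5, 13, 8, 19, 21, 18, 6, 14, 20, 12, 22, 16, 11, 15, 7, 23, 17]
def ny : List ℕ := [0, 16, 3, 6, 8, 19, 4, 17, 13, 1, 14, 5, 9, 12, 7, 22, 18, 11, 2, 15, 20, 23, 21, 10]

def U2 : List (List ℕ) := idT :: U3.map fun a => comp a ts
def U1 : List (List ℕ) := idT :: U2.map fun a => comp a tt

theorem l1 : lvlOK in12 col12 [] [] 0 U1 = true := by decide +kernel
theorem l2 : lvlOK in12 col12 [] [0] 1 U2 = true := by decide +kernel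
theorem l345 : chainOK in12 col12 [] [0, 1] [(2, U3), (3, U4), (4, U5)] = true := by decide +kernel

theorem hlam0 : ∀ g ∈ Spor.M12, ∀ x y : GolayPt,
    lamAt [] (idx (g x)) (idx (g y)) = lamAt [] (idx x) (idx y) := by
  intro g _ x y
  simp [lamAt]

/-- the stabiliser of two points of the dodecad -/
def G2 : Subgroup (Equiv.Perm GolayPt) :=
  Spor.M11 ⊓ MulAction.stabilizer (Equiv.Perm GolayPt) (ptOf 1)

theorem mem_M11' {g : Equiv.Perm GolayPt} : g ∈ Spor.M11 ↔ g ∈ Spor.M12 ∧ g (ptOf 0) = ptOf 0 := by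
  rw [mem_M11, mem_M12, and_assoc]

theorem mem_G2 {g : Equiv.Perm GolayPt} :
    g ∈ G2 ↔ g ∈ Spor.M12 ∧ g (ptOf 0) = ptOf 0 ∧ g (ptOf 1) = ptOf 1 := by
  unfold G2
  rw [Subgroup.mem_inf, mem_M11', MulAction.mem_stabilizer_iff, and_assoc]
  rfl

def in10 (t : List ℕ) : Bool := in12 t && t.getD 0 0 == 0 && t.getD 1 0 == 1

theorem good10 (t : List ℕ) (h : in10 t = true) : Good G2 t := by
  simp only [in10, Bool.and_eq_true, beq_iff_eq] at h
  have h1 := good12 t h.1.1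
  exact ⟨h1.1, mem_G2.2 ⟨h1.2, fix_of_getD h1.1 (by norm_num) h.1.2,
    fix_of_getD h1.1 (by norm_num) h.2⟩⟩

theorem is : isTbl ts = true := by decide +kernel
theorem it : isTbl tt = true := by decide +kernel

theorem le_commutator_of_simple {Ω : Type*} [Group Ω] (G : Subgroup Ω) [IsSimpleGroup G] {x y : Ω}
    (hx : x ∈ G) (hy : y ∈ G) (hxy : x * y ≠ y * x) : G ≤ ⁅G, G⁆ := by
  have h2 : (commutator G).map G.subtype = ⁅G, G⁆ := by
    rw [_root_.commutator_def, Subgroup.map_commutator, ← MonoidHom.range_eq_map,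
      Subgroup.range_subtype]
  rcases (inferInstance : (commutator G).Normal).eq_bot_or_eq_top with h | h
  · exfalso
    apply hxy
    have h1 : ⁅(⟨x, hx⟩ : G), ⟨y, hy⟩⁆ ∈ commutator G := by
      rw [_root_.commutator_def]
      exact Subgroup.commutator_mem_commutator (mem_top _) (mem_top _)
    rw [h, Subgroup.mem_bot, commutatorElement_eq_one_iff_mul_comm] at h1
    exact congrArg Subtype.val h1
  · rw [← h2, h, ← MonoidHom.range_eq_map, Subgroup.range_subtype]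

theorem simple11 : IsSimpleGroup Spor.M11 := by
  let e : ↥(MulAction.stabilizer M24 Spor.squareDodecad ⊓ MulAction.stabilizer M24 (some 0 : GolayPt))
      ≃* Spor.M11 :=
    { toFun := fun g => ⟨g.1.1, ⟨⟨g.1.2, g.2.1⟩, g.2.2⟩⟩
      invFun := fun g => ⟨⟨g.1, g.2.1.1⟩, ⟨g.2.1.2, g.2.2⟩⟩
      left_inv := fun _ => rfl
      right_inv := fun _ => rfl
      map_mul' := fun _ _ => rfl }
  exact e.isSimpleGroup_congr.1
    (Cfsg.Agent.Lib.Helper3.M12.m11_simple AutM12.sq_dod (some 0) (by decide +kernel))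

theorem index_two_prop {Ω : Type*} [Group Ω] (G2 D : Subgroup Ω) (hD : D ≤ G2) [Finite G2]
    (hc : Nat.card G2 ≤ 2 * Nat.card D) :
    ∀ a ∈ G2, ∀ b ∈ G2, a ∉ D → b ∉ D → a * b⁻¹ ∈ D := by
  intro a ha b hb na nb
  have h1 := card_mul_relIndex hD
  have hpos : 0 < Nat.card D := by
    have : Finite D := Finite.of_injective (Subgroup.inclusion hD) (Subgroup.inclusion_injective hD)
    exact Nat.card_pos
  have h2 : D.relIndex G2 ≤ 2 := by
    by_contra hlt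
    have : 3 ≤ D.relIndex G2 := by omega
    nlinarith
  have h3 : D.relIndex G2 ≠ 0 := by
    intro e
    rw [e, mul_zero] at h1
    have : 0 < Nat.card G2 := Nat.card_pos
    omega
  have h4 : D.relIndex G2 ≠ 1 := by
    intro e
    exact na ((Subgroup.relIndex_eq_one.1 e) ha)
  have h5 : (D.subgroupOf G2).index = 2 := by
    have : D.relIndex G2 = 2 := by omega
    exact this
  have := (Subgroup.mul_mem_iff_of_index_two h5 (a := ⟨a, ha⟩) (b := ⟨b⁻¹, G2.inv_mem hb⟩)).2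
    ⟨fun h => absurd (Subgroup.mem_subgroupOf.1 h) na, fun h => by
      have h6 : b⁻¹ ∈ D := Subgroup.mem_subgroupOf.1 h
      exact absurd (by simpa using D.inv_mem h6) nb⟩
  exact Subgroup.mem_subgroupOf.1 this

theorem card_le_length {S : Subgroup (Equiv.Perm GolayPt)} {P : List (List ℕ)}
    (ha : ∀ g ∈ S, tblOf g ∈ P) : Nat.card S ≤ P.length := by
  refine le_trans ?_ (List.toFinset_card_le P)
  rw [← Fintype.card_coe, ← Nat.card_eq_fintype_card]
  apply Nat.card_le_card_of_injective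
    (fun g : S => (⟨tblOf g.1, List.mem_toFinset.2 (ha g.1 g.2)⟩ : {x // x ∈ P.toFinset}))
  intro a b e
  exact Subtype.ext (tblOf_injective (congrArg Subtype.val e))

theorem card_G2_le : Nat.card G2 ≤ 720 := by
  have hl : (prods [(2, U3), (3, U4), (4, U5)]).length = 720 := by decide +kernel
  rw [← hl]
  apply card_le_length
  intro g hg
  obtain ⟨h1, h2, h3⟩ := mem_G2.1 hg
  apply enum good12 hcol12 hlam0 [(2, U3), (3, U4), (4, U5)] [0, 1] l345 _ g h1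
  · intro b hb
    simp only [List.mem_cons, List.not_mem_nil, or_false] at hb
    rcases hb with rfl | rfl <;> assumption
  · intro g hg hfix
    exact base12 g hg (by simpa using hfix)

theorem good_comm {a b ai bi : List ℕ} (ha : Good G2 a) (hb : Good G2 b) (hai : isTbl ai = true)
    (hbi : isTbl bi = true) (h1 : comp a ai = idT) (h2 : comp b bi = idT) :
    Good ⁅G2, G2⁆ (comp (comp (comp a b) ai) bi) := by
  have e1 := permOf_comp ha.1 hb.1
  have e2 := permOf_comp e1.1 hai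
  have e3 := permOf_comp e2.1 hbi
  refine ⟨e3.1, ?_⟩
  rw [e3.2, e2.2, e1.2, permOf_inv_of_comp ha.1 hai h1, permOf_inv_of_comp hb.1 hbi h2,
    ← commutatorElement_def]
  exact Subgroup.commutator_mem_commutator ha.2 hb.2

def acc0 : List (List ℕ) :=
  [comp (comp (comp ca0 cb0) cai0) cbi0, comp (comp (comp ca1 cb1) cai1) cbi1]

theorem card_D_ge : 360 ≤ Nat.card ↥⁅G2, G2⁆ := by
  have hl : (runSLP prog acc0).length = 360 := by decide +kernel
  rw [← hl]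
  apply length_le_card
  · apply runSLP_good
    intro t ht
    simp only [acc0, List.mem_cons, List.not_mem_nil, or_false] at ht
    rcases ht with rfl | rfl
    · exact good_comm (good10 _ (by decide +kernel)) (good10 _ (by decide +kernel))
        (by decide +kernel) (by decide +kernel) (by decide +kernel) (by decide +kernel)
    · exact good_comm (good10 _ (by decide +kernel)) (good10 _ (by decide +kernel))
        (by decide +kernel) (by decide +kernel) (by decide +kernel) (by decide +kernel)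
  · decide +kernel

theorem ht0 : permOf tt (ptOf 0) = ptOf 1 := by
  rw [permOf_apply it, idx_ptOf (by norm_num)]; rfl

theorem ht1 : permOf tt (ptOf 1) = ptOf 0 := by
  rw [permOf_apply it, idx_ptOf (by norm_num)]; rfl

theorem htM : permOf tt ∈ Spor.M12 := (good12 tt (by decide +kernel)).2

theorem conj_mem' {H : Subgroup (Equiv.Perm GolayPt)} {k g : Equiv.Perm GolayPt} (hk : k ∈ H)
    (hg : g ∈ H) : k * g * k⁻¹ ∈ H := H.mul_mem (H.mul_mem hk hg) (H.inv_mem hk)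

theorem extData : ExtData2 Spor.M12 Spor.M11 G2 (permOf ts) (permOf tt) where
  h21 := inf_le_left
  h1 := inf_le_left
  hs := (good11 ts (by decide +kernel)).2
  ht := htM
  ht1 := by
    intro h
    have := (mem_M11'.1 h).2
    rw [ht0] at this
    exact absurd this (by decide)
  hss := by
    apply tblOf_injective
    rw [tblOf_mul, tblOf_permOf is, tblOf_one]
    decide +kernel
  hbraid := by
    apply tblOf_injective
    simp only [tblOf_mul, tblOf_permOf is, tblOf_permOf it]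
    decide +kernel
  hG := by
    intro g hg
    obtain ⟨u, hu, g', hg', hfix, _, rfl⟩ := sift_step good12 hcol12 hlam0 l1 hg (by simp)
    have hg'' : g' ∈ Spor.M11 := mem_M11'.2 ⟨hg', hfix 0 (by simp)⟩
    rcases List.mem_cons.1 hu with rfl | hu
    · left
      rw [permOf_idT, one_mul]; exact hg''
    · right
      obtain ⟨a, ha, rfl⟩ := List.mem_map.1 hu
      have hall : (U2.all in11) = true := by decide +kernel
      have hga := good11 a (List.all_eq_true.1 hall a ha)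
      exact ⟨permOf a, hga.2, g', hg'', by rw [(permOf_comp hga.1 it).2]⟩
  hG1 := by
    intro g hg
    obtain ⟨h1, h2⟩ := mem_M11'.1 hg
    obtain ⟨u, hu, g', hg', hfix, _, rfl⟩ := sift_step good12 hcol12 hlam0 l2 h1 (by simpa using h2)
    have hg'' : g' ∈ G2 := mem_G2.2 ⟨hg', hfix 0 (by simp), hfix 1 (by simp)⟩
    rcases List.mem_cons.1 hu with rfl | hu
    · left
      rw [permOf_idT, one_mul]; exact hg''
    · right
      obtain ⟨a, ha, rfl⟩ := List.mem_map.1 hu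
      have hall : (U3.all in10) = true := by decide +kernel
      have hga := good10 a (List.all_eq_true.1 hall a ha)
      exact ⟨permOf a, hga.2, g', hg'', by rw [(permOf_comp hga.1 is).2]⟩
  htn := by
    intro k hk
    obtain ⟨h1, h2, h3⟩ := mem_G2.1 hk
    refine mem_G2.2 ⟨conj_mem' htM h1, ?_, ?_⟩
    · conv_lhs => rw [← ht1]
      rw [conj_apply, h3, ht1]
    · conv_lhs => rw [← ht0]
      rw [conj_apply, h2, ht0]
  hp1 := by
    have := simple11
    refine le_commutator_of_simple Spor.M11 (good11 nx (by decide +kernel)).2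
      (good11 ny (by decide +kernel)).2 ?_
    intro e
    have := congrArg tblOf e
    simp only [tblOf_mul, tblOf_permOf (show isTbl nx = true by decide +kernel),
      tblOf_permOf (show isTbl ny = true by decide +kernel)] at this
    exact absurd this (by decide +kernel)
  hp2 := index_two_prop G2 ⁅G2, G2⁆ (Subgroup.commutator_le_self G2) (by
    have h1 := card_G2_le
    have h2 := card_D_ge
    omega)

/-- the kernel of a stem extension of `M12` has at most one non-identity element -/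
theorem stem_le_two (Γ : Type) [Group Γ] [Finite Γ] (τ : Γ →* Equiv.Perm GolayPt)
    (h : Stem τ Spor.M12) : ∀ c1 c2, τ c1 = 1 → τ c2 = 1 → c1 ≠ 1 → c2 ≠ 1 → c1 = c2 :=
  ker_le_two_of_ext extData SchurM11.stem_trivial Γ τ h

end Cfsg.Agent.Lib.Helper3.SchurM12
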