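import Cfsg.Agent.Lib.Helper3.SchurM12a

/-!
# The double cover of `M12`, and the Schur multiplier of `M12`
-/

set_option autoImplicit false
set_option maxRecDepth 1000000

namespace Cfsg.Agent.Lib.Helper3.SchurM12

open Cfsg Cfsg.Agent.Lib.Helper28 Cfsg.Agent.Lib.Helper3.M24T Cfsg.Agent.Lib.Helper3.M24Gen
  Cfsg.Agent.Lib.Helper3.FusEnum Cfsg.Agent.Lib.Helper3.FusGrp Cfsg.Agent.Lib.Helper3.SchurTriv
  Cfsg.Agent.Lib.Helper3.SchurTbl Subgroup
open scoped commutatorElement Pointwise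

def zT : List ℕ := [12, 13, 14, 15, 16, 17, 18, 19, 20, 21, 22, 23, 0, 1, 2, 3, 4, 5, 6, 7, 8, 9, 10, 11]
def dl : List ℕ := [0, 1, 2, 3, 4, 6, 8, 9, 12, 13, 16, 18]
/-- the signed hexads: the weight-6 words of a ternary Golay code on the dodecad -/
def FL : List ℕ :=
  [667, 845, 1370, 1415, 1748, 2254, 2513, 2838, 3101, 3651,
   3976, 13984, 21800, 27040, 31240, 37428, 41200, 46148, 51297, 57617,
   71848, 74536, 81152, 85536, 86912, 91272, 99363, 115266, 131159, 131484,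
   132034, 132297, 132622, 132881, 133387, 133720, 133765, 134290, 134468, 184450,
   233792, 239620, 269088, 273448, 274824, 279208, 285824, 288512, 295206, 301074,
   329120, 333320, 338560, 346376, 356384, 360581, 434689, 443408, 528690, 532525,
   541794, 544856, 559650, 563460, 574977, 590433, 598340, 608259, 625728, 669760,
   680464, 697600, 726020, 788532, 791046, 795665, 819984, 934145, 983050, 1052900,
   1057844, 1061456, 1065507, 1082976, 1086608, 1090180, 1100802, 1116258, 1118222, 1131585,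
   1149441, 1202192, 1204296, 1253505, 1310777, 1320965, 1327250, 1446914, 1476736, 1507844,
   1575969, 1583128, 1591872, 1605699, 1639938, 1687584, 1708552, 1836044, 2101354, 2107441,
   2113904, 2118674, 2121921, 2130337, 2140480, 2148496, 2162854, 2168900, 2196740, 2240772,
   2268160, 2303040, 2310153, 2360357, 2367516, 2393218, 2425091, 2494608, 2508802, 2622520,
   2626880, 2632708, 2638090, 2732032, 2785348, 2820352, 2885641, 3147820, 3152002, 3154953,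
   3211464, 3294336, 3309586, 3410960, 3461120, 3670037, 3940384, 4200486, 4202849, 4210865,
   4221008, 4229424, 4231938, 4237441, 4243904, 4259948, 4264130, 4268549, 4337688, 4346432,
   4407554, 4424320, 4457010, 4460820, 4472843, 4491780, 4595844, 4655105, 4719396, 4725264,
   4727368, 4751382, 4784393, 4868104, 4983042, 5017632, 5243050, 5249096, 5259800, 5310596,
   5384704, 5406725, 5505665, 5611520, 5795840, 5898320, 6293728, 6295692, 6300048, 6310145,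
   6324305, 6348832, 6359050, 6684936, 6946819, 7159808, 7340102, 7409696, 8393840, 8397412,
   8401044, 8405050, 8409410, 8422564, 8426176, 8431120, 8454437, 8462409, 8487298, 8545281,
   8569600, 8589826, 8601792, 8650915, 8667665, 8684801, 8717318, 8785932, 8790288, 8913256,
   8918026, 8921857, 8930576, 8978956, 9076753, 9232384, 9307648, 9437872, 9442820, 9446592,
   9453705, 9470036, 9482272, 9634824, 9699850, 10092550, 10293248, 10487074, 10490136, 10503240,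
   10518535, 10552449, 10625160, 10748292, 10846240, 11010130, 11030560, 11624448, 11665473, 12583465,
   12591372, 12599938, 12649280, 12701696, 12718464, 12746818, 12845208, 13107269, 13180960, 13631507,
   13910048, 14811156, 14954496, 16285696]
def P3 : List (List ℕ × List ℕ) :=
  [([0, 1, 2, 3, 4, 5, 6, 7, 8, 9, 10, 11, 12, 13, 14, 15, 16, 17, 18, 19, 20, 21, 22, 23],
    [0, 1, 2, 3, 4, 5, 6, 7, 8, 9, 10, 11, 12, 13, 14, 15, 16, 17, 18, 19, 20, 21, 22, 23]),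
   ([0, 1, 3, 4, 12, 20, 18, 10, 6, 8, 7, 22, 2, 13, 19, 21, 16, 23, 9, 5, 14, 15, 17, 11],
    [0, 1, 3, 16, 8, 23, 17, 18, 14, 21, 22, 19, 12, 13, 15, 4, 20, 11, 5, 6, 2, 9, 10, 7]),
   ([0, 1, 4, 2, 3, 15, 16, 7, 6, 13, 10, 23, 12, 18, 21, 20, 8, 11, 9, 14, 5, 19, 22, 17],
    [12, 13, 4, 14, 3, 10, 17, 9, 20, 11, 6, 19, 0, 1, 16, 2, 15, 22, 5, 21, 8, 23, 18, 7]),
   ([0, 1, 6, 4, 3, 22, 8, 5, 13, 2, 21, 20, 16, 12, 10, 7, 18, 15, 9, 11, 23, 17, 14, 19],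
    [0, 13, 17, 4, 15, 6, 9, 14, 10, 8, 23, 19, 12, 1, 5, 16, 3, 18, 21, 2, 22, 20, 11, 7]),
   ([0, 1, 8, 2, 16, 10, 6, 19, 12, 4, 15, 20, 3, 13, 22, 23, 18, 21, 9, 11, 7, 17, 14, 5],
    [12, 1, 18, 14, 10, 5, 20, 4, 15, 21, 11, 7, 0, 13, 6, 2, 22, 17, 8, 16, 3, 9, 23, 19]),
   ([0, 1, 9, 8, 18, 23, 12, 15, 13, 3, 21, 20, 6, 4, 22, 17, 2, 14, 16, 7, 10, 11, 5, 19],
    [12, 1, 7, 18, 11, 8, 21, 15, 17, 4, 14, 10, 0, 13, 19, 6, 23, 20, 9, 3, 5, 16, 2, 22]),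
   ([0, 1, 12, 8, 18, 15, 6, 11, 3, 16, 23, 7, 2, 13, 14, 5, 9, 17, 4, 20, 19, 21, 22, 10],
    [12, 13, 20, 18, 23, 17, 15, 22, 14, 21, 19, 16, 0, 1, 8, 6, 11, 5, 3, 10, 2, 9, 7, 4]),
   ([0, 1, 13, 3, 9, 22, 2, 14, 8, 18, 15, 21, 4, 16, 7, 23, 6, 5, 12, 10, 17, 11, 20, 19],
    [0, 13, 21, 15, 7, 2, 6, 11, 4, 22, 5, 8, 12, 1, 9, 3, 19, 14, 18, 23, 16, 10, 17, 20]),
   ([0, 1, 16, 8, 4, 21, 12, 10, 18, 6, 11, 7, 9, 2, 20, 14, 13, 17, 3, 5, 15, 19, 22, 23],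
    [12, 13, 10, 18, 16, 20, 11, 5, 7, 14, 9, 3, 0, 1, 22, 6, 4, 8, 23, 17, 19, 2, 21, 15]),
   ([0, 1, 18, 9, 4, 11, 8, 19, 3, 6, 5, 21, 2, 12, 17, 23, 16, 14, 13, 7, 22, 10, 15, 20],
    [0, 13, 23, 7, 16, 18, 3, 17, 14, 20, 10, 21, 12, 1, 11, 19, 4, 6, 15, 5, 2, 8, 22, 9])]
def P4 : List (List ℕ × List ℕ) :=
  [([0, 1, 2, 3, 4, 5, 6, 7, 8, 9, 10, 11, 12, 13, 14, 15, 16, 17, 18, 19, 20, 21, 22, 23],
    [0, 1, 2, 3, 4, 5, 6, 7, 8, 9, 10, 11, 12, 13, 14, 15, 16, 17, 18, 19, 20, 21, 22, 23]),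
   ([0, 1, 2, 4, 12, 15, 16, 7, 9, 13, 10, 22, 3, 8, 21, 19, 18, 17, 6, 5, 14, 20, 23, 11],
    [12, 13, 14, 4, 20, 10, 19, 9, 3, 6, 11, 17, 0, 1, 2, 16, 8, 22, 7, 21, 15, 18, 23, 5]),
   ([0, 1, 2, 6, 8, 23, 13, 14, 9, 12, 20, 5, 4, 16, 7, 22, 3, 21, 18, 11, 17, 10, 15, 19],
    [0, 13, 14, 5, 6, 9, 7, 8, 4, 22, 15, 11, 12, 1, 2, 17, 18, 21, 19, 20, 16, 10, 3, 23]),
   ([0, 1, 2, 8, 6, 22, 16, 20, 18, 3, 14, 19, 4, 13, 10, 23, 12, 21, 9, 11, 17, 7, 15, 5],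
    [0, 13, 14, 18, 17, 22, 23, 15, 4, 9, 8, 19, 12, 1, 2, 6, 5, 10, 11, 3, 16, 21, 20, 7]),
   ([0, 1, 2, 9, 8, 15, 6, 7, 4, 3, 17, 22, 13, 12, 20, 5, 18, 10, 16, 19, 14, 21, 11, 23],
    [0, 1, 2, 19, 6, 5, 4, 15, 21, 20, 23, 22, 12, 13, 14, 7, 18, 17, 16, 3, 9, 8, 11, 10]),
   ([0, 1, 2, 12, 4, 19, 8, 10, 6, 18, 7, 11, 3, 16, 20, 15, 13, 17, 9, 5, 14, 21, 23, 22],
    [12, 13, 14, 8, 16, 6, 5, 11, 3, 10, 9, 7, 0, 1, 2, 20, 4, 18, 17, 23, 15, 22, 21, 19]),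
   ([0, 1, 2, 13, 9, 19, 16, 7, 12, 4, 17, 23, 8, 3, 14, 15, 6, 10, 18, 5, 21, 20, 22, 11],
    [0, 1, 2, 9, 7, 22, 8, 4, 6, 3, 17, 11, 12, 13, 14, 21, 19, 10, 20, 16, 18, 15, 5, 23]),
   ([0, 1, 2, 16, 8, 7, 12, 19, 18, 9, 15, 21, 3, 4, 11, 10, 6, 5, 13, 17, 23, 22, 14, 20],
    [12, 1, 14, 22, 6, 20, 23, 7, 15, 16, 17, 9, 0, 13, 2, 10, 18, 8, 11, 19, 3, 4, 5, 21]),
   ([0, 1, 2, 18, 6, 15, 8, 10, 4, 12, 17, 23, 16, 3, 14, 19, 9, 7, 13, 5, 20, 21, 11, 22],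
    [12, 13, 14, 23, 5, 6, 16, 20, 22, 15, 19, 21, 0, 1, 2, 11, 17, 18, 4, 8, 10, 3, 7, 9])]
def P5 : List (List ℕ × List ℕ) :=
  [([0, 1, 2, 3, 4, 5, 6, 7, 8, 9, 10, 11, 12, 13, 14, 15, 16, 17, 18, 19, 20, 21, 22, 23],
    [0, 1, 2, 3, 4, 5, 6, 7, 8, 9, 10, 11, 12, 13, 14, 15, 16, 17, 18, 19, 20, 21, 22, 23]),
   ([0, 1, 2, 3, 6, 14, 12, 22, 13, 4, 11, 7, 9, 16, 5, 21, 18, 23, 8, 20, 15, 19, 10, 17],
    [0, 1, 14, 15, 5, 8, 9, 16, 19, 10, 11, 6, 12, 13, 2, 3, 17, 20, 21, 4, 7, 22, 23, 18]),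
   ([0, 1, 2, 3, 8, 17, 18, 15, 12, 13, 19, 21, 16, 6, 23, 10, 4, 5, 9, 7, 11, 22, 20, 14],
    [12, 1, 14, 3, 6, 11, 8, 21, 10, 5, 4, 19, 0, 13, 2, 15, 18, 23, 20, 9, 22, 17, 16, 7]),
   ([0, 1, 2, 3, 9, 14, 4, 11, 18, 12, 22, 10, 6, 8, 5, 20, 13, 23, 16, 21, 19, 15, 7, 17],
    [12, 13, 2, 3, 7, 16, 23, 8, 17, 18, 21, 22, 0, 1, 14, 15, 19, 4, 11, 20, 5, 6, 9, 10]),
   ([0, 1, 2, 3, 12, 5, 9, 10, 16, 6, 7, 22, 4, 18, 14, 19, 8, 17, 13, 15, 21, 20, 11, 23],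
    [12, 13, 14, 15, 20, 7, 22, 5, 16, 23, 18, 21, 0, 1, 2, 3, 8, 19, 10, 17, 4, 11, 6, 9]),
   ([0, 1, 2, 3, 13, 23, 8, 21, 9, 16, 20, 19, 18, 12, 17, 11, 6, 14, 4, 22, 7, 10, 15, 5],
    [12, 1, 2, 15, 9, 6, 19, 22, 11, 8, 5, 4, 0, 13, 14, 3, 21, 18, 7, 10, 23, 20, 17, 16]),
   ([0, 1, 2, 3, 16, 17, 13, 19, 4, 18, 15, 20, 8, 9, 23, 7, 12, 5, 6, 10, 22, 11, 21, 14],
    [12, 1, 14, 3, 10, 9, 4, 23, 6, 19, 8, 5, 0, 13, 2, 15, 22, 21, 16, 11, 18, 7, 20, 17]),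
   ([0, 1, 2, 3, 18, 23, 16, 20, 6, 8, 21, 15, 13, 4, 17, 22, 9, 14, 12, 11, 10, 7, 19, 5],
    [0, 13, 14, 3, 23, 22, 17, 6, 21, 16, 7, 20, 12, 1, 2, 15, 11, 10, 5, 18, 9, 4, 19, 8])]
def xs : List ℕ := [0, 14, 13, 5, 4, 3, 8, 7, 6, 22, 21, 11, 12, 2, 1, 17, 16, 15, 20, 19, 18, 10, 9, 23]
def xt : List ℕ := [13, 12, 2, 19, 21, 5, 8, 15, 6, 16, 10, 11, 1, 0, 14, 7, 9, 17, 20, 3, 18, 4, 22, 23]
def pa : List ℕ := [8, 18, 13, 6, 9, 23, 3, 10, 0, 4, 7, 14, 16, 2, 11, 17, 12, 15, 1, 20, 19, 22, 21, 5]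
def pb : List ℕ := [1, 0, 9, 16, 13, 17, 12, 19, 18, 2, 20, 21, 6, 4, 22, 23, 3, 5, 8, 7, 10, 11, 14, 15]
def qa : List ℕ := [18, 11, 21, 5, 19, 15, 0, 4, 10, 2, 20, 13, 6, 23, 9, 17, 7, 3, 12, 16, 22, 14, 8, 1]
def qb : List ℕ := [1, 12, 7, 10, 21, 8, 11, 14, 17, 4, 15, 18, 13, 0, 19, 22, 9, 20, 23, 2, 5, 16, 3, 6]
def qai : List ℕ := [6, 23, 9, 17, 7, 3, 12, 16, 22, 14, 8, 1, 18, 11, 21, 5, 19, 15, 0, 4, 10, 2, 20, 13]
def qbi : List ℕ := [13, 0, 19, 22, 9, 20, 23, 2, 5, 16, 3, 6, 1, 12, 7, 10, 21, 8, 11, 14, 17, 4, 15, 18]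

def zimg (m : ℕ) : ℕ := (m >>> 12) ||| ((m % 4096) <<< 12)

theorem iz : isTbl zT = true := by decide +kernel

/-- projection of the 24 signed points onto the dodecad -/
def pr (p : GolayPt) : GolayPt := ptOf (dl.getD (idx p % 12) 0)

theorem dl_lt : ∀ j < 12, dl.getD j 0 < 24 := by decide
theorem dl_inj : ∀ a < 12, ∀ b < 12, dl.getD a 0 = dl.getD b 0 → a = b := by decide

theorem z_apply (p : GolayPt) : permOf zT p = ptOf ((idx p + 12) % 24) := by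
  rw [permOf_apply iz]
  have : ∀ i < 24, zT.getD i 0 = (i + 12) % 24 := by decide
  rw [this _ (idx_lt p)]

theorem z_ne (p : GolayPt) : permOf zT p ≠ p := by
  intro e
  have := congrArg idx e
  rw [z_apply, idx_ptOf (Nat.mod_lt _ (by norm_num))] at this
  have := idx_lt p
  omega

theorem z_z (p : GolayPt) : permOf zT (permOf zT p) = p := by
  rw [z_apply, z_apply, idx_ptOf (Nat.mod_lt _ (by norm_num))]
  have h := idx_lt p
  have : ((idx p + 12) % 24 + 12) % 24 = idx p := by omega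
  rw [this, ptOf_idx]

theorem fibre {x : Equiv.Perm GolayPt} (h1 : ∀ p, pr p = pr (x p)) (p : GolayPt) :
    x p = p ∨ x p = permOf zT p := by
  have h := congrArg idx (h1 p)
  unfold pr at h
  rw [idx_ptOf (dl_lt _ (Nat.mod_lt _ (by norm_num))),
    idx_ptOf (dl_lt _ (Nat.mod_lt _ (by norm_num)))] at h
  have h2 := dl_inj _ (Nat.mod_lt _ (by norm_num)) _ (Nat.mod_lt _ (by norm_num)) h
  have a := idx_lt p
  have b := idx_lt (x p)
  by_cases e : idx (x p) = idx p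
  · left
    exact idx_injective e
  · right
    apply idx_injective
    rw [z_apply, idx_ptOf (Nat.mod_lt _ (by norm_num))]
    omega

theorem FL_lt : ∀ m ∈ FL, m < 2 ^ 24 := by decide +kernel
theorem FL_z : ∀ m ∈ FL, img zT m = zimg m := by decide +kernel
theorem FL_c1 : ∀ m ∈ FL, m &&& zimg m = 0 := by decide +kernel
theorem FL_c2 : (FL.all fun m => FL.all fun m' =>
    (m' &&& (m ||| zimg m) != m') || m' == m || m' == zimg m) = true := by decide +kernel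
theorem FL_c3 : ((List.range 24).all fun i =>
    i == 0 || i == 12 || FL.any fun m => m.testBit 0 && m.testBit i) = true := by decide +kernel

theorem z_smul {m : ℕ} (hm : m ∈ FL) : permOf zT • un m = un (zimg m) := by
  rw [permOf_smul_un iz (FL_lt m hm), FL_z m hm]

theorem alt {x : Equiv.Perm GolayPt} (h1 : ∀ p, pr p = pr (x p))
    (h2 : ∀ m ∈ FL, ∃ m' ∈ FL, x • un m = un m') {m : ℕ} (hm : m ∈ FL) :
    (∀ p ∈ un m, x p = p) ∨ (∀ p ∈ un m, x p = permOf zT p) := by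
  obtain ⟨m', hm', e⟩ := h2 m hm
  have hdisj : ∀ q, q ∈ un m → q ∈ un (zimg m) → False := by
    intro q ha hb
    have : q ∈ un (m &&& zimg m) := by rw [un_land]; exact Finset.mem_inter.2 ⟨ha, hb⟩
    rw [FL_c1 m hm, un_zero] at this
    simp at this
  have hsub : un m' ⊆ un (m ||| zimg m) := by
    intro q hq
    rw [← e] at hq
    obtain ⟨p, hp, rfl⟩ := Finset.mem_smul_finset.1 hq
    rw [un_lor, Finset.mem_union]
    rcases fibre h1 p with h | h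
    · left
      show x p ∈ un m
      rw [h]; exact hp
    · right
      show x p ∈ un (zimg m)
      rw [h, ← z_smul hm]
      exact Finset.smul_mem_smul_finset hp
  have hmask : m' &&& (m ||| zimg m) = m' := by
    have h3 : un (m' &&& (m ||| zimg m)) = un m' := by
      rw [un_land]; exact Finset.inter_eq_left.2 hsub
    have h4 := congrArg mk h3
    have hlt := FL_lt m' hm'
    rwa [mk_un (lt_of_le_of_lt Nat.and_le_left hlt), mk_un hlt] at h4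
  have hc := FL_c2
  simp only [List.all_eq_true, Bool.or_eq_true, bne_iff_ne, beq_iff_eq] at hc
  rcases hc m hm m' hm' with (h | h) | h
  · exact absurd hmask h
  · left
    intro p hp
    have hxp : x p ∈ un m := by
      rw [← h, ← e]; exact Finset.smul_mem_smul_finset hp
    rcases fibre h1 p with h5 | h5
    · exact h5
    · exfalso
      apply hdisj (x p) hxp
      rw [h5, ← z_smul hm]
      exact Finset.smul_mem_smul_finset hp
  · right
    intro p hp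
    have hxp : x p ∈ un (zimg m) := by
      rw [← h, ← e]; exact Finset.smul_mem_smul_finset hp
    rcases fibre h1 p with h5 | h5
    · exfalso
      rw [h5] at hxp
      exact hdisj p hp hxp
    · exact h5

theorem exists_hexad (q : GolayPt) (h0 : idx q ≠ 0) (h12 : idx q ≠ 12) :
    ∃ m ∈ FL, ptOf 0 ∈ un m ∧ q ∈ un m := by
  have hc := FL_c3
  simp only [List.all_eq_true, List.mem_range, Bool.or_eq_true, beq_iff_eq, List.any_eq_true,
    Bool.and_eq_true] at hc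
  rcases hc _ (idx_lt q) with (h | h) | ⟨m, hm, h1, h2⟩
  · exact absurd h h0
  · exact absurd h h12
  · exact ⟨m, hm, by rw [mem_un, idx_ptOf (by norm_num)]; exact h1, mem_un.2 h2⟩

theorem ker_lemma (x : Equiv.Perm GolayPt) (h1 : ∀ p, pr p = pr (x p))
    (h2 : ∀ m ∈ FL, ∃ m' ∈ FL, x • un m = un m') : x = 1 ∨ x = permOf zT := by
  have hq12 : ∀ q, idx q = 12 → q = permOf zT (ptOf 0) := by
    intro q hq
    rw [z_apply, idx_ptOf (by norm_num)]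
    show q = ptOf 12
    rw [← hq, ptOf_idx]
  have hq0 : ∀ q, idx q = 0 → q = ptOf 0 := by
    intro q hq
    rw [← hq, ptOf_idx]
  rcases fibre h1 (ptOf 0) with h0 | h0
  · left
    apply Equiv.ext
    intro q
    show x q = q
    by_cases e0 : idx q = 0
    · rw [hq0 q e0]; exact h0
    by_cases e12 : idx q = 12
    · rcases fibre h1 q with h | h
      · exact h
      · exfalso
        have hq := hq12 q e12
        have e : x q = x (ptOf 0) := by rw [h, h0, hq, z_z]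
        have := x.injective e
        rw [hq] at this
        exact z_ne _ this
    obtain ⟨m, hm, ha, hb⟩ := exists_hexad q e0 e12
    rcases alt h1 h2 hm with h | h
    · exact h q hb
    · exact absurd ((h _ ha).symm.trans h0) (z_ne _)
  · right
    apply Equiv.ext
    intro q
    by_cases e0 : idx q = 0
    · rw [hq0 q e0]; exact h0
    by_cases e12 : idx q = 12
    · rcases fibre h1 q with h | h
      · exfalso
        have e : x q = x (ptOf 0) := by rw [h, h0]; exact hq12 q e12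
        have := x.injective e
        rw [this, idx_ptOf (by norm_num)] at e12
        exact absurd e12 (by norm_num)
      · exact h
    obtain ⟨m, hm, ha, hb⟩ := exists_hexad q e0 e12
    rcases alt h1 h2 hm with h | h
    · exact absurd (h0.symm.trans (h _ ha)) (z_ne _)
    · exact h q hb
end Cfsg.Agent.Lib.Helper3.SchurM12
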