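import Cfsg.Agent.Lib.Helper3.SchurM12b

/-!
# The Schur multiplier of `M12` is cyclic of order two
-/

set_option autoImplicit false
set_option maxRecDepth 1000000

namespace Cfsg.Agent.Lib.Helper3.SchurM12

open Cfsg Cfsg.Agent.Lib.Helper28 Cfsg.Agent.Lib.Helper3.M24T Cfsg.Agent.Lib.Helper3.M24Gen
  Cfsg.Agent.Lib.Helper3.FusEnum Cfsg.Agent.Lib.Helper3.FusGrp Cfsg.Agent.Lib.Helper3.SchurTriv
  Cfsg.Agent.Lib.Helper3.SchurTbl Subgroup
open scoped commutatorElement Pointwise

/-- pairs (element of `M12`, signed permutation of the dodecad preserving the ternary code) -/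
def Rmon : Submonoid (Equiv.Perm GolayPt × Equiv.Perm GolayPt) where
  carrier := {r | r.1 ∈ Spor.M12 ∧ r.2 * permOf zT = permOf zT * r.2 ∧
    (∀ p, r.1 (pr p) = pr (r.2 p)) ∧ ∀ m ∈ FL, ∃ m' ∈ FL, r.2 • un m = un m'}
  one_mem' := ⟨one_mem _, by simp, fun p => rfl, fun m hm => ⟨m, hm, one_smul _ _⟩⟩
  mul_mem' := by
    rintro a b ⟨a1, a2, a3, a4⟩ ⟨b1, b2, b3, b4⟩
    refine ⟨mul_mem a1 b1, ?_, ?_, ?_⟩
    · show a.2 * b.2 * permOf zT = permOf zT * (a.2 * b.2)
      rw [mul_assoc, b2, ← mul_assoc, a2, mul_assoc]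
    · intro p
      show a.1 (b.1 (pr p)) = pr (a.2 (b.2 p))
      rw [b3, a3]
    · intro m hm
      obtain ⟨m1, h1, e1⟩ := b4 m hm
      obtain ⟨m2, h2, e2⟩ := a4 m1 h1
      refine ⟨m2, h2, ?_⟩
      show (a.2 * b.2) • un m = _
      rw [mul_smul, e1, e2]

/-- the double cover of `M12` -/
def R : Subgroup (Equiv.Perm GolayPt × Equiv.Perm GolayPt) :=
  { Rmon with
    inv_mem' := by
      intro r hr
      have : r⁻¹ = r ^ (orderOf r - 1) := by
        apply inv_eq_of_mul_eq_one_right
        rw [← pow_succ', Nat.sub_add_cancel (orderOf_pos r), pow_orderOf_eq_one]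
      rw [this]
      exact Rmon.pow_mem hr _ }

theorem mem_R {r : Equiv.Perm GolayPt × Equiv.Perm GolayPt} :
    r ∈ R ↔ r.1 ∈ Spor.M12 ∧ r.2 * permOf zT = permOf zT * r.2 ∧
      (∀ p, r.1 (pr p) = pr (r.2 p)) ∧ ∀ m ∈ FL, ∃ m' ∈ FL, r.2 • un m = un m' := Iff.rfl

def chkR (g x : List ℕ) : Bool :=
  in12 g && isTbl x && comp x zT == comp zT x &&
    ((List.range 24).all fun i => g.getD (dl.getD (i % 12) 0) 0 == dl.getD (x.getD i 0 % 12) 0) &&
    FL.all fun m => FL.contains (img x m)

theorem mem_R_of_chk {g x : List ℕ} (h : chkR g x = true) : (permOf g, permOf x) ∈ R := by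
  simp only [chkR, Bool.and_eq_true, beq_iff_eq, List.all_eq_true, List.mem_range,
    List.contains_iff_mem] at h
  obtain ⟨⟨⟨⟨h1, h2⟩, h3⟩, h4⟩, h5⟩ := h
  have hg := good12 g h1
  refine mem_R.2 ⟨hg.2, ?_, ?_, ?_⟩
  · show permOf x * permOf zT = permOf zT * permOf x
    rw [← (permOf_comp h2 iz).2, ← (permOf_comp iz h2).2, h3]
  · intro p
    show permOf g (pr p) = pr (permOf x p)
    unfold pr
    rw [permOf_apply hg.1, idx_ptOf (dl_lt _ (Nat.mod_lt _ (by norm_num))), idx_permOf h2,
      h4 _ (idx_lt p)]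
  · intro m hm
    exact ⟨img x m, h5 m hm, permOf_smul_un h2 (FL_lt m hm)⟩

/-- the image of the cover in `M12` -/
def I : Subgroup (Equiv.Perm GolayPt) := R.map (MonoidHom.fst _ _)

theorem good_I {g x : List ℕ} (h : chkR g x = true) : Good I g := by
  have h1 : in12 g = true := by
    simp only [chkR, Bool.and_eq_true] at h
    exact h.1.1.1.1
  exact ⟨(good12 g h1).1, ⟨_, mem_R_of_chk h, rfl⟩⟩

theorem good_P {P : List (List ℕ × List ℕ)} (h : (P.all fun a => chkR a.1 a.2) = true) :
    ∀ u ∈ P.map Prod.fst, Good I u := by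
  intro u hu
  obtain ⟨a, ha, rfl⟩ := List.mem_map.1 hu
  exact good_I (List.all_eq_true.1 h a ha)

theorem c3 : (P3.all fun a => chkR a.1 a.2) = true := by decide +kernel
theorem c4 : (P4.all fun a => chkR a.1 a.2) = true := by decide +kernel
theorem c5 : (P5.all fun a => chkR a.1 a.2) = true := by decide +kernel
theorem cs : chkR ts xs = true := by decide +kernel
theorem ct : chkR tt xt = true := by decide +kernel
theorem e3 : P3.map Prod.fst = U3 := by decide +kernel
theorem e4 : P4.map Prod.fst = U4 := by decide +kernel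
theorem e5 : P5.map Prod.fst = U5 := by decide +kernel

theorem M12_le_I : Spor.M12 ≤ I := by
  intro g hg
  have hch : chainOK in12 col12 [] [] [(0, U1), (1, U2), (2, U3), (3, U4), (4, U5)] = true := by
    simp only [chainOK, Bool.and_eq_true, List.nil_append, List.cons_append]
    have := l345
    simp only [chainOK, Bool.and_eq_true, List.nil_append, List.cons_append] at this
    exact ⟨l1, l2, this⟩
  have h1 := enum good12 hcol12 hlam0 [(0, U1), (1, U2), (2, U3), (3, U4), (4, U5)] [] hch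
    (fun g hg hfix => base12 g hg (by simpa using hfix)) g hg (by simp)
  have g3 : ∀ u ∈ U3, Good I u := by rw [← e3]; exact good_P c3
  have g4 : ∀ u ∈ U4, Good I u := by rw [← e4]; exact good_P c4
  have g5 : ∀ u ∈ U5, Good I u := by rw [← e5]; exact good_P c5
  have g2 : ∀ u ∈ U2, Good I u := by
    intro u hu
    rcases List.mem_cons.1 hu with rfl | hu
    · exact good_idT I
    · obtain ⟨a, ha, rfl⟩ := List.mem_map.1 hu
      exact good_comp (g3 a ha) (good_I cs)
  have g1 : ∀ u ∈ U1, Good I u := by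
    intro u hu
    rcases List.mem_cons.1 hu with rfl | hu
    · exact good_idT I
    · obtain ⟨a, ha, rfl⟩ := List.mem_map.1 hu
      exact good_comp (g2 a ha) (good_I ct)
  have h2 := good_prods (H := I) [(0, U1), (1, U2), (2, U3), (3, U4), (4, U5)] (by
    intro a ha u hu
    simp only [List.mem_cons, List.not_mem_nil, or_false] at ha
    rcases ha with rfl | rfl | rfl | rfl | rfl
    · exact g1 u hu
    · exact g2 u hu
    · exact g3 u hu
    · exact g4 u hu
    · exact g5 u hu) _ h1
  rw [← permOf_tblOf g]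
  exact h2.2

end Cfsg.Agent.Lib.Helper3.SchurM12
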