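import Cfsg.Agent.Lib.Helper3.SchurM12c

/-!
# The Schur multiplier of `M12` is cyclic of order two: assembly
-/

set_option autoImplicit false
set_option maxRecDepth 1000000

namespace Cfsg.Agent.Lib.Helper3.SchurM12

open Cfsg Cfsg.Agent.Lib.Helper28 Cfsg.Agent.Lib.Helper3.M24T Cfsg.Agent.Lib.Helper3.M24Gen
  Cfsg.Agent.Lib.Helper3.FusEnum Cfsg.Agent.Lib.Helper3.FusGrp Cfsg.Agent.Lib.Helper3.SchurTriv
  Cfsg.Agent.Lib.Helper3.SchurTbl Subgroup
open scoped commutatorElement Pointwise

/-- the covering map -/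
def cov : ↥R →* ↥Spor.M12 :=
  ((MonoidHom.fst _ _).comp R.subtype).codRestrict Spor.M12 (fun x => (mem_R.1 x.2).1)

theorem cov_surj : Function.Surjective cov := by
  rintro ⟨g, hg⟩
  obtain ⟨r, hr, e⟩ := M12_le_I hg
  exact ⟨⟨r, hr⟩, Subtype.ext e⟩

theorem ker_cases (x : ↥R) (hx : cov x = 1) : x.1 = 1 ∨ x.1 = (1, permOf zT) := by
  have h1 : x.1.1 = 1 := congrArg Subtype.val hx
  obtain ⟨_, _, h3, h4⟩ := mem_R.1 x.2
  rcases ker_lemma x.1.2 (fun p => by have := h3 p; rw [h1] at this; exact this) h4 with h | h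
  · left; exact Prod.ext h1 h
  · right; exact Prod.ext h1 h

theorem zeta_mem : ((1 : Equiv.Perm GolayPt), permOf zT) ∈ R := by
  have := mem_R_of_chk (g := idT) (x := zT) (by decide +kernel)
  rwa [permOf_idT] at this

/-- the central involution of the cover -/
noncomputable def zeta : ↥R := ⟨(1, permOf zT), zeta_mem⟩

theorem zeta_ne : zeta ≠ 1 := by
  intro e
  have h1 : permOf zT = 1 := congrArg (fun x : ↥R => x.1.2) e
  have := z_ne (ptOf 0)
  rw [h1] at this
  exact this rfl

theorem zeta_ker : cov zeta = 1 := rfl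

theorem zeta_central (r : ↥R) : r * zeta = zeta * r := by
  apply Subtype.ext
  apply Prod.ext
  · show r.1.1 * 1 = 1 * r.1.1
    rw [mul_one, one_mul]
  · exact (mem_R.1 r.2).2.1

noncomputable def rho1 : ↥R := ⟨(permOf pa, permOf qa), mem_R_of_chk (by decide +kernel)⟩
noncomputable def rho2 : ↥R := ⟨(permOf pb, permOf qb), mem_R_of_chk (by decide +kernel)⟩

theorem zeta_comm : ⁅rho1, rho2⁆ = zeta := by
  have ipa : isTbl pa = true := by decide +kernel
  have ipb : isTbl pb = true := by decide +kernel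
  have iqa : isTbl qa = true := by decide +kernel
  have iqb : isTbl qb = true := by decide +kernel
  have iqai : isTbl qai = true := by decide +kernel
  have iqbi : isTbl qbi = true := by decide +kernel
  apply Subtype.ext
  apply Prod.ext
  · show permOf pa * permOf pb * (permOf pa)⁻¹ * (permOf pb)⁻¹ = 1
    rw [← permOf_inv_of_comp ipa ipa (by decide +kernel),
      ← permOf_inv_of_comp ipb ipb (by decide +kernel)]
    apply tblOf_injective
    simp only [tblOf_mul, tblOf_permOf ipa, tblOf_permOf ipb, tblOf_one]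
    decide +kernel
  · show permOf qa * permOf qb * (permOf qa)⁻¹ * (permOf qb)⁻¹ = permOf zT
    rw [← permOf_inv_of_comp iqa iqai (by decide +kernel),
      ← permOf_inv_of_comp iqb iqbi (by decide +kernel)]
    apply tblOf_injective
    simp only [tblOf_mul, tblOf_permOf iqa, tblOf_permOf iqb, tblOf_permOf iqai,
      tblOf_permOf iqbi, tblOf_permOf iz]
    decide +kernel

theorem ker_eq (x : ↥R) (hx : cov x = 1) : x = 1 ∨ x = zeta := by
  rcases ker_cases x hx with h | h
  · left; exact Subtype.ext h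
  · right; exact Subtype.ext h

theorem cov_stem : IsStemExtension cov := by
  refine ⟨cov_surj, ?_, ?_⟩
  · intro x hx
    rw [mem_center_iff]
    intro r
    rcases ker_eq x hx with rfl | rfl
    · rw [mul_one, one_mul]
    · exact zeta_central r
  · intro x hx
    rcases ker_eq x hx with rfl | rfl
    · exact one_mem _
    · rw [← zeta_comm, _root_.commutator_def]
      exact Subgroup.commutator_mem_commutator (mem_top _) (mem_top _)

theorem card_ker : Nat.card cov.ker = 2 := by
  rw [Nat.card_eq_two_iff]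
  refine ⟨1, ⟨zeta, zeta_ker⟩, ?_, ?_⟩
  · intro e
    exact zeta_ne (congrArg Subtype.val e).symm
  · ext x
    simp only [Set.mem_insert_iff, Set.mem_singleton_iff, Set.mem_univ, iff_true]
    rcases ker_eq x.1 x.2 with h | h
    · left; exact Subtype.ext h
    · right; exact Subtype.ext h

theorem exists_surj_of_le_two {A : Type*} [Group A]
    (h : ∀ c1 c2 : A, c1 ≠ 1 → c2 ≠ 1 → c1 = c2) :
    ∃ π : Multiplicative (ZMod 2) →* A, Function.Surjective π := by
  by_cases hA : ∀ c : A, c = 1
  · exact ⟨1, fun c => ⟨1, by rw [hA c]; rfl⟩⟩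
  · push Not at hA
    obtain ⟨z, hz⟩ := hA
    have hzz : z * z = 1 := by
      by_contra hne
      have := h _ _ hne hz
      exact hz (by simpa using this)
    let f : ZMod 2 → A := fun a => if a = 0 then 1 else z
    have h10 : (1 : ZMod 2) ≠ 0 := by decide
    have h11 : (1 : ZMod 2) + 1 = 0 := by decide
    have h01 : ∀ a : ZMod 2, a = 0 ∨ a = 1 := by decide
    have hf : ∀ a b : ZMod 2, f (a + b) = f a * f b := by
      intro a b
      rcases h01 a with rfl | rfl <;> rcases h01 b with rfl | rfl
      · simp [f]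
      · simp [f, h10]
      · simp [f, h10]
      · simp [f, h10, h11, hzz]
    refine ⟨MonoidHom.mk' (fun x => f (Multiplicative.toAdd x)) (fun a b => hf _ _), ?_⟩
    intro c
    by_cases hc : c = 1
    · exact ⟨Multiplicative.ofAdd 0, by simp [f, hc]⟩
    · exact ⟨Multiplicative.ofAdd 1, by simp [f, h10, h c z hc hz]⟩

theorem main : HasCyclicSchurMultiplier ↥Spor.M12 2 := by
  constructor
  · have : Fact (Nat.Prime 2) := ⟨by norm_num⟩
    exact ⟨↥R, inferInstance, inferInstance, cov, cov_stem,
      ⟨mulEquivOfPrimeCardEq (p := 2) card_ker (by simp)⟩⟩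
  · intro Γ _ _ σ hσ
    have hk : (Spor.M12.subtype.comp σ).ker = σ.ker := by
      ext x
      simp [MonoidHom.mem_ker]
    have hst : Stem (Spor.M12.subtype.comp σ) Spor.M12 := by
      refine ⟨?_, ?_, ?_⟩
      · ext x
        constructor
        · rintro ⟨y, rfl⟩
          exact (σ y).2
        · intro hx
          obtain ⟨y, hy⟩ := hσ.1 ⟨x, hx⟩
          exact ⟨y, by simp [hy]⟩
      · rw [hk]; exact hσ.2.1
      · rw [hk]; exact hσ.2.2
    have h2 := stem_le_two Γ _ hst
    apply exists_surj_of_le_two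
    intro c1 c2 n1 n2
    have e1 : (Spor.M12.subtype.comp σ) c1.1 = 1 := by
      have : c1.1 ∈ (Spor.M12.subtype.comp σ).ker := by rw [hk]; exact c1.2
      exact this
    have e2 : (Spor.M12.subtype.comp σ) c2.1 = 1 := by
      have : c2.1 ∈ (Spor.M12.subtype.comp σ).ker := by rw [hk]; exact c2.2
      exact this
    exact Subtype.ext (h2 c1.1 c2.1 e1 e2 (fun e => n1 (Subtype.ext e)) (fun e => n2 (Subtype.ext e)))

end Cfsg.Agent.Lib.Helper3.SchurM12
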