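import Cfsg.Agent.Lib.Helper3.SchurTbl

/-!
# The Schur multiplier of `M23` is trivial
-/

set_option autoImplicit false
set_option maxRecDepth 1000000

namespace Cfsg.Agent.Lib.Helper3.SchurM23

open Cfsg Cfsg.Agent.Lib.Helper28 Cfsg.Agent.Lib.Helper3.M24T Cfsg.Agent.Lib.Helper3.M24Gen
  Cfsg.Agent.Lib.Helper3.FusEnum Cfsg.Agent.Lib.Helper3.FusGrp Cfsg.Agent.Lib.Helper3.SchurTriv
  Cfsg.Agent.Lib.Helper3.SchurTbl Subgroup

/-- the non-identity elements `v` of `V`, each with `g` such that `g e1 g⁻¹ = v` -/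
def LC : List (List ℕ × List ℕ) :=
  [([0, 9, 21, 7, 6, 15, 4, 3, 19, 1, 13, 20, 12, 10, 14, 5, 16, 17, 18, 8, 11, 2, 22, 23],
    [0, 1, 2, 3, 4, 5, 6, 7, 8, 9, 10, 11, 12, 13, 14, 15, 16, 17, 18, 19, 20, 21, 22, 23]),
   ([0, 19, 20, 6, 7, 10, 3, 4, 9, 8, 5, 21, 12, 15, 14, 13, 16, 17, 18, 1, 2, 11, 22, 23],
    [0, 8, 7, 13, 19, 21, 1, 15, 10, 9, 6, 2, 14, 3, 18, 11, 12, 22, 16, 5, 20, 4, 17, 23]),
   ([0, 7, 15, 9, 19, 21, 8, 1, 6, 3, 11, 10, 12, 20, 14, 2, 16, 17, 18, 4, 13, 5, 22, 23],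
    [0, 7, 6, 3, 13, 4, 20, 9, 10, 1, 21, 15, 12, 5, 22, 19, 16, 14, 18, 11, 2, 8, 17, 23]),
   ([0, 11, 8, 13, 5, 4, 15, 10, 2, 20, 7, 1, 12, 3, 14, 6, 16, 17, 18, 21, 9, 19, 22, 23],
    [0, 8, 19, 1, 6, 9, 15, 11, 7, 2, 5, 3, 17, 4, 14, 20, 18, 22, 12, 10, 13, 21, 16, 23]),
   ([0, 15, 7, 21, 20, 9, 11, 2, 10, 5, 8, 6, 12, 19, 14, 1, 16, 17, 18, 13, 4, 3, 22, 23],
    [0, 6, 20, 19, 1, 10, 15, 13, 3, 11, 9, 2, 16, 5, 17, 8, 22, 14, 12, 21, 7, 4, 18, 23]),
   ([0, 10, 6, 20, 21, 19, 2, 11, 15, 13, 1, 7, 12, 9, 14, 8, 16, 17, 18, 5, 3, 4, 22, 23],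
    [14, 1, 5, 21, 9, 7, 13, 4, 2, 10, 8, 3, 17, 15, 22, 11, 18, 16, 0, 6, 20, 19, 12, 23]),
   ([0, 6, 10, 19, 9, 20, 1, 8, 7, 4, 2, 15, 12, 21, 14, 11, 16, 17, 18, 3, 5, 13, 22, 23],
    [12, 11, 6, 20, 8, 4, 7, 5, 19, 15, 2, 13, 22, 10, 18, 9, 17, 14, 0, 3, 21, 1, 16, 23]),
   ([0, 2, 1, 5, 13, 3, 10, 15, 11, 21, 6, 8, 12, 4, 14, 7, 16, 17, 18, 20, 19, 9, 22, 23],
    [18, 15, 21, 5, 6, 2, 10, 3, 4, 7, 20, 8, 12, 19, 16, 1, 22, 0, 17, 13, 11, 9, 14, 23]),
   ([0, 3, 5, 1, 8, 2, 19, 9, 4, 7, 20, 13, 12, 11, 14, 21, 16, 17, 18, 6, 10, 15, 22, 23],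
    [22, 8, 6, 20, 9, 13, 7, 10, 2, 4, 1, 15, 17, 3, 14, 11, 12, 16, 0, 5, 21, 19, 18, 23]),
   ([0, 5, 3, 2, 11, 1, 20, 21, 13, 15, 19, 4, 12, 8, 14, 9, 16, 17, 18, 10, 6, 7, 22, 23],
    [0, 5, 7, 19, 2, 11, 3, 10, 6, 1, 15, 13, 17, 9, 18, 4, 12, 14, 16, 20, 8, 21, 22, 23]),
   ([0, 4, 13, 8, 1, 11, 9, 19, 3, 6, 21, 5, 12, 2, 14, 20, 16, 17, 18, 7, 15, 10, 22, 23],
    [0, 8, 6, 15, 5, 2, 11, 20, 19, 3, 10, 4, 16, 21, 17, 13, 14, 22, 18, 7, 1, 9, 12, 23]),
   ([0, 8, 11, 4, 3, 13, 7, 6, 1, 19, 15, 2, 12, 5, 14, 10, 16, 17, 18, 9, 21, 20, 22, 23],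
    [14, 8, 2, 9, 4, 20, 3, 19, 7, 1, 13, 10, 16, 5, 17, 21, 22, 12, 0, 6, 15, 11, 18, 23]),
   ([0, 21, 9, 15, 10, 7, 13, 5, 20, 2, 4, 19, 12, 6, 14, 3, 16, 17, 18, 11, 8, 1, 22, 23],
    [12, 15, 7, 1, 6, 2, 13, 21, 11, 3, 4, 8, 14, 10, 16, 9, 0, 17, 22, 19, 20, 5, 18, 23]),
   ([0, 13, 4, 11, 2, 8, 21, 20, 5, 10, 9, 3, 12, 1, 14, 19, 16, 17, 18, 15, 7, 6, 22, 23],
    [18, 2, 1, 9, 8, 21, 5, 10, 20, 4, 3, 19, 14, 11, 17, 6, 12, 22, 16, 7, 15, 13, 0, 23]),
   ([0, 20, 19, 10, 15, 6, 5, 13, 21, 11, 3, 9, 12, 7, 14, 4, 16, 17, 18, 2, 1, 8, 22, 23],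
    [0, 13, 2, 21, 6, 10, 5, 8, 1, 7, 11, 4, 16, 9, 12, 3, 18, 17, 22, 20, 15, 19, 14, 23])]

def LV : List (List ℕ) := idT :: LC.map Prod.fst

def e1 : List ℕ := [0, 9, 21, 7, 6, 15, 4, 3, 19, 1, 13, 20, 12, 10, 14, 5, 16, 17, 18, 8, 11, 2, 22, 23]
def tu : List ℕ := [0, 9, 21, 7, 6, 15, 4, 3, 19, 1, 13, 20, 12, 10, 14, 5, 16, 17, 18, 8, 11, 2, 22, 23]
def tv : List ℕ := [0, 19, 20, 6, 7, 10, 3, 4, 9, 8, 5, 21, 12, 15, 14, 13, 16, 17, 18, 1, 2, 11, 22, 23]
def tw : List ℕ := [0, 7, 15, 9, 19, 21, 8, 1, 6, 3, 11, 10, 12, 20, 14, 2, 16, 17, 18, 4, 13, 5, 22, 23]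
def ta : List ℕ := [0, 10, 7, 2, 1, 8, 5, 3, 6, 19, 4, 15, 12, 11, 14, 13, 22, 16, 18, 20, 9, 21, 17, 23]
def ta2 : List ℕ := [0, 4, 3, 7, 10, 6, 8, 2, 5, 20, 1, 13, 12, 15, 14, 11, 17, 22, 18, 9, 19, 21, 16, 23]
def ts : List ℕ := [18, 4, 5, 8, 1, 2, 7, 6, 3, 19, 10, 13, 12, 11, 14, 15, 16, 22, 0, 9, 20, 21, 17, 23]
def tt : List ℕ := [12, 3, 10, 1, 7, 20, 19, 4, 9, 8, 2, 11, 0, 13, 18, 15, 16, 17, 14, 6, 5, 21, 22, 23]
def gs : List ℕ := [15, 8, 17, 5, 18, 19, 0, 2, 7, 3, 1, 13, 20, 4, 16, 9, 12, 14, 10, 6, 11, 22, 21, 23]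
def gt : List ℕ := [17, 1, 0, 8, 7, 20, 4, 9, 19, 3, 2, 18, 13, 10, 16, 5, 11, 21, 15, 6, 14, 12, 22, 23]
def gr : List ℕ := [22, 4, 5, 7, 12, 20, 14, 8, 0, 9, 3, 19, 21, 6, 11, 10, 16, 13, 17, 18, 1, 2, 15, 23]
def tb : List ℕ := [0, 9, 3, 7, 20, 1, 4, 2, 10, 5, 19, 11, 14, 13, 18, 15, 22, 16, 12, 8, 6, 21, 17, 23]
def tg : List ℕ := [21, 1, 17, 22, 4, 9, 20, 16, 19, 5, 10, 11, 12, 13, 18, 15, 7, 2, 14, 8, 6, 0, 3, 23]
def x5 : List ℕ := [13, 21, 6, 12, 3, 1, 10, 7, 17, 15, 0, 8, 9, 2, 16, 4, 5, 18, 19, 11, 20, 14, 22, 23]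
def x7 : List ℕ := [18, 15, 20, 14, 6, 8, 2, 13, 11, 4, 10, 21, 1, 17, 0, 5, 16, 3, 7, 22, 19, 12, 9, 23]
def x11 : List ℕ := [22, 13, 6, 9, 17, 15, 8, 16, 11, 5, 2, 0, 12, 10, 7, 21, 18, 1, 19, 20, 3, 14, 4, 23]
def x23 : List ℕ := [8, 14, 18, 6, 10, 17, 5, 22, 21, 20, 0, 9, 11, 12, 7, 3, 13, 1, 16, 4, 15, 2, 19, 23]

theorem hchk : chkV LV = true := by decide +kernel

/-- the elementary abelian group of order 16 fixing an octad pointwise -/
def V : Subgroup (Equiv.Perm GolayPt) := listSub LV hchk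

theorem tbl_conj {x xi : List ℕ} (hx : isTbl x = true) (hxi : isTbl xi = true)
    (h : comp x xi = idT) (g : Equiv.Perm GolayPt) :
    tblOf (permOf x * g * (permOf x)⁻¹) = comp (comp x (tblOf g)) xi := by
  rw [← permOf_inv_of_comp hx hxi h, tblOf_mul, tblOf_mul, tblOf_permOf hx, tblOf_permOf hxi]

theorem conj_mem_V {x xi : List ℕ} (hx : isTbl x = true) (hxi : isTbl xi = true)
    (h : comp x xi = idT) (hc : (LV.all fun t => LV.contains (comp (comp x t) xi)) = true) :
    ∀ v ∈ V, permOf x * v * (permOf x)⁻¹ ∈ V := by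
  intro v hv
  show tblOf _ ∈ LV
  rw [tbl_conj hx hxi h]
  simp only [List.all_eq_true, List.contains_iff_mem] at hc
  exact hc _ hv

theorem ia : isTbl ta = true := by decide +kernel
theorem ia2 : isTbl ta2 = true := by decide +kernel
theorem is : isTbl ts = true := by decide +kernel
theorem it : isTbl tt = true := by decide +kernel
theorem ie1 : isTbl e1 = true := by decide +kernel
theorem iu : isTbl tu = true := by decide +kernel
theorem iv : isTbl tv = true := by decide +kernel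
theorem iw : isTbl tw = true := by decide +kernel
theorem ib : isTbl tb = true := by decide +kernel
theorem ig : isTbl tg = true := by decide +kernel

theorem conj_of_tbl {g x : List ℕ} (hg : in23 g = true) (hx : isTbl x = true)
    (h : comp g e1 = comp x g) : ∃ k ∈ Spor.M23, k * permOf e1 = permOf x * k := by
  have hg' := good23 g hg
  refine ⟨permOf g, hg'.2, ?_⟩
  rw [← (permOf_comp hg'.1 ie1).2, ← (permOf_comp hx hg'.1).2, h]

def LD : List (List ℕ) :=
  [idT, ts, tt, comp ts tt, comp tt ts, comp ts (comp tt ts), comp tt (comp ts tt),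
    comp ts (comp tt (comp ts tt))]

def L128 : List (List ℕ) := LV.flatMap fun v => LD.map (comp v)

theorem ne_one_of_tbl {g : Equiv.Perm GolayPt} (h : tblOf g ≠ idT) : g ≠ 1 := by
  intro e
  exact h (by rw [e, tblOf_one])

theorem cardV : Nat.card V = 16 := card_listSub (by decide +kernel)

theorem hcard128 : Nat.card V * 8 ≤ Nat.card ↥(V ⊔ closure {permOf ts, permOf tt}) := by
  rw [cardV]
  have hl : L128.length = 128 := by decide +kernel
  have hs : Good (closure {permOf ts, permOf tt}) ts := ⟨is, subset_closure (by simp)⟩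
  have ht : Good (closure {permOf ts, permOf tt}) tt := ⟨it, subset_closure (by simp)⟩
  have hD : ∀ d ∈ LD, Good (closure {permOf ts, permOf tt}) d := by
    intro d hd
    simp only [LD, List.mem_cons, List.not_mem_nil, or_false] at hd
    rcases hd with rfl | rfl | rfl | rfl | rfl | rfl | rfl | rfl
    · exact good_idT _
    · exact hs
    · exact ht
    · exact good_comp hs ht
    · exact good_comp ht hs
    · exact good_comp hs (good_comp ht hs)
    · exact good_comp ht (good_comp hs ht)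
    · exact good_comp hs (good_comp ht (good_comp hs ht))
  have := length_le_card (S := V ⊔ closure {permOf ts, permOf tt}) (P := L128) (by
    intro x hx
    obtain ⟨v, hv, hx⟩ := List.mem_flatMap.1 hx
    obtain ⟨d, hd, rfl⟩ := List.mem_map.1 hx
    exact good_comp (good_mono le_sup_left (good_listSub (h := hchk) hv))
      (good_mono le_sup_right (hD d hd))) (by decide +kernel)
  rw [hl] at this
  exact this

theorem twoLocal : TwoLocal Spor.M23 V (permOf e1) (permOf ta) (permOf ts) (permOf tt) where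
  hVG := by
    apply forall_listSub
    intro t ht _
    have : (LV.all in23) = true := by decide +kernel
    exact (good23 t (List.all_eq_true.1 this t ht)).2
  hv1V := (good_listSub (by decide +kernel)).2
  hv1 := by
    apply tblOf_injective
    rw [tblOf_mul, tblOf_permOf ie1, tblOf_one]
    decide +kernel
  hconj := by
    apply forall_listSub
    intro t ht ht' hne
    rcases List.mem_cons.1 ht with rfl | ht
    · exact absurd permOf_idT hne
    · obtain ⟨⟨v, g⟩, hvg, rfl⟩ := List.mem_map.1 ht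
      have : (LC.all fun x => in23 x.2 && comp x.2 e1 == comp x.1 x.2) = true := by decide +kernel
      have h1 := List.all_eq_true.1 this _ hvg
      simp only [Bool.and_eq_true, beq_iff_eq] at h1
      exact conj_of_tbl h1.1 ht' h1.2
  indep := by
    refine ⟨permOf tu, (good_listSub (by decide +kernel)).2, permOf tv,
      (good_listSub (by decide +kernel)).2, permOf tw, (good_listSub (by decide +kernel)).2,
      ?_, ?_, ?_, ?_, ?_, ?_, ?_⟩ <;> apply ne_one_of_tbl <;>
      simp only [tblOf_mul, tblOf_permOf iu, tblOf_permOf iv, tblOf_permOf iw] <;> decide +kernel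
  ha := (good23 ta (by decide +kernel)).2
  ha3 := by
    apply tblOf_injective
    rw [tblOf_mul, tblOf_mul, tblOf_permOf ia, tblOf_one]
    decide +kernel
  haV := conj_mem_V ia ia2 (by decide +kernel) (by decide +kernel)
  hN := by
    apply forall_listSub
    intro t ht ht'
    apply tblOf_injective
    have hc : comp ta ta2 = idT := by decide +kernel
    simp only [tblOf_mul, tbl_conj ia ia2 hc, tblOf_permOf ht', tblOf_one]
    have : (LV.all fun t => comp (comp t (comp (comp ta t) ta2))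
      (comp (comp ta (comp (comp ta t) ta2)) ta2) == idT) = true := by decide +kernel
    exact beq_iff_eq.1 (List.all_eq_true.1 this t ht)
  hs := (good23 ts (by decide +kernel)).2
  ht := (good23 tt (by decide +kernel)).2
  hsV := conj_mem_V is is (by decide +kernel) (by decide +kernel)
  htV := conj_mem_V it it (by decide +kernel) (by decide +kernel)
  hsa := by
    right
    apply tblOf_injective
    rw [tbl_conj is is (by decide +kernel), tblOf_permOf ia,
      ← permOf_inv_of_comp ia ia2 (by decide +kernel), tblOf_permOf ia2]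
    decide +kernel
  hta := by
    left
    apply tblOf_injective
    rw [tbl_conj it it (by decide +kernel), tblOf_permOf ia]
    decide +kernel
  hs1 := conj_of_tbl (g := gs) (by decide +kernel) is (by decide +kernel)
  ht1 := conj_of_tbl (g := gt) (by decide +kernel) it (by decide +kernel)
  hr1 := by
    have h1 := permOf_comp is it
    have h2 := permOf_comp h1.1 h1.1
    rw [← h1.2, ← h2.2]
    exact conj_of_tbl (g := gr) (by decide +kernel) h2.1 (by decide +kernel)
  hcard := hcard128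
  hidx := ⟨79695, by rw [card_M23, cardV], by norm_num⟩

theorem no_pstem (p : ℕ) (hp : p.Prime) (Γ : Type) [Group Γ] [Finite Γ]
    (τ : Γ →* Equiv.Perm GolayPt) (h : PStem p τ Spor.M23) : False := by
  by_cases h2 : p = 2
  · subst h2; exact h.false_of_twoLocal twoLocal
  by_cases h3 : p = 3
  · subst h3
    refine h.false_of_E (by norm_num) (by norm_num) (permOf ta) (permOf tb) (permOf tg)
      (good23 ta (by decide +kernel)).2 (good23 tb (by decide +kernel)).2
      (good23 tg (by decide +kernel)).2 ?_ ?_ ?_ ?_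
    · apply tblOf_injective
      simp only [tblOf_mul, tblOf_permOf ia, tblOf_permOf ib]
      decide +kernel
    · apply tblOf_injective
      simp only [tblOf_mul, tblOf_permOf ia, tblOf_permOf ig]
      decide +kernel
    · apply tblOf_injective
      simp only [tblOf_mul, tblOf_permOf ib, tblOf_permOf ig]
      decide +kernel
    · refine not_dvd_relIndex' (k := 2) ?_ ?_ (by rw [card_M23]; norm_num)
      · rw [closure_le]
        rintro x (rfl | rfl)
        · exact (good23 ta (by decide +kernel)).2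
        · exact (good23 tb (by decide +kernel)).2
      · apply nine_dvd_card
        · apply tblOf_injective
          rw [tblOf_pow, tblOf_permOf ia, tblOf_one]
          decide +kernel
        · apply tblOf_injective
          rw [tblOf_pow, tblOf_permOf ib, tblOf_one]
          decide +kernel
        · apply tblOf_injective
          simp only [tblOf_mul, tblOf_permOf ia, tblOf_permOf ib]
          decide +kernel
        · apply ne_one_of_tbl
          rw [tblOf_permOf ia]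
          decide +kernel
        · intro hm
          have hle : zpowers (permOf ta) ≤ MulAction.stabilizer (Equiv.Perm GolayPt) (ptOf 12) := by
            rw [zpowers_le, MulAction.mem_stabilizer_iff]
            exact fix_of_getD ia (by norm_num) (by decide +kernel)
          have h1 : permOf tb (ptOf 12) = ptOf 12 := MulAction.mem_stabilizer_iff.1 (hle hm)
          rw [permOf_apply ib, idx_ptOf (by norm_num)] at h1
          have h2 := congrArg idx h1
          rw [idx_ptOf (by decide +kernel), idx_ptOf (by norm_num)] at h2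
          exact absurd h2 (by decide +kernel)
  by_cases h5 : p = 5
  · subst h5
    exact h.false_of_cyclic hp (permOf x5) (good23 x5 (by decide +kernel)).2 (m := 2040192)
      (by rw [card_M23, orderOf_permOf (by decide +kernel) hp (by decide +kernel) (by decide +kernel)])
      (by norm_num)
  by_cases h7 : p = 7
  · subst h7
    exact h.false_of_cyclic hp (permOf x7) (good23 x7 (by decide +kernel)).2 (m := 1457280)
      (by rw [card_M23, orderOf_permOf (by decide +kernel) hp (by decide +kernel) (by decide +kernel)])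
      (by norm_num)
  by_cases h11 : p = 11
  · subst h11
    exact h.false_of_cyclic hp (permOf x11) (good23 x11 (by decide +kernel)).2 (m := 927360)
      (by rw [card_M23, orderOf_permOf (by decide +kernel) hp (by decide +kernel) (by decide +kernel)])
      (by norm_num)
  by_cases h23 : p = 23
  · subst h23
    exact h.false_of_cyclic hp (permOf x23) (good23 x23 (by decide +kernel)).2 (m := 443520)
      (by rw [card_M23, orderOf_permOf (by decide +kernel) hp (by decide +kernel) (by decide +kernel)])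
      (by norm_num)
  refine h.false_of_cyclic hp 1 (one_mem _) (m := 10200960)
    (by rw [orderOf_one, one_mul, card_M23]) ?_
  intro hd
  have e : 10200960 = 2 ^ 7 * 3 ^ 2 * 5 * 7 * 11 * 23 := by norm_num
  rw [e] at hd
  have hq : ∀ q : ℕ, q.Prime → p ∣ q → p = q := fun q hq hd => (Nat.prime_dvd_prime_iff_eq hp hq).1 hd
  rcases (Nat.Prime.dvd_mul hp).1 hd with hd | hd
  · rcases (Nat.Prime.dvd_mul hp).1 hd with hd | hd
    · rcases (Nat.Prime.dvd_mul hp).1 hd with hd | hd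
      · rcases (Nat.Prime.dvd_mul hp).1 hd with hd | hd
        · rcases (Nat.Prime.dvd_mul hp).1 hd with hd | hd
          · exact h2 (hq 2 (by norm_num) (hp.dvd_of_dvd_pow hd))
          · exact h3 (hq 3 (by norm_num) (hp.dvd_of_dvd_pow hd))
        · exact h5 (hq 5 (by norm_num) hd)
      · exact h7 (hq 7 (by norm_num) hd)
    · exact h11 (hq 11 (by norm_num) hd)
  · exact h23 (hq 23 (by norm_num) hd)

/-- every stem extension of `M23` is trivial -/
theorem stem_trivial (Γ : Type) [Group Γ] [Finite Γ] (τ : Γ →* Equiv.Perm GolayPt)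
    (h : Stem τ Spor.M23) : τ.ker = ⊥ :=
  ker_eq_bot_of_prime Spor.M23 no_pstem Γ τ h

end Cfsg.Agent.Lib.Helper3.SchurM23
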