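import Cfsg.Agent.Lib.Helper3.SchurM23
import Cfsg.Agent.Lib.Helper3.SchurExt
import Cfsg.Agent.Lib.Helper3.M22Simple
import Cfsg.Agent.Lib.Helper3.M24Simple

/-!
# The Schur multiplier of `M24` is trivial
-/

set_option autoImplicit false
set_option maxRecDepth 1000000

namespace Cfsg.Agent.Lib.Helper3.SchurM24

open Cfsg Cfsg.Agent.Lib.Helper28 Cfsg.Agent.Lib.Helper3.M24T Cfsg.Agent.Lib.Helper3.M24Gen
  Cfsg.Agent.Lib.Helper3.FusEnum Cfsg.Agent.Lib.Helper3.FusGrp Cfsg.Agent.Lib.Helper3.SchurTriv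
  Cfsg.Agent.Lib.Helper3.SchurTbl Subgroup
open scoped commutatorElement

theorem le_commutator_of_simple {Ω : Type*} [Group Ω] (G : Subgroup Ω) [IsSimpleGroup G] {x y : Ω}
    (hx : x ∈ G) (hy : y ∈ G) (hxy : x * y ≠ y * x) : G ≤ ⁅G, G⁆ := by
  have h2 : (commutator G).map G.subtype = ⁅G, G⁆ := by
    rw [_root_.commutator_def, Subgroup.map_commutator, ← MonoidHom.range_eq_map,
      Subgroup.range_subtype]
  rcases (inferInstance : (commutator G).Normal).eq_bot_or_eq_top with h | h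
  · exfalso
    apply hxy
    have h1 : ⁅(⟨x, hx⟩ : G), ⟨y, hy⟩⁆ ∈ commutator G := by
      rw [_root_.commutator_def]
      exact Subgroup.commutator_mem_commutator (mem_top _) (mem_top _)
    rw [h, Subgroup.mem_bot, commutatorElement_eq_one_iff_mul_comm] at h1
    exact congrArg Subtype.val h1
  · rw [← h2, h, ← MonoidHom.range_eq_map, Subgroup.range_subtype]

def ts : List ℕ := [15, 1, 22, 20, 5, 4, 6, 7, 8, 21, 12, 16, 10, 19, 14, 0, 11, 17, 18, 13, 3, 9, 2, 23]
def tt : List ℕ := [23, 1, 5, 3, 10, 2, 11, 9, 20, 7, 4, 6, 22, 19, 14, 15, 16, 17, 18, 13, 8, 21, 12, 0]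
def tx : List ℕ := [0, 20, 4, 21, 3, 15, 16, 14, 8, 2, 17, 10, 12, 1, 13, 18, 11, 6, 22, 5, 7, 9, 19, 23]
def ty : List ℕ := [0, 19, 5, 6, 8, 3, 22, 17, 12, 14, 11, 16, 1, 13, 15, 7, 20, 9, 10, 4, 18, 21, 2, 23]

theorem is : isTbl ts = true := by decide +kernel
theorem it : isTbl tt = true := by decide +kernel
theorem ix : isTbl tx = true := by decide +kernel
theorem iy : isTbl ty = true := by decide +kernel

theorem simple23 : IsSimpleGroup Spor.M23 := by
  let e : ↥(MulAction.stabilizer M24 (none : GolayPt)) ≃* Spor.M23 :=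
    { toFun := fun g => ⟨g.1.1, mem_M23.2 ⟨g.1.2, by rw [ptOf_23]; exact g.2⟩⟩
      invFun := fun h => ⟨⟨h.1, (mem_M23.1 h.2).1⟩, by
        have := (mem_M23.1 h.2).2
        rw [ptOf_23] at this
        exact this⟩
      left_inv := fun g => rfl
      right_inv := fun h => rfl
      map_mul' := fun a b => rfl }
  exact e.isSimpleGroup_congr.1 (M24S.m23_simple none)

theorem hxy : permOf tx * permOf ty ≠ permOf ty * permOf tx := by
  intro e
  have := congrArg tblOf e
  simp only [tblOf_mul, tblOf_permOf ix, tblOf_permOf iy] at this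
  exact absurd this (by decide +kernel)

theorem M22_le_M23 : Spor.M22 ≤ Spor.M23 := fun _ h => h.1

theorem ht23 : permOf tt (ptOf 23) = ptOf 0 := by
  rw [permOf_apply it, idx_ptOf (by norm_num)]; rfl

theorem ht0 : permOf tt (ptOf 0) = ptOf 23 := by
  rw [permOf_apply it, idx_ptOf (by norm_num)]; rfl

theorem hs0 : permOf ts (ptOf 0) = ptOf 15 := by
  rw [permOf_apply is, idx_ptOf (by norm_num)]; rfl

theorem htM : permOf tt ∈ M24 := permOf_mem_M24 (by decide +kernel)

theorem hsM : permOf ts ∈ Spor.M23 := (good23 ts (by decide +kernel)).2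

theorem extData : ExtData M24 Spor.M23 Spor.M22 (permOf ts) (permOf tt) where
  h21 := M22_le_M23
  h1 := M23_le
  hs := hsM
  ht := htM
  ht1 := by
    intro h
    have := (mem_M23.1 h).2
    rw [ht23] at this
    exact absurd this (by decide)
  hss := by
    apply tblOf_injective
    rw [tblOf_mul, tblOf_permOf is, tblOf_one]
    decide +kernel
  hbraid := by
    apply tblOf_injective
    simp only [tblOf_mul, tblOf_permOf is, tblOf_permOf it]
    decide +kernel
  hG := by
    intro g hg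
    by_cases h : g (ptOf 23) = ptOf 23
    · exact Or.inl (mem_M23.2 ⟨hg, h⟩)
    · right
      obtain ⟨a, ha, ha1, ha2⟩ := M24_trans2 (p := ptOf 23) (q := ptOf 0) (p' := ptOf 23)
        (q' := g (ptOf 23)) (by decide) (Ne.symm h)
      refine ⟨a, mem_M23.2 ⟨ha, ha1⟩, (a * permOf tt)⁻¹ * g,
        mem_M23.2 ⟨mul_mem (inv_mem (mul_mem ha htM)) hg, ?_⟩, by group⟩
      rw [Equiv.Perm.mul_apply, Equiv.Perm.inv_eq_iff_eq, Equiv.Perm.mul_apply, ht23, ha2]
  hG1 := by
    intro g hg
    obtain ⟨hg1, hg2⟩ := mem_M23.1 hg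
    by_cases h : g (ptOf 0) = ptOf 0
    · exact Or.inl (mem_M22.2 ⟨hg1, hg2, h⟩)
    · right
      have h3 : g (ptOf 0) ≠ ptOf 23 := by
        intro e
        rw [← hg2] at e
        exact absurd (g.injective e) (by decide)
      obtain ⟨a, ha, hl⟩ := exists_M24_map_list [ptOf 23, ptOf 0, ptOf 15]
        [ptOf 23, ptOf 0, g (ptOf 0)] rfl (by simp) (by decide)
        (by
          simp only [List.nodup_cons, List.mem_cons, List.not_mem_nil, or_false, not_or,
            List.nodup_nil, and_true, not_false_eq_true]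
          exact ⟨⟨by decide, Ne.symm h3⟩, Ne.symm h⟩)
      simp only [List.map_cons, List.map_nil, List.cons.injEq, and_true] at hl
      obtain ⟨ha1, ha2, ha3⟩ := hl
      refine ⟨a, mem_M22.2 ⟨ha, ha1, ha2⟩, (a * permOf ts)⁻¹ * g,
        mem_M22.2 ⟨mul_mem (inv_mem (mul_mem ha (M23_le hsM))) hg1, ?_, ?_⟩, by group⟩
      · rw [Equiv.Perm.mul_apply, Equiv.Perm.inv_eq_iff_eq, Equiv.Perm.mul_apply,
          (mem_M23.1 hsM).2, ha1, hg2]
      · rw [Equiv.Perm.mul_apply, Equiv.Perm.inv_eq_iff_eq, Equiv.Perm.mul_apply, hs0, ha3]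
  htn := by
    intro k hk
    obtain ⟨h1, h2, h3⟩ := mem_M22.1 hk
    refine mem_M22.2 ⟨conj_mem htM h1, ?_, ?_⟩
    · conv_lhs => rw [← ht0]
      rw [conj_apply, h3, ht0]
    · conv_lhs => rw [← ht23]
      rw [conj_apply, h2, ht23]
  hp1 := by
    have := simple23
    exact le_commutator_of_simple Spor.M23 (M22_le_M23 (good22 tx (by decide +kernel)).2)
      (M22_le_M23 (good22 ty (by decide +kernel)).2) hxy
  hp2 := by
    have := M22Simple.m22_simple
    exact le_commutator_of_simple Spor.M22 (good22 tx (by decide +kernel)).2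
      (good22 ty (by decide +kernel)).2 hxy

/-- every stem extension of `M24` is trivial -/
theorem stem_trivial (Γ : Type) [Group Γ] [Finite Γ] (τ : Γ →* Equiv.Perm GolayPt)
    (h : Stem τ M24) : τ.ker = ⊥ :=
  ker_eq_bot_of_ext extData SchurM23.stem_trivial Γ τ h

end Cfsg.Agent.Lib.Helper3.SchurM24
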