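import Mathlib
import Cfsg.Agent.Lib.Helper3.SetSys3

/-!
# Set-system engine: identifying orbits through invariants
-/

set_option autoImplicit false
open scoped Pointwise
open Cfsg

namespace Cfsg.Agent.Lib.Helper3.SS

open MulAction Cfsg.Agent.Lib.Helper28 Cfsg.Agent.Lib.Helper3.M24T Cfsg.Agent.Lib.Helper3.Orb

theorem classes_of_inv {β γ : Type*} [MulAction (Equiv.Perm GolayPt) β]
    [MulAction (Equiv.Perm GolayPt) γ] (B : β) (Obj : Set γ) (n : ℕ) (X : ℕ → γ)
    (m2 : ∀ x ∈ Obj, ∃ i < n, x ∈ orbE B (X i)) (msub : ∀ i < n, orbE B (X i) ⊆ Obj)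
    (inv : γ → ℕ) (hinv : ∀ g ∈ M24, g • B = B → ∀ x, inv (g • x) = inv x) (v : ℕ → ℕ)
    (hv : ∀ i < n, inv (X i) = v i) (hvinj : ∀ i < n, ∀ j < n, v i = v j → i = j) :
    (∀ i < n, {x | x ∈ Obj ∧ inv x = v i} = orbE B (X i)) ∧
    (∀ x ∈ Obj, ∀ y ∈ Obj, inv x = inv y → ∃ g ∈ M24, g • B = B ∧ g • x = y) := by
  have hval : ∀ i < n, ∀ x ∈ orbE B (X i), inv x = v i := by
    rintro i hi _ ⟨g, hg, hgB, rfl⟩
    rw [hinv g hg hgB, hv i hi]
  constructor
  · intro i hi
    ext x
    constructor
    · rintro ⟨hx, hxi⟩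
      obtain ⟨j, hj, hxj⟩ := m2 x hx
      have : v j = v i := by rw [← hval j hj x hxj, hxi]
      rw [← hvinj j hj i hi this]
      exact hxj
    · intro hx
      exact ⟨msub i hi hx, hval i hi x hx⟩
  · intro x hx y hy hxy
    obtain ⟨i, hi, hxi⟩ := m2 x hx
    obtain ⟨j, hj, hyj⟩ := m2 y hy
    have : v i = v j := by rw [← hval i hi x hxi, ← hval j hj y hyj, hxy]
    have hij := hvinj i hi j hj this
    subst hij
    obtain ⟨a, ha, haB, rfl⟩ := hxi
    obtain ⟨b, hb, hbB, rfl⟩ := hyj
    refine ⟨b * a⁻¹, M24.mul_mem hb (M24.inv_mem ha), ?_, ?_⟩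
    · rw [mul_smul, inv_smul_eq_iff.2 haB.symm, hbB]
    · rw [mul_smul, inv_smul_smul]

theorem un_eq_empty_iff {m : ℕ} (hm : m < 2 ^ 24) : un m = ∅ ↔ m = 0 := by
  constructor
  · intro h
    rw [← mk_un hm, h, mk_empty]
  · rintro rfl
    exact un_zero

/-- counting the members of an encoded set of sets satisfying a property -/
theorem card_filter_unL {l : List ℕ} (hl : goodL l) (p : Finset GolayPt → Prop) [DecidablePred p]
    (q : ℕ → Bool) (hpq : ∀ m ∈ l, p (un m) ↔ q m = true) :
    ((unL l).filter p).card = (l.filter q).length := by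
  classical
  have h1 : unL l = l.toFinset.image un := by
    ext s
    rw [mem_unL, Finset.mem_image]
    simp only [List.mem_toFinset]
  rw [h1, Finset.filter_image, Finset.card_image_of_injOn]
  · have h2 : l.toFinset.filter (fun m => p (un m)) = (l.filter q).toFinset := by
      ext m
      rw [Finset.mem_filter, List.mem_toFinset, List.mem_toFinset, List.mem_filter]
      constructor
      · rintro ⟨h, h'⟩
        exact ⟨h, (hpq m h).1 h'⟩
      · rintro ⟨h, h'⟩
        exact ⟨h, (hpq m h).2 h'⟩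
    rw [h2, List.toFinset_card_of_nodup (hl.1.filter _)]
  · intro m hm n hn hmn
    rw [Finset.mem_coe, Finset.mem_filter, List.mem_toFinset] at hm hn
    exact un_inj (hl.2 m hm.1) (hl.2 n hn.1) hmn

/-- transport of a filter count along a permutation -/
theorem card_filter_smul (g : Equiv.Perm GolayPt) (S : Finset (Finset GolayPt))
    (p p' : Finset GolayPt → Prop) [DecidablePred p] [DecidablePred p']
    (h : ∀ t, p' (g • t) ↔ p t) : ((g • S).filter p').card = (S.filter p).card := by
  classical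
  have h1 : g • S = S.image (fun t => g • t) := rfl
  rw [h1, Finset.filter_image, Finset.card_image_of_injective _ (MulAction.injective g)]
  congr 1
  ext t
  simp only [Finset.mem_filter, h]

end Cfsg.Agent.Lib.Helper3.SS
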