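import Mathlib
import Cfsg.Agent.Lib.Helper3.SextStabA

/-!
# The stabiliser of a sextet
-/

set_option autoImplicit false

namespace Cfsg.Agent.Lib.Helper3.SextStab

open MulAction Cfsg Cfsg.Agent.Lib.Helper28 Cfsg.Agent.Lib.Helper3.M24T Cfsg.Agent.Lib.Helper3.M24Gen
  Cfsg.Agent.Lib.Helper3.Sext Cfsg.Agent.Lib.Helper3.OctStab
open scoped Pointwise

theorem F4_lt : F4 < 2 ^ 24 := by decide
theorem card_F4 : (un F4).card = 4 := by rw [card_un]; decide +kernel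

/-- the base sextet. -/
noncomputable def B0 : Finset (Finset GolayPt) := K (un F4)

theorem B0_mem : B0 ∈ sextets := K_mem_sextets card_F4

theorem un_mem_B0 {m : ℕ} (hm : m ∈ TM) : un m ∈ B0 := by
  obtain ⟨h1, h2, h3⟩ := TM_ok m hm
  unfold B0
  rw [mem_K, card_un]
  refine ⟨h1, ?_⟩
  unfold inC
  rw [mk_symmDiff, mk_un F4_lt, mk_un h3]
  exact h2

theorem B0_eq : B0 = (TM.map un).toFinset := by
  symm
  apply Finset.eq_of_subset_of_card_le
  · intro T hT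
    rw [List.mem_toFinset] at hT
    obtain ⟨m, hm, rfl⟩ := List.mem_map.1 hT
    exact un_mem_B0 hm
  · rw [B0_mem.1, List.toFinset_card_of_nodup, List.length_map]
    · decide
    · apply List.Nodup.map_on _ TM_nodup
      intro a ha b hb e
      rw [← mk_un (TM_ok a ha).2.2, e, mk_un (TM_ok b hb).2.2]

theorem mem_B0 {T : Finset GolayPt} : T ∈ B0 ↔ ∃ m ∈ TM, un m = T := by
  rw [B0_eq, List.mem_toFinset, List.mem_map]

/-- the elements of `M24` fixing every member of `S`. -/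
def KS (S : Finset (Finset GolayPt)) : Subgroup (Equiv.Perm GolayPt) where
  carrier := {g | g ∈ M24 ∧ ∀ t ∈ S, g • t = t}
  mul_mem' := fun {a b} ha hb =>
    ⟨M24.mul_mem ha.1 hb.1, fun t ht => by rw [mul_smul, hb.2 t ht, ha.2 t ht]⟩
  one_mem' := ⟨M24.one_mem, fun t _ => one_smul _ t⟩
  inv_mem' := fun {a} ha => ⟨M24.inv_mem ha.1, fun t ht => by rw [inv_smul_eq_iff, ha.2 t ht]⟩

theorem permOf_mem_KS {c : List ℕ} (h1 : inM24 c = true) (h2 : pres c = true) : permOf c ∈ KS B0 := by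
  refine ⟨permOf_mem_M24 h1, ?_⟩
  intro T hT
  obtain ⟨m, hm, rfl⟩ := mem_B0.1 hT
  have := List.all_eq_true.1 h2 m hm
  rw [permOf_smul_un (isTbl_of_inM24 h1) (TM_ok m hm).2.2, beq_iff_eq.1 this]

theorem pres_tblOf {g : Equiv.Perm GolayPt} (hg : g ∈ KS B0) : pres (tblOf g) = true := by
  unfold pres
  rw [List.all_eq_true]
  intro m hm
  rw [beq_iff_eq]
  have h := hg.2 _ (un_mem_B0 hm)
  have h2 := mk_smul g (un m)
  rw [h, mk_un (TM_ok m hm).2.2] at h2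
  exact h2.symm

/-- the stabiliser of a point. -/
noncomputable def K1 : Subgroup (Equiv.Perm GolayPt) := KS B0 ⊓ stabilizer (Equiv.Perm GolayPt) (ptOf 23)

/-- the stabiliser of two points. -/
noncomputable def K2 : Subgroup (Equiv.Perm GolayPt) := K1 ⊓ stabilizer (Equiv.Perm GolayPt) (ptOf 0)

theorem mem_K1 {g : Equiv.Perm GolayPt} : g ∈ K1 ↔ g ∈ KS B0 ∧ g (ptOf 23) = ptOf 23 := by
  unfold K1
  rw [Subgroup.mem_inf, mem_stabilizer_iff]; rfl

theorem mem_K2 {g : Equiv.Perm GolayPt} : g ∈ K2 ↔ g ∈ K1 ∧ g (ptOf 0) = ptOf 0 := by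
  unfold K2
  rw [Subgroup.mem_inf, mem_stabilizer_iff]; rfl

theorem map_F4 {g : Equiv.Perm GolayPt} (hg : g ∈ KS B0) {p : GolayPt} (hp : p ∈ un F4) : g p ∈ un F4 := by
  have := (mem_smul_finset_iff g (un F4) p).2 hp
  rwa [hg.2 _ (un_mem_B0 F4_mem)] at this

theorem ne_of_fix {g : Equiv.Perm GolayPt} {i j : ℕ} (hi : i < 24) (hj : j < 24) (hne : i ≠ j)
    (hf : g (ptOf j) = ptOf j) : idx (g (ptOf i)) ≠ j := by
  intro e
  have e2 : g (ptOf i) = g (ptOf j) := by rw [hf, ← e, ptOf_idx]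
  have e3 := congrArg idx (g.injective e2)
  rw [idx_ptOf hi, idx_ptOf hj] at e3
  exact hne e3

theorem KS_map {g : Equiv.Perm GolayPt} (hg : g ∈ KS B0) : F4.testBit (idx (g (ptOf 23))) = true := by
  rw [← mem_un]
  exact map_F4 hg (by rw [mem_un, idx_ptOf (by decide)]; decide)

theorem K1_map {g : Equiv.Perm GolayPt} (hg : g ∈ K1) : (7 : ℕ).testBit (idx (g (ptOf 0))) = true := by
  obtain ⟨h1, h2⟩ := mem_K1.1 hg
  have h3 := map_F4 h1 (p := ptOf 0) (by rw [mem_un, idx_ptOf (by decide)]; decide)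
  rw [mem_un] at h3
  exact F4_a _ (idx_lt _) h3 (ne_of_fix (by decide) (by decide) (by decide) h2)

theorem card_KS0 : Nat.card (KS B0) = 4 * Nat.card K1 := by
  rw [Cent2B.card_of_orbit (KS B0) K1 (ptOf 23) (un F4) (fun g => mem_K1) ?_ ?_, card_F4]
  · intro g hg
    rw [mem_un]; exact KS_map hg
  · intro y hy
    rw [mem_un] at hy
    obtain ⟨c, hc, e⟩ := U1_cov _ (idx_lt y) hy
    obtain ⟨h1, h2⟩ := U1_ok c hc
    exact ⟨permOf c, permOf_mem_KS h1 h2, by rw [permOf_ptOf h1 (by decide), e, ptOf_idx]⟩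

theorem card_K1 : Nat.card K1 = 3 * Nat.card K2 := by
  rw [Cent2B.card_of_orbit K1 K2 (ptOf 0) (un 7) (fun g => mem_K2) ?_ ?_, card_un]
  · rfl
  · intro g hg
    rw [mem_un]; exact K1_map hg
  · intro y hy
    rw [mem_un] at hy
    obtain ⟨c, hc, e⟩ := U2_cov _ (idx_lt y) hy
    obtain ⟨h1, h2, h3⟩ := U2_ok c hc
    exact ⟨permOf c, mem_K1.2 ⟨permOf_mem_KS h1 h2, by rw [permOf_ptOf h1 (by decide), h3]⟩,
      by rw [permOf_ptOf h1 (by decide), e, ptOf_idx]⟩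

theorem K2_fix {g : Equiv.Perm GolayPt} (hg : g ∈ K2) : g (ptOf 1) = ptOf 1 ∧ g (ptOf 2) = ptOf 2 := by
  obtain ⟨h0, h00⟩ := mem_K2.1 hg
  obtain ⟨h1, h23⟩ := mem_K1.1 h0
  have key : ∀ i, i < 24 → F4.testBit i = true → i ≠ 23 → i ≠ 0 →
      idx (g (ptOf i)) = 1 ∨ idx (g (ptOf i)) = 2 := by
    intro i hi hb n23 n0
    have h3 := map_F4 h1 (p := ptOf i) (by rw [mem_un, idx_ptOf hi]; exact hb)
    rw [mem_un] at h3
    exact F4_b _ (idx_lt _) h3 (ne_of_fix hi (by decide) n23 h23) (ne_of_fix hi (by decide) n0 h00)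
  have k1 := key 1 (by decide) (by decide) (by decide) (by decide)
  have k2' := key 2 (by decide) (by decide) (by decide) (by decide)
  have hne : idx (g (ptOf 1)) ≠ idx (g (ptOf 2)) := by
    intro e
    have e3 := congrArg idx (g.injective (idx_injective e))
    rw [idx_ptOf (by decide), idx_ptOf (by decide)] at e3
    exact absurd e3 (by decide)
  rcases k1 with a | a
  · have b : idx (g (ptOf 2)) = 2 := by
      rcases k2' with b | b
      · exact absurd (a.trans b.symm) hne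
      · exact b
    exact ⟨by rw [← ptOf_idx (g (ptOf 1)), a], by rw [← ptOf_idx (g (ptOf 2)), b]⟩
  · exfalso
    have b : idx (g (ptOf 2)) = 1 := by
      rcases k2' with b | b
      · exact b
      · exact absurd (a.trans b.symm) hne
    obtain ⟨q1, q2, q3, q4, q5⟩ := k2_ok
    have hag : ∀ i ∈ [23, 0, 1, 2], g (ptOf i) = permOf k2 (ptOf i) := by
      intro i hi
      simp only [List.mem_cons, List.not_mem_nil, or_false] at hi
      rcases hi with rfl | rfl | rfl | rfl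
      · rw [permOf_ptOf q1 (by decide), q2, h23]
      · rw [permOf_ptOf q1 (by decide), q3, h00]
      · rw [permOf_ptOf q1 (by decide), q4, ← ptOf_idx (g (ptOf 1)), a]
      · rw [permOf_ptOf q1 (by decide), q5, ← ptOf_idx (g (ptOf 2)), b]
    have := check960 (Q := fun T => !pres T) q1 k2_none h1.1 hag
    simp [pres_tblOf h1] at this

theorem tblOf_mem_L16 {g : Equiv.Perm GolayPt} (hg : g ∈ K2) : tblOf g ∈ L16 := by
  obtain ⟨h0, h00⟩ := mem_K2.1 hg
  obtain ⟨h1, h23⟩ := mem_K1.1 h0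
  obtain ⟨f1, f2⟩ := K2_fix hg
  have hs : g ∈ stabL [23, 0, 1, 2] := by
    rw [mem_stabL]
    refine ⟨h1.1, ?_⟩
    intro i hi
    simp only [List.mem_cons, List.not_mem_nil, or_false] at hi
    rcases hi with rfl | rfl | rfl | rfl
    · exact h23
    · exact h00
    · exact f1
    · exact f2
  rw [← L16_eq, List.mem_filter]
  exact ⟨tblOf_mem_list960 hs, pres_tblOf h1⟩

theorem card_K2 : Nat.card K2 = 16 := by
  rw [FusEnum2.card_eq_length (P := L16) (fun g hg => tblOf_mem_L16 hg) ?_ L16_nodup]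
  · rfl
  · intro t ht
    obtain ⟨h1, h2, h3, h4⟩ := L16_ok t ht
    refine ⟨isTbl_of_inM24 h1, mem_K2.2 ⟨mem_K1.2 ⟨permOf_mem_KS h1 h2, ?_⟩, ?_⟩⟩
    · rw [permOf_ptOf h1 (by decide), h3]
    · rw [permOf_ptOf h1 (by decide), h4]

theorem card_KS_B0 : Nat.card (KS B0) = 192 := by rw [card_KS0, card_K1, card_K2]

theorem sift_KS {g : Equiv.Perm GolayPt} (hg : g ∈ KS B0) :
    ∃ a ∈ U1, ∃ b ∈ U2, ∃ s ∈ L16, tblOf g = comp a (comp b s) := by
  obtain ⟨a, ha, ea⟩ := U1_cov _ (idx_lt _) (KS_map hg)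
  obtain ⟨a1, a2⟩ := U1_ok a ha
  have m1 : (permOf a)⁻¹ * g ∈ K1 :=
    mem_K1.2 ⟨(KS B0).mul_mem ((KS B0).inv_mem (permOf_mem_KS a1 a2)) hg, by
      rw [Equiv.Perm.mul_apply, Equiv.Perm.inv_eq_iff_eq, permOf_ptOf a1 (by decide), ea, ptOf_idx]⟩
  obtain ⟨b, hb, eb⟩ := U2_cov _ (idx_lt _) (K1_map m1)
  obtain ⟨b1, b2, b3⟩ := U2_ok b hb
  have m2 : (permOf b)⁻¹ * ((permOf a)⁻¹ * g) ∈ K2 :=
    mem_K2.2 ⟨K1.mul_mem (K1.inv_mem (mem_K1.2 ⟨permOf_mem_KS b1 b2, by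
      rw [permOf_ptOf b1 (by decide), b3]⟩)) m1, by
      rw [Equiv.Perm.mul_apply, Equiv.Perm.inv_eq_iff_eq, permOf_ptOf b1 (by decide), eb, ptOf_idx]⟩
  refine ⟨a, ha, b, hb, _, tblOf_mem_L16 m2, ?_⟩
  have e : g = permOf a * (permOf b * ((permOf b)⁻¹ * ((permOf a)⁻¹ * g))) := by group
  conv_lhs => rw [e]
  rw [tblOf_mul, tblOf_mul, tblOf_permOf (isTbl_of_inM24 a1), tblOf_permOf (isTbl_of_inM24 b1)]

theorem mem_QL64_iff {g : Equiv.Perm GolayPt} : tblOf g ∈ QL64 ↔ g ∈ KS B0 ∧ g * g = 1 := by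
  constructor
  · intro h
    obtain ⟨h1, h2, h3⟩ := QL64_ok _ h
    refine ⟨by have := permOf_mem_KS h1 h2; rwa [permOf_tblOf] at this, ?_⟩
    apply tblOf_injective
    rw [tblOf_mul, h3, tblOf_one]
  · rintro ⟨h1, h2⟩
    obtain ⟨a, ha, b, hb, s, hs, e⟩ := sift_KS h1
    rw [e]
    apply sq_mem a ha b hb s hs
    rw [← e, ← tblOf_mul, h2, tblOf_one]

/-- the normal subgroup of order `64`, for the base sextet. -/
def N0 : Subgroup (Equiv.Perm GolayPt) where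
  carrier := {g | g ∈ KS B0 ∧ g * g = 1}
  mul_mem' := fun {a b} ha hb => by
    rw [Set.mem_setOf_eq, ← mem_QL64_iff] at *
    rw [tblOf_mul]; exact QL64_mul _ ha _ hb
  one_mem' := ⟨(KS B0).one_mem, one_mul 1⟩
  inv_mem' := fun {a} ha => ⟨(KS B0).inv_mem ha.1, by rw [← mul_inv_rev, ha.2, inv_one]⟩

theorem card_N0 : Nat.card N0 = 64 := by
  rw [FusEnum2.card_eq_length (P := QL64) ?_ ?_ QL64_nodup, QL64_len]
  · intro g hg; exact mem_QL64_iff.2 hg
  · intro t ht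
    obtain ⟨h1, h2, h3⟩ := QL64_ok t ht
    refine ⟨isTbl_of_inM24 h1, ?_⟩
    show permOf t ∈ KS B0 ∧ _
    rw [← mem_QL64_iff, tblOf_permOf (isTbl_of_inM24 h1)]; exact ht

/-! ### transport -/

theorem conj_KS {S : Finset (Finset GolayPt)} {k : Equiv.Perm GolayPt} (hk : k ∈ M24) (e : k • S = B0)
    (g : Equiv.Perm GolayPt) : g ∈ KS S ↔ k * g * k⁻¹ ∈ KS B0 := by
  constructor
  · rintro ⟨h1, h2⟩
    refine ⟨conj_mem hk h1, ?_⟩
    intro t ht
    rw [← e] at ht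
    obtain ⟨t', ht', rfl⟩ := Finset.mem_smul_finset.1 ht
    rw [mul_smul, mul_smul, inv_smul_smul, h2 t' ht']
  · rintro ⟨h1, h2⟩
    constructor
    · have := conj_mem (M24.inv_mem hk) h1
      have e' : k⁻¹ * (k * g * k⁻¹) * k⁻¹⁻¹ = g := by group
      rwa [e'] at this
    · intro t ht
      have h3 := h2 (k • t) (by rw [← e]; exact Finset.smul_mem_smul_finset ht)
      rw [mul_smul, mul_smul, inv_smul_smul] at h3
      exact smul_left_cancel k h3

theorem card_KS {S : Finset (Finset GolayPt)} (hS : S ∈ sextets) : Nat.card (KS S) = 192 := by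
  obtain ⟨k, hk, e⟩ := exists_smul_sextet hS B0_mem
  rw [card_conj (KS S) (KS B0) k (conj_KS hk e), card_KS_B0]

theorem exists_N {S : Finset (Finset GolayPt)} (hS : S ∈ sextets) :
    ∃ N : Subgroup (Equiv.Perm GolayPt), (∀ g, g ∈ N ↔ g ∈ KS S ∧ g * g = 1) ∧ Nat.card N = 64 := by
  obtain ⟨k, hk, e⟩ := exists_smul_sextet hS B0_mem
  refine ⟨N0.comap (MulAut.conj k).toMonoidHom, ?_, ?_⟩
  · intro g
    rw [Subgroup.mem_comap]
    show (k * g * k⁻¹ ∈ KS B0 ∧ k * g * k⁻¹ * (k * g * k⁻¹) = 1) ↔ _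
    rw [← conj_KS hk e]
    apply and_congr_right
    intro _
    have e2 : k * g * k⁻¹ * (k * g * k⁻¹) = k * (g * g) * k⁻¹ := by group
    rw [e2]
    constructor
    · intro h
      have : g * g = k⁻¹ * (k * (g * g) * k⁻¹) * k := by group
      rw [this, h]; group
    · intro h
      rw [h]; group
  · rw [← card_N0]
    exact card_conj _ _ k (fun g => Iff.rfl)

theorem smul_eq_of_KS {S : Finset (Finset GolayPt)} {g : Equiv.Perm GolayPt} (hg : g ∈ KS S) : g • S = S := by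
  ext t
  constructor
  · intro ht
    obtain ⟨t', ht', rfl⟩ := Finset.mem_smul_finset.1 ht
    rw [hg.2 t' ht']; exact ht'
  · intro ht
    rw [← hg.2 t ht]; exact Finset.smul_mem_smul_finset ht

theorem conj_char {S : Finset (Finset GolayPt)} {h g : Equiv.Perm GolayPt} (hh : h ∈ M24) (hS : h • S = S)
    (hg : g ∈ KS S ∧ g * g = 1) : h * g * h⁻¹ ∈ KS S ∧ h * g * h⁻¹ * (h * g * h⁻¹) = 1 := by
  refine ⟨⟨conj_mem hh hg.1.1, ?_⟩, ?_⟩
  · intro t ht
    have h1 : h⁻¹ • t ∈ S := by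
      rw [← hS] at ht
      obtain ⟨t', ht', rfl⟩ := Finset.mem_smul_finset.1 ht
      rw [inv_smul_smul]; exact ht'
    rw [mul_smul, mul_smul, hg.1.2 _ h1, smul_inv_smul]
  · have e2 : h * g * h⁻¹ * (h * g * h⁻¹) = h * (g * g) * h⁻¹ := by group
    rw [e2, hg.2]; group

/-! ### the transpositions -/

theorem swap_B0 {x y : Finset GolayPt} (hx : x ∈ B0) (hy : y ∈ B0) (hne : x ≠ y) :
    ∃ w ∈ M24, w • x = y ∧ w • y = x ∧ ∀ r ∈ B0, r ≠ x → r ≠ y → w • r = r := by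
  obtain ⟨m, hm, rfl⟩ := mem_B0.1 hx
  obtain ⟨n, hn, rfl⟩ := mem_B0.1 hy
  obtain ⟨c, hc, e1, e2, e3⟩ := SW_cov m hm n hn (fun e => hne (by rw [e]))
  have h1 := SW_ok c hc
  have hT := isTbl_of_inM24 h1
  refine ⟨permOf c, permOf_mem_M24 h1, ?_, ?_, ?_⟩
  · rw [permOf_smul_un hT (TM_ok m hm).2.2, e1]
  · rw [permOf_smul_un hT (TM_ok n hn).2.2, e2]
  · intro r hr h2 h3
    obtain ⟨q, hq, rfl⟩ := mem_B0.1 hr
    rw [permOf_smul_un hT (TM_ok q hq).2.2, e3 q hq (fun e => h2 (by rw [e])) (fun e => h3 (by rw [e]))]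

theorem swap_S {S : Finset (Finset GolayPt)} (hS : S ∈ sextets) {x y : Finset GolayPt} (hx : x ∈ S)
    (hy : y ∈ S) (hne : x ≠ y) :
    ∃ w ∈ M24, w • x = y ∧ w • y = x ∧ ∀ r ∈ S, r ≠ x → r ≠ y → w • r = r := by
  obtain ⟨k, hk, e⟩ := exists_smul_sextet hS B0_mem
  have hin : ∀ t ∈ S, k • t ∈ B0 := fun t ht => by rw [← e]; exact Finset.smul_mem_smul_finset ht
  obtain ⟨w, hw, e1, e2, e3⟩ := swap_B0 (hin x hx) (hin y hy) (fun h => hne (smul_left_cancel k h))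
  refine ⟨k⁻¹ * w * k, ?_, ?_, ?_, ?_⟩
  · exact M24.mul_mem (M24.mul_mem (M24.inv_mem hk) hw) hk
  · rw [mul_smul, mul_smul, e1, inv_smul_smul]
  · rw [mul_smul, mul_smul, e2, inv_smul_smul]
  · intro r hr h2 h3
    rw [mul_smul, mul_smul, e3 _ (hin r hr) (fun h => h2 (smul_left_cancel k h))
      (fun h => h3 (smul_left_cancel k h)), inv_smul_smul]

theorem induce {S : Finset (Finset GolayPt)} (hS : S ∈ sextets) (e : Equiv.Perm ↥S) :
    ∃ g ∈ M24, ∀ t : ↥S, g • (t : Finset GolayPt) = ((e t : ↥S) : Finset GolayPt) := by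
  induction e using Equiv.Perm.swap_induction_on with
  | one => exact ⟨1, M24.one_mem, fun t => by simp⟩
  | swap_mul f x y hxy ih =>
    obtain ⟨g, hg, h⟩ := ih
    obtain ⟨w, hw, e1, e2, e3⟩ := swap_S hS x.2 y.2 (fun h => hxy (Subtype.ext h))
    refine ⟨w * g, M24.mul_mem hw hg, ?_⟩
    intro t
    rw [mul_smul, h t, Equiv.Perm.mul_apply, Equiv.swap_apply_def]
    split_ifs with h1 h2
    · rw [h1, e1]
    · rw [h2, e2]
    · exact e3 _ (f t).2 (fun h => h1 (Subtype.ext h)) (fun h => h2 (Subtype.ext h))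

theorem smul_eq_of_induce {S : Finset (Finset GolayPt)} {g : Equiv.Perm GolayPt} {e : Equiv.Perm ↥S}
    (h : ∀ t : ↥S, g • (t : Finset GolayPt) = ((e t : ↥S) : Finset GolayPt)) : g • S = S := by
  apply Finset.eq_of_subset_of_card_le
  · intro t ht
    obtain ⟨t', ht', rfl⟩ := Finset.mem_smul_finset.1 ht
    rw [h ⟨t', ht'⟩]
    exact (e ⟨t', ht'⟩).2
  · rw [Finset.card_smul_finset]

end Cfsg.Agent.Lib.Helper3.SextStab
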