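import Mathlib
import Cfsg.Agent.Lib.Helper3.Steiner

/-!
# Block intersections in a Steiner system `S(5,6,12)`
-/

set_option autoImplicit false
set_option linter.unusedSectionVars false

namespace Cfsg.Agent.Lib.Helper3.Steiner12

open Finset Cfsg.Agent.Lib.Helper3.Steiner

variable {α : Type*} [Fintype α] [DecidableEq α] {B : Set (Finset α)}

/-- the number of blocks meeting `b` exactly in `s`. -/
noncomputable def mu (B : Set (Finset α)) (b s : Finset α) : ℕ := ((blocks B).filter (fun c => b ∩ c = s)).card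

theorem decomposition (b s : Finset α) (hsb : s ⊆ b) :
    ((blocks B).filter (s ⊆ ·)).card = ∑ s' ∈ b.powerset.filter (s ⊆ ·), mu B b s' := by
  rw [card_eq_sum_card_fiberwise (f := fun c => b ∩ c) (t := b.powerset.filter (s ⊆ ·))]
  · apply sum_congr rfl
    intro s' hs'
    unfold mu
    congr 1
    rw [filter_filter]
    apply filter_congr
    intro c _
    constructor
    · exact fun h => h.2
    · intro h
      refine ⟨?_, h⟩
      have h2 := (mem_filter.1 hs').2
      rw [← h] at h2
      exact h2.trans inter_subset_right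
  · intro c hc
    have h1 := (mem_filter.1 (mem_coe.1 hc)).2
    simp only [coe_filter, mem_powerset, Set.mem_setOf_eq]
    exact ⟨inter_subset_left, subset_inter hsb h1⟩

theorem by_card (b s : Finset α) (hb : b.card = 6) (f : Finset α → ℕ) :
    ∑ s' ∈ b.powerset.filter (s ⊆ ·), f s' =
      ∑ j ∈ range 7, ∑ s' ∈ (powersetCard j b).filter (s ⊆ ·), f s' := by
  rw [← sum_fiberwise_of_maps_to (g := fun x : Finset α => x.card) (t := range 7)]
  · apply sum_congr rfl
    intro j _
    apply sum_congr _ (fun _ _ => rfl)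
    ext x
    simp only [mem_filter, mem_powerset, mem_powersetCard]
    tauto
  · intro x hx
    have h1 := mem_powerset.1 (mem_filter.1 hx).1
    have := card_le_card h1
    rw [mem_range]; omega

theorem inner_gt {b s : Finset α} (hb : b.card = 6) (hsb : s ⊆ b) {j m : ℕ} (hj : s.card ≤ j)
    (hP : ∀ s' ⊆ b, s'.card = j → mu B b s' = m) :
    ∑ s' ∈ (powersetCard j b).filter (s ⊆ ·), mu B b s' = (6 - s.card).choose (j - s.card) * m := by
  rw [sum_const_nat (m := m), card_between s b hsb j hj, hb]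
  intro x hx
  have := mem_powersetCard.1 (mem_filter.1 hx).1
  exact hP x this.1 this.2

theorem inner_self {b s : Finset α} (hsb : s ⊆ b) :
    ∑ s' ∈ (powersetCard s.card b).filter (s ⊆ ·), mu B b s' = mu B b s := by
  have : (powersetCard s.card b).filter (s ⊆ ·) = {s} := by
    ext x
    simp only [mem_filter, mem_powersetCard, mem_singleton]
    constructor
    · rintro ⟨⟨_, h2⟩, h3⟩
      exact (eq_of_subset_of_card_le h3 (by omega)).symm
    · rintro rfl
      exact ⟨⟨hsb, rfl⟩, Subset.refl _⟩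
  rw [this, sum_singleton]

theorem inner_lt {b s : Finset α} {j : ℕ} (hj : j < s.card) :
    ∑ s' ∈ (powersetCard j b).filter (s ⊆ ·), mu B b s' = 0 := by
  have : (powersetCard j b).filter (s ⊆ ·) = ∅ := by
    ext x
    simp only [mem_filter, mem_powersetCard, notMem_empty, iff_false, not_and]
    rintro ⟨_, h2⟩ h3
    have := card_le_card h3
    omega
  rw [this, sum_empty]

variable (hα : Fintype.card α = 12) (hB : Cfsg.IsSteinerSystem 5 6 B) {b : Finset α} (hb : b ∈ B)
include hα hB hb

theorem P6 : ∀ s' ⊆ b, s'.card = 6 → mu B b s' = 1 := by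
  intro s' hs' hc
  have e : s' = b := eq_of_subset_of_card_le hs' (by rw [hB.1 b hb, hc])
  subst e
  unfold mu
  rw [card_eq_one]
  refine ⟨s', ?_⟩
  ext c
  simp only [mem_filter, mem_singleton, mem_blocks]
  constructor
  · rintro ⟨h1, h2⟩
    exact (eq_of_subset_of_card_le (inter_eq_left.1 h2) (by rw [hB.1 c h1, hB.1 s' hb])).symm
  · rintro rfl
    exact ⟨hb, inter_self _⟩

theorem P5 : ∀ s' ⊆ b, s'.card = 5 → mu B b s' = 0 := by
  intro s' hs' hc
  unfold mu
  rw [card_eq_zero]
  ext c
  simp only [mem_filter, mem_blocks, notMem_empty, iff_false, not_and]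
  intro h1 h2
  obtain ⟨x, _, hx⟩ := hB.2 s' hc
  have e1 := hx b ⟨hb, hs'⟩
  have e2 := hx c ⟨h1, by rw [← h2]; exact inter_subset_right⟩
  rw [e1, e2, inter_self] at h2
  rw [← h2, ← e1, hB.1 b hb] at hc
  omega

theorem lam (s : Finset α) (hs : s.card ≤ 5) : ((blocks B).filter (s ⊆ ·)).card =
    (12 - s.card).choose (5 - s.card) / (6 - s.card).choose (5 - s.card) := by
  rw [card_blocks_containing' hB (by norm_num) s hs, hα]

theorem total {s : Finset α} (hsb : s ⊆ b) (hs : s.card ≤ 5) :
    (12 - s.card).choose (5 - s.card) / (6 - s.card).choose (5 - s.card) =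
      ∑ j ∈ range 7, ∑ s' ∈ (powersetCard j b).filter (s ⊆ ·), mu B b s' := by
  rw [← lam hα hB hb s hs, decomposition b s hsb, by_card b s (hB.1 b hb)]

theorem P4 : ∀ s' ⊆ b, s'.card = 4 → mu B b s' = 3 := by
  intro s hs hc
  have h := total hα hB hb hs (by omega)
  have h6 := hB.1 b hb
  simp only [sum_range_succ, sum_range_zero] at h
  rw [inner_lt (by omega), inner_lt (by omega), inner_lt (by omega), inner_lt (by omega),
    inner_gt h6 hs (by omega) (P5 hα hB hb), inner_gt h6 hs (by omega) (P6 hα hB hb)] at h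
  have h4 := inner_self (B := B) hs
  rw [hc] at h4 h
  rw [h4] at h
  norm_num [Nat.choose] at h
  omega

theorem P3 : ∀ s' ⊆ b, s'.card = 3 → mu B b s' = 2 := by
  intro s hs hc
  have h := total hα hB hb hs (by omega)
  have h6 := hB.1 b hb
  simp only [sum_range_succ, sum_range_zero] at h
  rw [inner_lt (by omega), inner_lt (by omega), inner_lt (by omega),
    inner_gt h6 hs (by omega) (P4 hα hB hb),
    inner_gt h6 hs (by omega) (P5 hα hB hb), inner_gt h6 hs (by omega) (P6 hα hB hb)] at h
  have h4 := inner_self (B := B) hs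
  rw [hc] at h4 h
  rw [h4] at h
  norm_num [Nat.choose] at h
  omega

theorem P2 : ∀ s' ⊆ b, s'.card = 2 → mu B b s' = 3 := by
  intro s hs hc
  have h := total hα hB hb hs (by omega)
  have h6 := hB.1 b hb
  simp only [sum_range_succ, sum_range_zero] at h
  rw [inner_lt (by omega), inner_lt (by omega),
    inner_gt h6 hs (by omega) (P3 hα hB hb), inner_gt h6 hs (by omega) (P4 hα hB hb),
    inner_gt h6 hs (by omega) (P5 hα hB hb), inner_gt h6 hs (by omega) (P6 hα hB hb)] at h
  have h4 := inner_self (B := B) hs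
  rw [hc] at h4 h
  rw [h4] at h
  norm_num [Nat.choose] at h
  omega

theorem P1 : ∀ s' ⊆ b, s'.card = 1 → mu B b s' = 0 := by
  intro s hs hc
  have h := total hα hB hb hs (by omega)
  have h6 := hB.1 b hb
  simp only [sum_range_succ, sum_range_zero] at h
  rw [inner_lt (by omega),
    inner_gt h6 hs (by omega) (P2 hα hB hb),
    inner_gt h6 hs (by omega) (P3 hα hB hb), inner_gt h6 hs (by omega) (P4 hα hB hb),
    inner_gt h6 hs (by omega) (P5 hα hB hb), inner_gt h6 hs (by omega) (P6 hα hB hb)] at h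
  have h4 := inner_self (B := B) hs
  rw [hc] at h4 h
  rw [h4] at h
  norm_num [Nat.choose] at h
  omega

theorem mu_pos {c : Finset α} (hc : c ∈ B) : 0 < mu B b (b ∩ c) := by
  unfold mu
  rw [card_pos]
  exact ⟨c, mem_filter.2 ⟨mem_blocks.2 hc, rfl⟩⟩

theorem main : (∀ c ∈ B, c ≠ b → (b ∩ c).card = 0 ∨ (b ∩ c).card = 2 ∨ (b ∩ c).card = 3 ∨ (b ∩ c).card = 4) ∧
    ∀ s ⊆ b, (s.card = 2 → {c : Finset α | c ∈ B ∧ b ∩ c = s}.ncard = 3) ∧
      (s.card = 3 → {c : Finset α | c ∈ B ∧ b ∩ c = s}.ncard = 2) ∧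
      (s.card = 4 → {c : Finset α | c ∈ B ∧ b ∩ c = s}.ncard = 3) := by
  constructor
  · intro c hc hne
    have hpos := mu_pos hα hB hb hc
    have hle : (b ∩ c).card ≤ 6 := by
      rw [← hB.1 b hb]; exact card_le_card inter_subset_left
    have n1 : (b ∩ c).card ≠ 1 := fun h => by
      rw [P1 hα hB hb _ inter_subset_left h] at hpos; omega
    have n5 : (b ∩ c).card ≠ 5 := fun h => by
      rw [P5 hα hB hb _ inter_subset_left h] at hpos; omega
    have n6 : (b ∩ c).card ≠ 6 := fun h => by
      apply hne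
      have e1 : b ∩ c = b := eq_of_subset_of_card_le inter_subset_left (by rw [h, hB.1 b hb])
      exact (eq_of_subset_of_card_le (inter_eq_left.1 e1) (by rw [hB.1 c hc, hB.1 b hb])).symm
    omega
  · intro s hs
    have e : {c : Finset α | c ∈ B ∧ b ∩ c = s}.ncard = mu B b s := ncard_setOf_eq _
    rw [e]
    exact ⟨P2 hα hB hb s hs, P3 hα hB hb s hs, P4 hα hB hb s hs⟩

end Cfsg.Agent.Lib.Helper3.Steiner12
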