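import Mathlib
import Cfsg.Agent.Lib.Helper3.OctStab

/-!
# Recognising symmetric groups from faithful actions; restriction homomorphisms
-/

set_option autoImplicit false
open scoped Pointwise
open Cfsg

namespace Cfsg.Agent.Lib.Helper3.SymIso

open MulAction Cfsg.Agent.Lib.Helper28 Cfsg.Agent.Lib.Helper3.OctStab

theorem nonempty_mulEquiv_perm {H : Type*} [Group H] {Ω : Type*} [Fintype Ω] [DecidableEq Ω]
    (f : H →* Equiv.Perm Ω) (hinj : Function.Injective f) (n : ℕ) (hΩ : Fintype.card Ω = n)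
    (hH : Nat.card H = n.factorial) : Nonempty (H ≃* Equiv.Perm (Fin n)) := by
  have hb : Function.Bijective f := hinj.bijective_of_nat_card_le (by
    rw [Nat.card_eq_fintype_card, Fintype.card_perm, hΩ, hH])
  exact ⟨(MulEquiv.ofBijective f hb).trans (Fintype.equivFinOfCardEq hΩ).permCongrHom⟩

/-- restriction of a subgroup of `M24` to an invariant set of points -/
def restr (H : Subgroup ↥M24) (C : Finset GolayPt)
    (hC : ∀ g ∈ H, ((g : ↥M24) : Equiv.Perm GolayPt) • C = C) : ↥H →* Equiv.Perm ↥C where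
  toFun g := (g.1.1).subtypePerm (mem_iff_of_smul (hC g.1 g.2))
  map_one' := by ext; rfl
  map_mul' := by intros; ext; rfl

theorem restr_injective (H : Subgroup ↥M24) (C : Finset GolayPt)
    (hC : ∀ g ∈ H, ((g : ↥M24) : Equiv.Perm GolayPt) • C = C)
    (h : ∀ g ∈ H, (∀ p ∈ C, ((g : ↥M24) : Equiv.Perm GolayPt) p = p) → g = 1) :
    Function.Injective (restr H C hC) := by
  rw [injective_iff_map_eq_one]
  rintro ⟨g, hg⟩ hfg
  apply Subtype.ext
  apply h g hg
  intro p hp
  have h2 := congrArg (fun e : Equiv.Perm ↥C => ((e ⟨p, hp⟩ : ↥C) : GolayPt)) hfg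
  exact h2

end Cfsg.Agent.Lib.Helper3.SymIso
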