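import Mathlib
import Cfsg.Agent.Lib.Helper3.SmallSets
import Cfsg.Agent.Lib.Helper3.Steiner

/-!
# Pairs of disjoint triads under `M24`
-/

set_option autoImplicit false
open scoped Pointwise
open Cfsg

namespace Cfsg.Agent.Lib.Helper3.Triads

open Cfsg.Agent.Lib.Helper28 Cfsg.Agent.Lib.Helper3.M24T Cfsg.Agent.Lib.Helper3.Orb
open Cfsg.Agent.Lib.Helper3

theorem card_pts : Fintype.card GolayPt = 24 := by decide

theorem finish {a b c u1 u2 u3 v1 v2 v3 : GolayPt} {k k' : Equiv.Perm GolayPt} (hk : k ∈ M24)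
    (hk' : k' ∈ M24) {L : List GolayPt} {r : GolayPt}
    (h1 : [a, b, c, u1, u2].map k = L) (h2 : [a, b, c, v1, v2].map k' = L) (h3 : k u3 = r)
    (h4 : k' v3 = r) :
    ∃ g ∈ M24, g • ({a, b, c} : Finset GolayPt) = {a, b, c} ∧
      g • ({u1, u2, u3} : Finset GolayPt) = {v1, v2, v3} := by
  rw [← h1] at h2
  rw [← h3] at h4
  simp only [List.map_cons, List.map_nil, List.cons.injEq, and_true] at h2
  obtain ⟨e1, e2, e3, e4, e5⟩ := h2
  refine ⟨k'⁻¹ * k, M24.mul_mem (M24.inv_mem hk') hk, ?_, ?_⟩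
  · simp only [Finset.smul_finset_insert, Finset.smul_finset_singleton, Equiv.Perm.smul_def,
      Equiv.Perm.mul_apply]
    rw [← e1, ← e2, ← e3]
    simp
  · simp only [Finset.smul_finset_insert, Finset.smul_finset_singleton, Equiv.Perm.smul_def,
      Equiv.Perm.mul_apply]
    rw [← e4, ← e5, ← h4]
    simp

theorem trans_in {T U U' : Finset GolayPt} (hT : T.card = 3) (hU : U.card = 3) (hU' : U'.card = 3)
    (hd : Disjoint T U) (hd' : Disjoint T U') {o o' : Finset GolayPt} (ho : o ∈ octads)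
    (ho' : o' ∈ octads) (h : T ∪ U ⊆ o) (h' : T ∪ U' ⊆ o') :
    ∃ g ∈ M24, g • T = T ∧ g • U = U' := by
  obtain ⟨a, b, c, hab, hac, hbc, rfl⟩ := Finset.card_eq_three.1 hT
  obtain ⟨u1, u2, u3, hu12, hu13, hu23, rfl⟩ := Finset.card_eq_three.1 hU
  obtain ⟨v1, v2, v3, hv12, hv13, hv23, rfl⟩ := Finset.card_eq_three.1 hU'
  simp only [Finset.disjoint_insert_left, Finset.disjoint_singleton_left, Finset.mem_insert,
    Finset.mem_singleton, not_or] at hd hd'
  have nd : [a, b, c, u1, u2].Nodup := by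
    simp only [List.nodup_cons, List.mem_cons, List.not_mem_nil, or_false, not_or,
          List.nodup_nil, not_false_eq_true, and_true]; tauto
  have nd' : [a, b, c, v1, v2].Nodup := by
    simp only [List.nodup_cons, List.mem_cons, List.not_mem_nil, or_false, not_or,
          List.nodup_nil, not_false_eq_true, and_true]; tauto
  have nq : u3 ∉ [a, b, c, u1, u2] := by
    simp only [List.mem_cons, List.not_mem_nil, or_false, not_or]
    exact ⟨Ne.symm hd.1.2.2, Ne.symm hd.2.1.2.2, Ne.symm hd.2.2.2.2, Ne.symm hu13, Ne.symm hu23⟩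
  have nq' : v3 ∉ [a, b, c, v1, v2] := by
    simp only [List.mem_cons, List.not_mem_nil, or_false, not_or]
    exact ⟨Ne.symm hd'.1.2.2, Ne.symm hd'.2.1.2.2, Ne.symm hd'.2.2.2.2, Ne.symm hv13, Ne.symm hv23⟩
  clear hd hd' hab hac hbc hu12 hu13 hu23 hv12 hv13 hv23
  have m : ∀ x ∈ [a, b, c, u1, u2], x ∈ o := by
    intro x hx
    apply h
    simp only [List.mem_cons, List.not_mem_nil, or_false] at hx
    simp only [Finset.mem_union, Finset.mem_insert, Finset.mem_singleton]
    tauto
  have m' : ∀ x ∈ [a, b, c, v1, v2], x ∈ o' := by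
    intro x hx
    apply h'
    simp only [List.mem_cons, List.not_mem_nil, or_false] at hx
    simp only [Finset.mem_union, Finset.mem_insert, Finset.mem_singleton]
    tauto
  have mq : u3 ∈ o := h (by simp)
  have mq' : v3 ∈ o' := h' (by simp)
  obtain ⟨k, hk, _, hk1, hk2⟩ := Small.exists_map_six_in ho [a, b, c, u1, u2] nd m rfl mq nq
  obtain ⟨k', hk', _, hk1', hk2'⟩ := Small.exists_map_six_in ho' [a, b, c, v1, v2] nd' m' rfl mq' nq'
  exact finish hk hk' hk1 hk1' hk2 hk2'

theorem trans_out {T U U' : Finset GolayPt} (hT : T.card = 3) (hU : U.card = 3) (hU' : U'.card = 3)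
    (hd : Disjoint T U) (hd' : Disjoint T U') (h : ¬ ∃ o ∈ octads, T ∪ U ⊆ o)
    (h' : ¬ ∃ o ∈ octads, T ∪ U' ⊆ o) :
    ∃ g ∈ M24, g • T = T ∧ g • U = U' := by
  obtain ⟨a, b, c, hab, hac, hbc, rfl⟩ := Finset.card_eq_three.1 hT
  obtain ⟨u1, u2, u3, hu12, hu13, hu23, rfl⟩ := Finset.card_eq_three.1 hU
  obtain ⟨v1, v2, v3, hv12, hv13, hv23, rfl⟩ := Finset.card_eq_three.1 hU'
  simp only [Finset.disjoint_insert_left, Finset.disjoint_singleton_left, Finset.mem_insert,
    Finset.mem_singleton, not_or] at hd hd'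
  have nd : [a, b, c, u1, u2].Nodup := by
    simp only [List.nodup_cons, List.mem_cons, List.not_mem_nil, or_false, not_or,
          List.nodup_nil, not_false_eq_true, and_true]; tauto
  have nd' : [a, b, c, v1, v2].Nodup := by
    simp only [List.nodup_cons, List.mem_cons, List.not_mem_nil, or_false, not_or,
          List.nodup_nil, not_false_eq_true, and_true]; tauto
  obtain ⟨o, ⟨ho, hso⟩, _⟩ := octads_steiner.2 [a, b, c, u1, u2].toFinset
    (by rw [List.toFinset_card_of_nodup nd]; rfl)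
  obtain ⟨o', ⟨ho', hso'⟩, _⟩ := octads_steiner.2 [a, b, c, v1, v2].toFinset
    (by rw [List.toFinset_card_of_nodup nd']; rfl)
  have hq : u3 ∉ o := by
    intro hu3
    apply h
    refine ⟨o, ho, ?_⟩
    intro x hx
    simp only [Finset.mem_union, Finset.mem_insert, Finset.mem_singleton] at hx
    by_cases hx3 : x = u3
    · rw [hx3]; exact hu3
    · apply hso
      simp only [List.mem_toFinset, List.mem_cons, List.not_mem_nil, or_false]
      tauto
  have hq' : v3 ∉ o' := by
    intro hu3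
    apply h'
    refine ⟨o', ho', ?_⟩
    intro x hx
    simp only [Finset.mem_union, Finset.mem_insert, Finset.mem_singleton] at hx
    by_cases hx3 : x = v3
    · rw [hx3]; exact hu3
    · apply hso'
      simp only [List.mem_toFinset, List.mem_cons, List.not_mem_nil, or_false]
      tauto
  obtain ⟨k, hk, _, hk1, hk2⟩ := exists_map_octad_list_out ho [a, b, c, u1, u2] nd
    (fun x hx => hso (List.mem_toFinset.2 hx)) (le_refl _) hq
  obtain ⟨k', hk', _, hk1', hk2'⟩ := exists_map_octad_list_out ho' [a, b, c, v1, v2] nd'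
    (fun x hx => hso' (List.mem_toFinset.2 hx)) (le_refl _) hq'
  exact finish hk hk' hk1 hk1' hk2 hk2'

theorem ncard_in (T : Finset GolayPt) (hT : T.card = 3) :
    {U : Finset GolayPt | U.card = 3 ∧ Disjoint T U ∧ (∃ o ∈ octads, T ∪ U ⊆ o)}.ncard = 210 := by
  classical
  have key : {U : Finset GolayPt | U.card = 3 ∧ Disjoint T U ∧ (∃ o ∈ octads, T ∪ U ⊆ o)} =
      ↑(((Steiner.blocks octads).filter (T ⊆ ·)).biUnion
        (fun o => Finset.powersetCard 3 (o \ T))) := by
    ext U
    simp only [Finset.coe_biUnion, Finset.coe_filter, Set.mem_iUnion, Finset.mem_coe,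
      Finset.mem_powersetCard, Set.mem_ofPred_eq, Steiner.mem_blocks, exists_prop]
    constructor
    · rintro ⟨h1, h2, o, ho, h3⟩
      refine ⟨o, ⟨ho, Finset.union_subset_left h3⟩, ?_, h1⟩
      intro x hx
      rw [Finset.mem_sdiff]
      exact ⟨h3 (Finset.mem_union_right _ hx), fun hxT => (Finset.disjoint_left.1 h2 hxT) hx⟩
    · rintro ⟨o, ⟨ho, hTo⟩, h1, h2⟩
      refine ⟨h2, ?_, o, ho, Finset.union_subset hTo (h1.trans Finset.sdiff_subset)⟩
      rw [Finset.disjoint_left]
      intro x hxT hxU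
      exact (Finset.mem_sdiff.1 (h1 hxU)).2 hxT
  rw [key, Set.ncard_coe_finset, Finset.card_biUnion]
  · have h10 : ∀ o ∈ (Steiner.blocks octads).filter (T ⊆ ·),
        (Finset.powersetCard 3 (o \ T)).card = 10 := by
      intro o ho
      rw [Finset.mem_filter, Steiner.mem_blocks] at ho
      rw [Finset.card_powersetCard, Finset.card_sdiff_of_subset ho.2, octads_steiner.1 o ho.1, hT]
      decide
    rw [Finset.sum_congr rfl h10, Finset.sum_const,
      Steiner.card_blocks_containing' octads_steiner (by norm_num) T (by omega), hT, card_pts]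
    decide
  · intro o ho o' ho' hne
    rw [Finset.mem_coe, Finset.mem_filter, Steiner.mem_blocks] at ho ho'
    change Disjoint _ _
    rw [Finset.disjoint_left]
    intro U hU hU'
    rw [Finset.mem_powersetCard] at hU hU'
    apply hne
    apply octad_eq_of_five ho.1 ho'.1
    have hsub : T ∪ U ⊆ o ∩ o' := by
      apply Finset.union_subset
      · exact Finset.subset_inter ho.2 ho'.2
      · exact Finset.subset_inter (hU.1.trans Finset.sdiff_subset) (hU'.1.trans Finset.sdiff_subset)
    have hdis : Disjoint T U := by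
      rw [Finset.disjoint_left]
      intro x hxT hxU
      exact (Finset.mem_sdiff.1 (hU.1 hxU)).2 hxT
    have := Finset.card_le_card hsub
    rw [Finset.card_union_of_disjoint hdis, hT, hU.2] at this
    omega

theorem ncard_out (T : Finset GolayPt) (hT : T.card = 3) :
    {U : Finset GolayPt | U.card = 3 ∧ Disjoint T U ∧ ¬ (∃ o ∈ octads, T ∪ U ⊆ o)}.ncard = 1120 := by
  have h1 := Small.ncard_card_inter T 3 0 (by omega)
  have hTc : Tᶜ.card = 21 := by rw [Finset.card_compl, card_pts, hT]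
  rw [hT, hTc] at h1
  have h2 : {y : Finset GolayPt | y.card = 3 ∧ (T ∩ y).card = 0} =
      {U : Finset GolayPt | U.card = 3 ∧ Disjoint T U ∧ (∃ o ∈ octads, T ∪ U ⊆ o)} ∪
      {U : Finset GolayPt | U.card = 3 ∧ Disjoint T U ∧ ¬ (∃ o ∈ octads, T ∪ U ⊆ o)} := by
    ext U
    simp only [Set.mem_union, Set.mem_ofPred_eq, Finset.card_eq_zero, Finset.disjoint_iff_inter_eq_empty]
    by_cases hex : ∃ o ∈ octads, T ∪ U ⊆ o
    · simp only [hex, and_true, not_true_eq_false, and_false, or_false]
    · simp only [hex, and_true, not_false_eq_true, and_false, false_or]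
  rw [h2, Set.ncard_union_eq _ (Set.toFinite _) (Set.toFinite _), ncard_in T hT] at h1
  · have : Nat.choose 3 0 * Nat.choose 21 (3 - 0) = 1330 := by decide
    omega
  · rw [Set.disjoint_left]
    rintro U ⟨_, _, h3⟩ ⟨_, _, h4⟩
    exact h4 h3

end Cfsg.Agent.Lib.Helper3.Triads
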