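import Mathlib
import Cfsg.Agent.Lib.Helper3.TrioStabA

/-!
# The stabiliser of a trio
-/

set_option autoImplicit false

namespace Cfsg.Agent.Lib.Helper3.TrioStab

open MulAction Cfsg Cfsg.Agent.Lib.Helper28 Cfsg.Agent.Lib.Helper3.M24T Cfsg.Agent.Lib.Helper3.M24Gen
  Cfsg.Agent.Lib.Helper3.Sext Cfsg.Agent.Lib.Helper3.OctStab Cfsg.Agent.Lib.Helper3.SS
open scoped Pointwise

/-! ### the pairing -/

/-- the pairing. -/
def B (s x : Finset GolayPt) : ZMod 2 := ((s ∩ x).card : ZMod 2)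

theorem cast_symmDiff (a b : Finset GolayPt) : ((symmDiff a b).card : ZMod 2) = a.card + b.card := by
  have h2 := congrArg (Nat.cast : ℕ → ZMod 2) (card_symmDiff_add a b)
  push_cast at h2
  have h3 : (2 : ZMod 2) = 0 := rfl
  rw [h3, zero_mul, add_zero] at h2
  exact h2

theorem B_symmDiff (s s' x : Finset GolayPt) : B (symmDiff s s') x = B s x + B s' x := by
  unfold B
  rw [← cast_symmDiff]
  congr 2
  ext p
  simp only [Finset.mem_inter, Finset.mem_symmDiff]
  tauto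

theorem B_code {c x : Finset GolayPt} (hc : inC c) (hx : inC x) : B c x = 0 := by
  unfold B
  have h := card_symmDiff_add c x
  have h1 := card_cases hc
  have h2 := card_cases hx
  have h3 := card_cases (inC_symmDiff hc hx)
  exact (ZMod.natCast_eq_zero_iff _ _).2 (by omega)

theorem B_smul (g : Equiv.Perm GolayPt) (s x : Finset GolayPt) : B (g⁻¹ • s) x = B s (g • x) := by
  unfold B
  congr 1
  rw [← Finset.card_smul_finset g (g⁻¹ • s ∩ x), Finset.smul_finset_inter, smul_inv_smul]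

theorem B_empty (x : Finset GolayPt) : B ∅ x = 0 := by simp [B]

theorem inC_smul {g : Equiv.Perm GolayPt} (hg : g ∈ M24) {s : Finset GolayPt} (hs : inC s) : inC (g • s) :=
  (mem_M24_iff_forall g).1 hg s hs

/-! ### the base objects -/

/-- the three tetrads. -/
def tt (i : Fin 3) : Finset GolayPt := un (tm.getD i 0)

/-- the three words. -/
def cc (j : Fin 3) : Finset GolayPt := un (cm.getD j 0)

/-- the base trio. -/
def T0 : Finset (Finset GolayPt) := (OM.map un).toFinset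

theorem tm_mem : ∀ i < 3, tm.getD i 0 ∈ tm := by decide
theorem cm_mem : ∀ i < 3, cm.getD i 0 ∈ cm := by decide
theorem OM_mem : ∀ i < 3, OM.getD i 0 ∈ OM := by decide
theorem tm_idx : ∀ m ∈ tm, ∃ i : Fin 3, m = tm.getD i 0 := by decide

theorem mem_T0 {O : Finset GolayPt} : O ∈ T0 ↔ ∃ m ∈ OM, un m = O := by
  unfold T0; rw [List.mem_toFinset, List.mem_map]

theorem T0_mem : T0 ∈ trios := by
  refine ⟨?_, ?_, ?_⟩
  · unfold T0
    rw [List.toFinset_card_of_nodup, List.length_map]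
    · rfl
    · apply List.Nodup.map_on _ OM_nodup
      intro a ha b hb e
      rw [← mk_un (OM_ok a ha).2, e, mk_un (OM_ok b hb).2]
  · intro o ho
    obtain ⟨m, hm, rfl⟩ := mem_T0.1 ho
    exact un_mem_octads (OM_ok m hm).1
  · intro o ho o' ho' hne
    obtain ⟨m, hm, rfl⟩ := mem_T0.1 ho
    obtain ⟨n, hn, rfl⟩ := mem_T0.1 ho'
    rw [disjoint_iff_land, mk_un (OM_ok m hm).2, mk_un (OM_ok n hn).2]
    exact OM_disj m hm n hn (fun e => hne (by rw [e]))

theorem cc_inC (j : Fin 3) : inC (cc j) := by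
  unfold inC cc
  rw [mk_un (cm_ok _ (cm_mem j j.2)).2]
  exact (cm_ok _ (cm_mem j j.2)).1

theorem card_tt (i : Fin 3) : (tt i).card = 4 := by
  unfold tt
  rw [card_un]; exact (tm_ok _ (tm_mem i i.2)).1

theorem dual (i j : Fin 3) : B (tt i) (cc j) = if i = j then 1 else 0 := by
  unfold B tt cc
  rw [card_eq_popc, mk_inter, mk_un (tm_ok _ (tm_mem i i.2)).2.1, mk_un (cm_ok _ (cm_mem j j.2)).2]
  have h := dual_ok i i.2 j j.2
  have h2 : ((popc (tm.getD i 0 &&& cm.getD j 0) : ℕ) : ZMod 2) =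
      ((popc (tm.getD i 0 &&& cm.getD j 0) % 2 : ℕ) : ZMod 2) := by simp
  rw [h2, h]
  by_cases hij : i = j
  · simp [hij]
  · have : (i : ℕ) ≠ j := fun e => hij (Fin.ext e)
    simp [hij, this]

/-! ### the key fact -/

/-- the invariant property. -/
def PP (s : Finset GolayPt) : Prop :=
  ∃ X ∈ octads, ∃ O ∈ T0, ∃ O' ∈ T0, O ≠ O' ∧ (X ∩ O).card = 4 ∧ (X ∩ O').card = 4 ∧ s = X ∩ O

theorem smul_T0 {g : Equiv.Perm GolayPt} (hg : g ∈ stabIn T0) {o : Finset GolayPt} (ho : o ∈ T0) :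
    g • o ∈ T0 := by
  have := Finset.smul_mem_smul_finset (a := g) ho
  rwa [(mem_stabIn.1 hg).2] at this

theorem PP_smul {g : Equiv.Perm GolayPt} (hg : g ∈ stabIn T0) {s : Finset GolayPt} (h : PP s) : PP (g • s) := by
  obtain ⟨X, hX, O, hO, O', hO', hne, h1, h2, rfl⟩ := h
  refine ⟨g • X, smul_mem_octads hg.1 hX, g • O, smul_T0 hg hO, g • O', smul_T0 hg hO',
    fun e => hne (smul_left_cancel g e), ?_, ?_, ?_⟩
  · rw [← Finset.smul_finset_inter, Finset.card_smul_finset, h1]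
  · rw [← Finset.smul_finset_inter, Finset.card_smul_finset, h2]
  · rw [Finset.smul_finset_inter]

theorem PP_cmb {s : Finset GolayPt} (h : PP s) : isCmb (mk s) = true := by
  obtain ⟨X, hX, O, hO, O', hO', hne, h1, h2, rfl⟩ := h
  obtain ⟨m, hm, rfl⟩ := mem_T0.1 hO
  obtain ⟨n, hn, rfl⟩ := mem_T0.1 hO'
  obtain ⟨hc, hp⟩ := (mem_octads_iff _).1 hX
  have k := forall_isCode (P := fun x => (!(popc x == 8) || OM.all fun O => OM.all fun O' =>
    !(O != O' && popc (x &&& O) == 4 && popc (x &&& O') == 4) || isCmb (x &&& O)) = true) KF _ hc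
  rw [hp] at k
  simp only [beq_self_eq_true, Bool.not_true, Bool.false_or, List.all_eq_true] at k
  have k2 := k m hm n hn
  have e1 : popc (mk X &&& m) = 4 := by rw [← h1, card_eq_popc, mk_inter, mk_un (OM_ok m hm).2]
  have e2 : popc (mk X &&& n) = 4 := by rw [← h2, card_eq_popc, mk_inter, mk_un (OM_ok n hn).2]
  have e3 : (m != n) = true := by
    simp only [bne_iff_ne, ne_eq]
    intro e; exact hne (by rw [e])
  rw [e1, e2, e3] at k2
  rw [mk_inter, mk_un (OM_ok m hm).2]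
  simpa using k2

theorem PP_tt (i : Fin 3) : PP (tt i) := by
  obtain ⟨w1, w2, w3, w4⟩ := wit_ok i i.2
  have l0 := (OM_ok _ (OM_mem 0 (by decide))).2
  have l1 := (OM_ok _ (OM_mem 1 (by decide))).2
  refine ⟨un (wit.getD i 0), un_mem_octads w1, un (OM.getD 0 0), mem_T0.2 ⟨_, OM_mem 0 (by decide), rfl⟩,
    un (OM.getD 1 0), mem_T0.2 ⟨_, OM_mem 1 (by decide), rfl⟩, ?_, ?_, ?_, ?_⟩
  · intro e
    have := congrArg mk e
    rw [mk_un l0, mk_un l1] at this
    exact absurd this (by decide)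
  · rw [card_eq_popc, mk_inter, mk_un w2, mk_un l0, w3]
    exact (tm_ok _ (tm_mem i i.2)).1
  · rw [card_eq_popc, mk_inter, mk_un w2, mk_un l1, w4]
  · apply mk_injective
    unfold tt
    rw [mk_inter, mk_un w2, mk_un l0, w3, mk_un (tm_ok _ (tm_mem i i.2)).2.1]

/-- from booleans to scalars. -/
def toZ (a : Bool) : ZMod 2 := bif a then 1 else 0

theorem cmb_lt : ∀ a b c : Bool, cmb a b c < 2 ^ 24 := by decide

theorem decomp {s : Finset GolayPt} (h : isCmb (mk s) = true) :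
    ∃ a b c : Bool, ∃ k, inC k ∧ s = symmDiff k (un (cmb a b c)) := by
  unfold isCmb at h
  simp only [List.any_eq_true] at h
  obtain ⟨a, -, b, -, c, -, h⟩ := h
  refine ⟨a, b, c, symmDiff s (un (cmb a b c)), ?_, ?_⟩
  · unfold inC; rw [mk_symmDiff, mk_un (cmb_lt a b c)]; exact h
  · exact (symmDiff_symmDiff_cancel_right _ _).symm

theorem B_bif (a : Bool) (t : ℕ) (x : Finset GolayPt) :
    B (un (bif a then t else 0)) x = toZ a * B (un t) x := by
  cases a
  · simp [toZ, un_zero, B_empty]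
  · simp [toZ]

theorem B_cmb (a b c : Bool) (x : Finset GolayPt) :
    B (un (cmb a b c)) x = toZ a * B (tt 0) x + toZ b * B (tt 1) x + toZ c * B (tt 2) x := by
  unfold cmb
  rw [un_xor, un_xor, B_symmDiff, B_symmDiff, B_bif, B_bif, B_bif]
  rfl

theorem key {s k : Finset GolayPt} {a b c : Bool} (hk : inC k) (e : s = symmDiff k (un (cmb a b c)))
    {y : Finset GolayPt} (hy : inC y) :
    B s y = toZ a * B (tt 0) y + toZ b * B (tt 1) y + toZ c * B (tt 2) y := by
  rw [e, B_symmDiff, B_code hk hy, zero_add, B_cmb]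

theorem coords {s k : Finset GolayPt} {a b c : Bool} (hk : inC k) (e : s = symmDiff k (un (cmb a b c))) :
    B s (cc 0) = toZ a ∧ B s (cc 1) = toZ b ∧ B s (cc 2) = toZ c := by
  refine ⟨?_, ?_, ?_⟩
  · rw [key hk e (cc_inC 0), dual, dual, dual]; simp
  · rw [key hk e (cc_inC 1), dual, dual, dual]; simp
  · rw [key hk e (cc_inC 2), dual, dual, dual]; simp

theorem claimA {s : Finset GolayPt} (h : isCmb (mk s) = true) {x : Finset GolayPt} (hx : inC x) :
    B s x = ∑ k, B s (cc k) * B (tt k) x := by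
  obtain ⟨a, b, c, k, hk, e⟩ := decomp h
  obtain ⟨r0, r1, r2⟩ := coords hk e
  rw [Fin.sum_univ_three, r0, r1, r2]
  exact key hk e hx

theorem toZ_eq {a : Bool} {p : Prop} [Decidable p] (h : toZ a = if p then 1 else 0) : a = decide p := by
  cases a <;> by_cases hp : p <;> simp_all [toZ]

theorem cmb_single : ∀ i : Fin 3, cmb (decide (i = 0)) (decide (i = 1)) (decide (i = 2)) = tm.getD i 0 := by
  decide

theorem claimB {s : Finset GolayPt} (h : isCmb (mk s) = true) {i : Fin 3}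
    (hr : ∀ j, B s (cc j) = if i = j then 1 else 0) : inC (symmDiff s (tt i)) := by
  obtain ⟨a, b, c, k, hk, e⟩ := decomp h
  obtain ⟨r0, r1, r2⟩ := coords hk e
  have ha := toZ_eq (r0.symm.trans (hr 0))
  have hb := toZ_eq (r1.symm.trans (hr 1))
  have hc := toZ_eq (r2.symm.trans (hr 2))
  rw [ha, hb, hc, cmb_single] at e
  rw [e]
  unfold tt
  rw [symmDiff_symmDiff_cancel_right]
  exact hk

/-! ### the matrices -/

/-- the matrix of an element. -/
def MM (g : Equiv.Perm GolayPt) : Matrix (Fin 3) (Fin 3) (ZMod 2) := fun i j => B (tt i) (g • cc j)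

theorem isCmb_inv {g : Equiv.Perm GolayPt} (hg : g ∈ stabIn T0) (i : Fin 3) :
    isCmb (mk (g⁻¹ • tt i)) = true := PP_cmb (PP_smul ((stabIn T0).inv_mem hg) (PP_tt i))

theorem MM_spec {g : Equiv.Perm GolayPt} (hg : g ∈ stabIn T0) (i : Fin 3) {x : Finset GolayPt} (hx : inC x) :
    B (tt i) (g • x) = ∑ k, MM g i k * B (tt k) x := by
  rw [← B_smul, claimA (isCmb_inv hg i) hx]
  apply Finset.sum_congr rfl
  intro k _
  rw [B_smul]; rfl

theorem MM_mul {g h : Equiv.Perm GolayPt} (hg : g ∈ stabIn T0) (hh : h ∈ stabIn T0) :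
    MM (g * h) = MM g * MM h := by
  ext i j
  rw [Matrix.mul_apply]
  show B (tt i) ((g * h) • cc j) = _
  rw [mul_smul, MM_spec hg i (inC_smul hh.1 (cc_inC j))]
  rfl

theorem MM_one : MM 1 = 1 := by
  ext i j
  show B (tt i) ((1 : Equiv.Perm GolayPt) • cc j) = _
  rw [one_smul, dual, Matrix.one_apply]

theorem cong_of_MM {h : Equiv.Perm GolayPt} (hh : h ∈ stabIn T0) (h1 : MM h = 1) (i : Fin 3) :
    inC (symmDiff (h⁻¹ • tt i) (tt i)) := by
  apply claimB (isCmb_inv hh i)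
  intro j
  rw [B_smul]
  have := congrFun (congrFun h1 i) j
  rw [Matrix.one_apply] at this
  exact this

/-! ### the homomorphism -/

/-- the matrix part. -/
def phi1 : ↥(stabIn T0) →* Matrix (Fin 3) (Fin 3) (ZMod 2) where
  toFun g := MM g.1
  map_one' := MM_one
  map_mul' a b := MM_mul a.2 b.2

/-- the action on the three octads. -/
instance actT : MulAction ↥(stabIn T0) ↥T0 where
  smul g o := ⟨g.1 • o.1, smul_T0 g.2 o.2⟩
  one_smul _ := Subtype.ext (one_smul _ _)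
  mul_smul _ _ _ := Subtype.ext (mul_smul _ _ _)

theorem card_T0 : Fintype.card ↥T0 = 3 := by
  rw [Fintype.card_coe]; exact T0_mem.1

/-- the permutation part. -/
noncomputable def phi2 : ↥(stabIn T0) →* Equiv.Perm (Fin 3) :=
  (Fintype.equivFinOfCardEq card_T0).permCongrHom.toMonoidHom.comp (MulAction.toPermHom ↥(stabIn T0) ↥T0)

/-- the homomorphism. -/
noncomputable def phi : ↥(stabIn T0) →* GL (Fin 3) (ZMod 2) × Equiv.Perm (Fin 3) :=
  phi1.toHomUnits.prod phi2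

theorem ker_spec {g : ↥(stabIn T0)} (hg : g ∈ phi.ker) : MM g.1 = 1 ∧ ∀ o ∈ T0, g.1 • o = o := by
  rw [MonoidHom.mem_ker] at hg
  have h1 : phi1.toHomUnits g = 1 := congrArg Prod.fst hg
  have h2 : phi2 g = 1 := congrArg Prod.snd hg
  constructor
  · have := congrArg Units.val h1
    exact this
  · intro o ho
    have h3 : MulAction.toPermHom ↥(stabIn T0) ↥T0 g = 1 := by
      apply (Fintype.equivFinOfCardEq card_T0).permCongrHom.injective
      rw [map_one]
      exact h2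
    have h4 := congrArg (fun f : Equiv.Perm ↥T0 => (f ⟨o, ho⟩).1) h3
    exact h4

/-! ### the kernel -/

/-- a subgroup containing the kernel. -/
def NN : Subgroup (Equiv.Perm GolayPt) where
  carrier := {g | g ∈ M24 ∧ (∀ o ∈ T0, g • o = o) ∧ ∀ i, inC (symmDiff (g • tt i) (tt i))}
  mul_mem' := fun {a b} ha hb => ⟨M24.mul_mem ha.1 hb.1,
    fun o ho => by rw [mul_smul, hb.2.1 o ho, ha.2.1 o ho], fun i => by
      have e : symmDiff ((a * b) • tt i) (tt i) =
          symmDiff (a • symmDiff (b • tt i) (tt i)) (symmDiff (a • tt i) (tt i)) := by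
        rw [smul_symmDiff, mul_smul, symmDiff_assoc, symmDiff_symmDiff_cancel_left]
      rw [e]
      exact inC_symmDiff (inC_smul ha.1 (hb.2.2 i)) (ha.2.2 i)⟩
  one_mem' := ⟨M24.one_mem, fun o _ => one_smul _ o, fun i => by
    rw [one_smul, symmDiff_self]; exact inC_empty⟩
  inv_mem' := fun {a} ha => ⟨M24.inv_mem ha.1, fun o ho => by rw [inv_smul_eq_iff, ha.2.1 o ho], fun i => by
    have e : symmDiff (a⁻¹ • tt i) (tt i) = a⁻¹ • symmDiff (a • tt i) (tt i) := by
      rw [smul_symmDiff, inv_smul_smul, symmDiff_comm]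
    rw [e]
    exact inC_smul (M24.inv_mem ha.1) (ha.2.2 i)⟩

theorem ker_sub {g : ↥(stabIn T0)} (hg : g ∈ phi.ker) : g.1 ∈ NN := by
  obtain ⟨-, h2⟩ := ker_spec hg
  obtain ⟨h3, -⟩ := ker_spec (phi.ker.inv_mem hg)
  refine ⟨g.2.1, h2, fun i => ?_⟩
  have := cong_of_MM (g⁻¹).2 h3 i
  have e : ((g⁻¹ : ↥(stabIn T0)) : Equiv.Perm GolayPt)⁻¹ = g.1 := by simp
  rwa [e] at this

theorem permOf_mem_NN {c : List ℕ} (h1 : inM24 c = true) (h2 : presT c = true) : permOf c ∈ NN := by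
  unfold presT at h2
  rw [Bool.and_eq_true, List.all_eq_true, List.all_eq_true] at h2
  have hT := isTbl_of_inM24 h1
  refine ⟨permOf_mem_M24 h1, ?_, ?_⟩
  · intro o ho
    obtain ⟨m, hm, rfl⟩ := mem_T0.1 ho
    rw [permOf_smul_un hT (OM_ok m hm).2, beq_iff_eq.1 (h2.1 m hm)]
  · intro i
    unfold inC tt
    rw [mk_symmDiff, mk_permOf_smul hT, mk_un (tm_ok _ (tm_mem i i.2)).2.1]
    exact h2.2 _ (tm_mem i i.2)

theorem NN_fix_tt {g : Equiv.Perm GolayPt} (hg : g ∈ NN) (h23 : g (ptOf 23) = ptOf 23) (i : Fin 3) :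
    g • tt i = tt i := by
  by_contra hne
  have h := tetrads (by rw [Finset.card_smul_finset, card_tt]) (card_tt i) (hg.2.2 i) hne
  have h1 : ptOf 23 ∈ tt i := by
    unfold tt
    rw [mem_un, idx_ptOf (by decide)]; exact (tm_ok _ (tm_mem i i.2)).2.2
  have h2 : ptOf 23 ∈ g • tt i := by
    have := (mem_smul_finset_iff g (tt i) (ptOf 23)).2 h1
    rwa [h23] at this
  exact Finset.disjoint_left.1 h.1 h2 h1

theorem NN_map {g : Equiv.Perm GolayPt} (hg : g ∈ NN) {k : ℕ} (hk : k < 3) {p : GolayPt}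
    (hp : p ∈ un (OM.getD k 0)) : g p ∈ un (OM.getD k 0) := by
  have hO : g • un (OM.getD k 0) = un (OM.getD k 0) := hg.2.1 _ (mem_T0.2 ⟨_, OM_mem k hk, rfl⟩)
  have := (mem_smul_finset_iff g _ p).2 hp
  rwa [hO] at this

theorem NN_fix_O1 {g : Equiv.Perm GolayPt} (hg : g ∈ NN) (h23 : g (ptOf 23) = ptOf 23) {p : GolayPt}
    (hp : p ∈ un (OM.getD 0 0)) : g p = p := by
  have h1 := NN_map hg (by decide) hp
  apply idx_injective
  apply sep _ (idx_lt _) _ (idx_lt _) (mem_un.1 h1) (mem_un.1 hp)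
  intro m hm
  obtain ⟨i, rfl⟩ := tm_idx m hm
  have h2 := NN_fix_tt hg h23 i
  have h3 : g p ∈ tt i ↔ p ∈ tt i := by
    conv_lhs => rw [← h2]
    exact mem_smul_finset_iff g _ p
  unfold tt at h3
  rw [mem_un, mem_un] at h3
  exact Bool.eq_iff_iff.2 h3

theorem NN_enum {g : Equiv.Perm GolayPt} (hg : g ∈ NN) : ∃ a ∈ U1, ∃ b ∈ U2, tblOf g = comp a b := by
  obtain ⟨q1, q2, q3⟩ := p2_mem
  have h1 : g (ptOf 23) ∈ un (OM.getD 0 0) :=
    NN_map hg (by decide) (by rw [mem_un, idx_ptOf (by decide)]; exact q3)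
  obtain ⟨a, ha, ea⟩ := U1_cov _ (idx_lt _) (mem_un.1 h1)
  obtain ⟨a1, a2⟩ := U1_ok a ha
  have m1 : (permOf a)⁻¹ * g ∈ NN := NN.mul_mem (NN.inv_mem (permOf_mem_NN a1 a2)) hg
  have f1 : ((permOf a)⁻¹ * g) (ptOf 23) = ptOf 23 := by
    rw [Equiv.Perm.mul_apply, Equiv.Perm.inv_eq_iff_eq, permOf_ptOf a1 (by decide), ea, ptOf_idx]
  have h2 : ((permOf a)⁻¹ * g) (ptOf 3) ∈ un (OM.getD 1 0) :=
    NN_map m1 (by decide) (by rw [mem_un, idx_ptOf (by decide)]; exact q1)
  obtain ⟨b, hb, eb⟩ := U2_cov _ (idx_lt _) (mem_un.1 h2)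
  obtain ⟨b1, b2, b3⟩ := U2_ok b hb
  have m2 : (permOf b)⁻¹ * ((permOf a)⁻¹ * g) ∈ NN := NN.mul_mem (NN.inv_mem (permOf_mem_NN b1 b2)) m1
  have e1 : (permOf b)⁻¹ * ((permOf a)⁻¹ * g) = 1 := by
    apply AutFix.eq_one_of_nine m2.1
    have hsub : insert (ptOf 3) (un (OM.getD 0 0)) ⊆ fixSet ((permOf b)⁻¹ * ((permOf a)⁻¹ * g)) := by
      intro p hp
      rw [mem_fixSet]
      rcases Finset.mem_insert.1 hp with rfl | hp
      · rw [Equiv.Perm.mul_apply, Equiv.Perm.inv_eq_iff_eq, permOf_ptOf b1 (by decide), eb, ptOf_idx]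
      · rw [Equiv.Perm.mul_apply, NN_fix_O1 m1 f1 hp, Equiv.Perm.inv_eq_iff_eq,
          permOf_apply (isTbl_of_inM24 b1), b3 _ (idx_lt p) (mem_un.1 hp), ptOf_idx]
    have hc : (insert (ptOf 3) (un (OM.getD 0 0))).card = 9 := by
      rw [Finset.card_insert_of_notMem, card_un]
      · decide +kernel
      · rw [mem_un, idx_ptOf (by decide), q2]; simp
    rw [← hc]
    exact Finset.card_le_card hsub
  refine ⟨a, ha, b, hb, ?_⟩
  have e : g = permOf a * permOf b := by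
    calc g = permOf a * (permOf b * ((permOf b)⁻¹ * ((permOf a)⁻¹ * g))) := by group
      _ = permOf a * permOf b := by rw [e1, mul_one]
  rw [e, tblOf_mul, tblOf_permOf (isTbl_of_inM24 a1), tblOf_permOf (isTbl_of_inM24 b1)]

theorem NN_sq {g : Equiv.Perm GolayPt} (hg : g ∈ NN) : g * g = 1 := by
  obtain ⟨a, ha, b, hb, e⟩ := NN_enum hg
  apply tblOf_injective
  rw [tblOf_mul, e, sq_one a ha b hb, tblOf_one]

/-- the tables of the kernel. -/
def QL : List (List ℕ) := U1.flatMap fun a => U2.map (comp a)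

theorem card_ker_le : Nat.card phi.ker ≤ 64 := by
  have hf : ∀ g : phi.ker, tblOf g.1.1 ∈ QL.toFinset := by
    intro g
    obtain ⟨a, ha, b, hb, e⟩ := NN_enum (ker_sub g.2)
    rw [List.mem_toFinset, e]
    exact List.mem_flatMap.2 ⟨a, ha, List.mem_map.2 ⟨b, hb, rfl⟩⟩
  have h1 : Nat.card phi.ker ≤ Nat.card ↥QL.toFinset := by
    apply Nat.card_le_card_of_injective (fun g : phi.ker => (⟨tblOf g.1.1, hf g⟩ : ↥QL.toFinset))
    intro x y e
    exact Subtype.ext (Subtype.ext (tblOf_injective (congrArg Subtype.val e)))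
  have h2 : Nat.card ↥QL.toFinset = QL.toFinset.card := by
    rw [Nat.card_eq_fintype_card, Fintype.card_coe]
  rw [h2] at h1
  exact h1.trans ((List.toFinset_card_le _).trans (by decide))

theorem card_target : Nat.card (GL (Fin 3) (ZMod 2) × Equiv.Perm (Fin 3)) = 1008 := by
  rw [Nat.card_prod, Matrix.card_GL_field, Nat.card_eq_fintype_card, Fintype.card_perm, ZMod.card,
    Fin.prod_univ_three]
  rfl

theorem card_ker_mul {G H : Type*} [Group G] [Group H] (f : G →* H) :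
    Nat.card f.ker * Nat.card f.range = Nat.card G := by
  rw [← Subgroup.index_ker, Subgroup.card_mul_index]

theorem phi_surj : Function.Surjective phi := by
  rw [← MonoidHom.range_eq_top]
  have h1 := card_ker_mul phi
  rw [card_stabIn_trio T0_mem] at h1
  have h2 := card_ker_le
  have h3 : Nat.card phi.range ≤ 1008 := by
    rw [← card_target]; exact Subgroup.card_le_card_group _
  apply Subgroup.eq_top_of_card_eq
  rw [card_target]
  nlinarith

/-! ### the general trio -/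

theorem structure_of {G : Type*} [Group G] (e : G ≃* ↥(stabIn T0)) :
    ∃ (N : Subgroup G) (_ : N.Normal), Nat.card N = 64 ∧ (∀ x ∈ N, x * x = 1) ∧
      Nonempty (G ⧸ N ≃* GL (Fin 3) (ZMod 2) × Equiv.Perm (Fin 3)) := by
  have hs : Function.Surjective (phi.comp e.toMonoidHom) := phi_surj.comp e.surjective
  refine ⟨(phi.comp e.toMonoidHom).ker, MonoidHom.normal_ker _, ?_, ?_,
    ⟨QuotientGroup.quotientKerEquivOfSurjective _ hs⟩⟩
  · have h1 := card_ker_mul (phi.comp e.toMonoidHom)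
    rw [MonoidHom.range_eq_top.2 hs, Subgroup.card_top, card_target, Nat.card_congr e.toEquiv,
      card_stabIn_trio T0_mem] at h1
    omega
  · intro x hx
    have h1 : e x ∈ phi.ker := hx
    have h2 := NN_sq (ker_sub h1)
    apply e.injective
    rw [map_mul, map_one]
    exact Subtype.ext h2

/-- conjugation onto the stabiliser of the base trio. -/
def conjEquiv {T : Finset (Finset GolayPt)} {k : Equiv.Perm GolayPt} (hk : k ∈ M24) (e : k • T = T0) :
    ↥(stabilizer M24 T) ≃* ↥(stabIn T0) where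
  toFun g := ⟨k * g.1.1 * k⁻¹, conj_mem hk g.1.2, by
    have h : g.1.1 • T = T := g.2
    show (k * g.1.1 * k⁻¹) • T0 = T0
    rw [mul_smul, mul_smul, ← e, inv_smul_smul, h]⟩
  invFun h := ⟨⟨k⁻¹ * h.1 * k, M24.mul_mem (M24.mul_mem (M24.inv_mem hk) h.2.1) hk⟩, by
    have h' : h.1 • T0 = T0 := h.2.2
    rw [mem_stabilizer_iff]
    show (k⁻¹ * h.1 * k) • T = T
    rw [mul_smul, mul_smul, e, h', ← e, inv_smul_smul]⟩
  left_inv g := Subtype.ext (Subtype.ext (by
    show k⁻¹ * (k * g.1.1 * k⁻¹) * k = g.1.1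
    group))
  right_inv h := Subtype.ext (by
    show k * (k⁻¹ * h.1 * k) * k⁻¹ = h.1
    group)
  map_mul' a b := Subtype.ext (by
    show k * (a.1.1 * b.1.1) * k⁻¹ = k * a.1.1 * k⁻¹ * (k * b.1.1 * k⁻¹)
    group)

/-! ### the transpositions -/

theorem swap_T0 {x y : Finset GolayPt} (hx : x ∈ T0) (hy : y ∈ T0) (hne : x ≠ y) :
    ∃ w ∈ M24, w • x = y ∧ w • y = x ∧ ∀ r ∈ T0, r ≠ x → r ≠ y → w • r = r := by
  obtain ⟨m, hm, rfl⟩ := mem_T0.1 hx
  obtain ⟨n, hn, rfl⟩ := mem_T0.1 hy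
  obtain ⟨c, hc, e1, e2, e3⟩ := SW_cov m hm n hn (fun e => hne (by rw [e]))
  have h1 := SW_ok c hc
  have hT := isTbl_of_inM24 h1
  refine ⟨permOf c, permOf_mem_M24 h1, ?_, ?_, ?_⟩
  · rw [permOf_smul_un hT (OM_ok m hm).2, e1]
  · rw [permOf_smul_un hT (OM_ok n hn).2, e2]
  · intro r hr h2 h3
    obtain ⟨q, hq, rfl⟩ := mem_T0.1 hr
    rw [permOf_smul_un hT (OM_ok q hq).2, e3 q hq (fun e => h2 (by rw [e])) (fun e => h3 (by rw [e]))]

theorem swap_T {T : Finset (Finset GolayPt)} (hT : T ∈ trios) {x y : Finset GolayPt} (hx : x ∈ T)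
    (hy : y ∈ T) (hne : x ≠ y) :
    ∃ w ∈ M24, w • x = y ∧ w • y = x ∧ ∀ r ∈ T, r ≠ x → r ≠ y → w • r = r := by
  obtain ⟨k, hk, e⟩ := exists_smul_trio hT T0_mem
  have hin : ∀ t ∈ T, k • t ∈ T0 := fun t ht => by rw [← e]; exact Finset.smul_mem_smul_finset ht
  obtain ⟨w, hw, e1, e2, e3⟩ := swap_T0 (hin x hx) (hin y hy) (fun h => hne (smul_left_cancel k h))
  refine ⟨k⁻¹ * w * k, ?_, ?_, ?_, ?_⟩
  · exact M24.mul_mem (M24.mul_mem (M24.inv_mem hk) hw) hk
  · rw [mul_smul, mul_smul, e1, inv_smul_smul]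
  · rw [mul_smul, mul_smul, e2, inv_smul_smul]
  · intro r hr h2 h3
    rw [mul_smul, mul_smul, e3 _ (hin r hr) (fun h => h2 (smul_left_cancel k h))
      (fun h => h3 (smul_left_cancel k h)), inv_smul_smul]

theorem induce {T : Finset (Finset GolayPt)} (hT : T ∈ trios) (e : Equiv.Perm ↥T) :
    ∃ g ∈ M24, ∀ t : ↥T, g • (t : Finset GolayPt) = ((e t : ↥T) : Finset GolayPt) := by
  induction e using Equiv.Perm.swap_induction_on with
  | one => exact ⟨1, M24.one_mem, fun t => by simp⟩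
  | swap_mul f x y hxy ih =>
    obtain ⟨g, hg, h⟩ := ih
    obtain ⟨w, hw, e1, e2, e3⟩ := swap_T hT x.2 y.2 (fun h => hxy (Subtype.ext h))
    refine ⟨w * g, M24.mul_mem hw hg, ?_⟩
    intro t
    rw [mul_smul, h t, Equiv.Perm.mul_apply, Equiv.swap_apply_def]
    split_ifs with h1 h2
    · rw [h1, e1]
    · rw [h2, e2]
    · exact e3 _ (f t).2 (fun h => h1 (Subtype.ext h)) (fun h => h2 (Subtype.ext h))

theorem main (T : Finset (Finset GolayPt)) (hT : T ∈ trios) :
    ∃ (N : Subgroup ↥(stabilizer M24 T)) (_ : N.Normal), Nat.card N = 64 ∧ (∀ x ∈ N, x * x = 1) ∧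
      Nonempty (↥(stabilizer M24 T) ⧸ N ≃* GL (Fin 3) (ZMod 2) × Equiv.Perm (Fin 3)) := by
  obtain ⟨k, hk, e⟩ := exists_smul_trio hT T0_mem
  exact structure_of (conjEquiv hk e)

end Cfsg.Agent.Lib.Helper3.TrioStab
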